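import Cfsg.Agent.H99.Aschbacher.Unitary
import Cfsg.Agent.H3.Generation
import Cfsg.Agent.H3.RootElements

/-!
The special unitary group lies in no member of the classes: transitivity of SU on vectors of a given norm,
irreducibility and primitivity, and the transvection arguments for fields, tensor products, subfields and
normalisers of symplectic-type groups.
-/

set_option autoImplicit false

open scoped MatrixGroups Matrix Kronecker commutatorElement

namespace Cfsg.Agent.H99.Asch

open Cfsg.Geo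

variable {F : Type*} [Field F] [Fintype F] {q n : ℕ}

/-- The special unitary group as a subgroup of the general linear group. -/
abbrev suGL (n : ℕ) (F : Type*) [Field F] (q : ℕ) : Subgroup (GL (Fin n) F) :=
  GU n F q ⊓ specialLinear (Fin n) F

lemma mem_specialLinear_iff {ι : Type} [Fintype ι] [DecidableEq ι] {F : Type*} [Field F] {g : GL ι F} :
    g ∈ specialLinear ι F ↔ (g : Matrix ι ι F).det = 1 := by
  rw [specialLinear, MonoidHom.mem_ker, Units.ext_iff]
  rfl

lemma rank_add_le' {ι : Type} [Fintype ι] {F : Type*} [Field F] (A B : Matrix ι ι F) :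
    (A + B).rank ≤ A.rank + B.rank := by
  rw [Matrix.rank, Matrix.rank, Matrix.rank]
  refine le_trans (Submodule.finrank_mono ?_) (Submodule.finrank_add_le_finrank_add_finrank _ _)
  rintro _ ⟨v, rfl⟩
  exact Submodule.mem_sup.2 ⟨A *ᵥ v, ⟨v, rfl⟩, B *ᵥ v, ⟨v, rfl⟩, (Matrix.add_mulVec A B v).symm⟩

lemma rank_smul_one {ι : Type} [Fintype ι] [DecidableEq ι] {F : Type*} [Field F] {c : F} (hc : c ≠ 0) :
    (c • (1 : Matrix ι ι F)).rank = Fintype.card ι := by
  refine Matrix.rank_of_det_ne_zero ?_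
  rw [Matrix.det_smul, Matrix.det_one, mul_one]
  exact pow_ne_zero _ hc

variable (hF : Fintype.card F = q ^ 2)
include hF

/-- GU is transitive on vectors of each norm, and so is SU in dimension at least three. -/
theorem exists_su_mulVec (hn : 3 ≤ n) {v w : Fin n → F} (hv : v ≠ 0) (hw : w ≠ 0)
    (h : hermForm n F q v v = hermForm n F q w w) :
    ∃ g ∈ suGL n F q, (g : Matrix (Fin n) (Fin n) F) *ᵥ v = w := by
  classical
  obtain ⟨g, hg⟩ := H3.exists_GU_mulVec_eq hF hv hw h
  have hq := H3.two_le_q hF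
  set i0 : Fin n := ⟨0, by omega⟩
  set i1 : Fin n := ⟨1, by omega⟩
  set i2 : Fin n := ⟨2, by omega⟩
  have h01 : i0 ≠ i1 := by simp [i0, i1, Fin.ext_iff]
  -- a standard vector of the same norm supported on the first two coordinates
  obtain ⟨v₀, hv₀, hv₀n, hv₀2⟩ : ∃ v₀ : Fin n → F, v₀ ≠ 0 ∧
      hermForm n F q v₀ v₀ = hermForm n F q v v ∧ v₀ i2 = 0 := by
    by_cases h0 : hermForm n F q v v = 0
    · obtain ⟨ε, -, -, hε, -⟩ := H3.exists_two_norm_neg_one hF
      refine ⟨Pi.single i0 1 + ε • Pi.single i1 1, fun e => ?_, by rw [h0, H3.hermForm_pair_isotropic hF h01 hε],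
        by simp [i0, i1, i2, Fin.ext_iff]⟩
      have := congrFun e i0
      simp [h01] at this
    · obtain ⟨a, ha⟩ := H3.exists_norm_eq hF (μ := hermForm n F q v v) (H3.hermForm_pow_q hF v v)
      refine ⟨Pi.single i0 a, fun e => ?_, ?_, by simp [i0, i2, Fin.ext_iff]⟩
      · have := congrFun e i0
        simp at this
        rw [this, zero_pow (by omega)] at ha
        exact h0 ha.symm
      · rw [H3.hermForm_single_left, Pi.single_eq_same, ← pow_succ', ha]
  obtain ⟨gv, hgv⟩ := H3.exists_GU_mulVec_eq hF hv₀ hv hv₀n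
  have hdet : ((g.1 : Matrix (Fin n) (Fin n) F).det) ^ (q + 1) = 1 := H3.det_GU hF g
  set δ := (g.1 : Matrix (Fin n) (Fin n) F).det
  let d : Fin n → F := Function.update 1 i2 δ⁻¹
  have hd : ∀ i, d i ^ (q + 1) = 1 := fun i => by
    by_cases hi : i = i2
    · subst hi; simp [d, inv_pow, hdet]
    · simp [d, hi]
  let D := H3.guDiag (q := q) d hd
  let k : GU n F q := g * (gv * D * gv⁻¹)
  have hDv₀ : (D.1 : Matrix (Fin n) (Fin n) F) *ᵥ v₀ = v₀ := by
    funext i
    show (Matrix.diagonal d *ᵥ v₀) i = v₀ i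
    rw [Matrix.mulVec_diagonal]
    by_cases hi : i = i2
    · subst hi; rw [hv₀2, mul_zero]
    · simp [d, hi]
  have hkv : (k.1 : Matrix (Fin n) (Fin n) F) *ᵥ v = w := by
    show ((g * (gv * D * gv⁻¹) : GU n F q).1 : Matrix (Fin n) (Fin n) F) *ᵥ v = w
    conv_lhs => rw [← hgv]
    rw [H3.mul_mulVec_GU, H3.mul_mulVec_GU, H3.mul_mulVec_GU, H3.inv_mulVec_GU, hDv₀, hgv, hg]
  refine ⟨k.1, ⟨k.2, mem_specialLinear_iff.2 ?_⟩, hkv⟩
  show ((g.1 * (gv.1 * D.1 * (gv.1)⁻¹) : GL (Fin n) F) : Matrix (Fin n) (Fin n) F).det = 1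
  rw [Units.val_mul, Units.val_mul, Units.val_mul, Matrix.det_mul, Matrix.det_units_conj]
  show δ * (Matrix.diagonal d).det = 1
  rw [Matrix.det_diagonal, Finset.prod_update_of_mem (Finset.mem_univ i2)]
  simp only [Pi.one_apply, Finset.prod_const_one, mul_one]
  exact mul_inv_cancel₀ fun e => by rw [e, zero_pow (by omega)] at hdet; exact zero_ne_one hdet

/-- A subspace with all vectors isotropic is totally singular. -/
lemma totallySingular_of_isotropic {W : Submodule F (Fin n → F)}
    (h : ∀ v ∈ W, hermForm n F q v v = 0) : IsTotallySingularFor (hermForm n F q) W := fun u hu v hv =>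
  H3.eq_zero_of_self_eq_zero (B := H3.hermB hF n) (H3.conjQ_ne_id hF) (H3.isHerm_hermB hF n).symm W h v hv u hu

/-- A vector with a prescribed isotropic partner. -/
lemma exists_isotropic_partner {v : Fin n → F} (hv : v ≠ 0) (hv0 : hermForm n F q v v = 0) :
    ∃ s, hermForm n F q s s = 0 ∧ hermForm n F q v s = 1 ∧ hermForm n F q s v = 1 := by
  obtain ⟨x, hx⟩ := H3.exists_hermForm_eq_one hF hv
  obtain ⟨t, ht⟩ := H3.exists_trace_eq hF (a := -hermForm n F q x x)
    (by rw [← H3.conjQ_apply hF, map_neg, H3.conjQ_apply, H3.hermForm_pow_q hF])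
  have hx' : hermForm n F q v x = 1 := by rw [← H3.hermForm_pow_q hF, hx, one_pow]
  refine ⟨x + t • v, ?_, ?_, ?_⟩
  · simp only [H3.hermForm_add_left hF, H3.hermForm_add_right hF, H3.hermForm_smul_left hF,
      H3.hermForm_smul_right hF, hv0, hx, hx']
    linear_combination ht
  · simp [H3.hermForm_add_right hF, H3.hermForm_smul_right hF, hv0, hx']
  · simp [H3.hermForm_add_left hF, H3.hermForm_smul_left hF, hv0, hx]

/-- A non-zero vector in a non-degenerate subspace can be replaced by one of norm one. -/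
lemma exists_norm_one_mem {W : Submodule F (Fin n → F)} (hW : W ≠ ⊥)
    (hnd : IsNondegenerateOn (hermForm n F q) W) : ∃ x ∈ W, hermForm n F q x x = 1 := by
  obtain ⟨w, hw, hw0⟩ := Submodule.exists_mem_ne_zero_of_ne_bot hW
  obtain ⟨v, hv, hv0⟩ : ∃ v ∈ W, hermForm n F q v v ≠ 0 := by
    by_contra h
    push Not at h
    obtain ⟨-, x, hx, hx0⟩ := hnd w hw hw0
    exact hx0 (totallySingular_of_isotropic hF h w hw x hx)
  obtain ⟨c, -, hc⟩ := (H3.isHerm_hermB hF n).exists_smul_self_eq_one (v := v) hv0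
  exact ⟨c • v, W.smul_mem _ hv, hc⟩

/-- SU fixes no proper non-zero subspace. -/
theorem su_not_le_subspace (hn : 3 ≤ n) {W : Submodule F (Fin n → F)} (h0 : W ≠ ⊥) (h1 : W ≠ ⊤) :
    ¬ suGL n F q ≤ subspaceStabilizer W := by
  intro h
  have hinv : ∀ g ∈ suGL n F q, ∀ v ∈ W, (g : Matrix (Fin n) (Fin n) F) *ᵥ v ∈ W := fun g hg v hv => (h hg v).1 hv
  by_cases hiso : ∀ v ∈ W, hermForm n F q v v = 0
  · obtain ⟨v, hv, hv0⟩ := Submodule.exists_mem_ne_zero_of_ne_bot h0
    obtain ⟨s, hs, hvs, -⟩ := exists_isotropic_partner hF hv0 (hiso v hv)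
    have hs0 : s ≠ 0 := fun e => by rw [e, H3.hermForm_zero_right hF] at hvs; exact zero_ne_one hvs
    obtain ⟨g, hg, hgv⟩ := exists_su_mulVec hF hn hv0 hs0 ((hiso v hv).trans hs.symm)
    have := totallySingular_of_isotropic hF hiso v hv s (hgv ▸ hinv g hg v hv)
    rw [hvs] at this
    exact one_ne_zero this
  · push Not at hiso
    obtain ⟨v, hv, hv0⟩ := hiso
    obtain ⟨c, -, hc⟩ := (H3.isHerm_hermB hF n).exists_smul_self_eq_one (v := v) hv0
    rw [H3.hermB_apply] at hc
    have hq : q ≠ 0 := by have := H3.two_le_q hF; omega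
    apply h1
    rw [eq_top_iff]
    intro x _
    rw [pi_eq_sum_univ' x]
    refine W.sum_mem fun i _ => W.smul_mem _ ?_
    have hi : hermForm n F q (Pi.single i 1) (Pi.single i 1) = 1 := by
      rw [H3.hermForm_single_left, Pi.single_eq_same, one_pow, mul_one]
    obtain ⟨g, hg, hgv⟩ := exists_su_mulVec hF hn (v := c • v) (w := Pi.single i 1)
      (fun e => by rw [e, H3.hermForm_zero_left hF] at hc; exact zero_ne_one hc) (by simp) (hc.trans hi.symm)
    exact hgv ▸ hinv g hg _ (W.smul_mem c hv)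

/-- SU permutes no orthogonal decomposition. -/
theorem su_not_le_decomposition (hn : 3 ≤ n) {t k : ℕ} {V : Fin t → Submodule F (Fin n → F)}
    (hV : IsNondegenerateMDecomposition (hermForm n F q) k V) : ¬ suGL n F q ≤ decompositionStabilizer V := by
  intro h
  classical
  have h2 := hV.decomp.two_le
  set i0 : Fin t := ⟨0, by omega⟩
  set i1 : Fin t := ⟨1, by omega⟩
  have h01 : i0 ≠ i1 := by simp [i0, i1, Fin.ext_iff]
  have hne : ∀ i, V i ≠ ⊥ := fun i e => by
    have h3 := hV.decomp.finrank_eq i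
    rw [e, finrank_bot] at h3
    exact absurd h3.symm hV.decomp.pos.ne'
  obtain ⟨x, hx, hxx⟩ := exists_norm_one_mem hF (hne i0) (hV.nondegenerate i0)
  obtain ⟨y, hy, hyy⟩ := exists_norm_one_mem hF (hne i1) (hV.nondegenerate i1)
  have hxy : hermForm n F q x y = 0 := hV.orthogonal i0 i1 h01 x hx y hy
  have hyx : hermForm n F q y x = 0 := hV.orthogonal i1 i0 (Ne.symm h01) y hy x hx
  have ho : H3.Orth (H3.hermB hF n) ![x, y] := by
    intro a b
    fin_cases a <;> fin_cases b <;> simp [hxx, hyy, hxy, hyx]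
  obtain ⟨z, hzz, hz⟩ := (H3.isHerm_hermB hF n).exists_next ho (by simp; omega)
  obtain ⟨c, -, -, hc, -⟩ := H3.exists_two_norm_neg_one hF
  rw [H3.hermB_apply] at hzz
  have hzx : hermForm n F q z x = 0 := hz 0
  have hzy : hermForm n F q z y = 0 := hz 1
  have hxz : hermForm n F q x z = 0 := (H3.hermForm_eq_zero_comm hF).1 hzx
  have hyz : hermForm n F q y z = 0 := (H3.hermForm_eq_zero_comm hF).1 hzy
  set u := x + y + c • z with hu
  have hux : hermForm n F q u x = 1 := by
    simp only [hu, H3.hermForm_add_left hF, H3.hermForm_smul_left hF, hxx, hyx, hzx]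
    ring
  have huy : hermForm n F q u y = 1 := by
    simp only [hu, H3.hermForm_add_left hF, H3.hermForm_smul_left hF, hxy, hyy, hzy]
    ring
  have huu : hermForm n F q u u = 1 := by
    simp only [hu, H3.hermForm_add_left hF, H3.hermForm_add_right hF, H3.hermForm_smul_left hF,
      H3.hermForm_smul_right hF, hxx, hxy, hyx, hyy, hzx, hzy, hxz, hyz, hzz]
    linear_combination hc
  obtain ⟨g, hg, hgx⟩ := exists_su_mulVec hF hn (v := x) (w := u)
    (fun e => by rw [e, H3.hermForm_zero_left hF] at hxx; exact zero_ne_one hxx)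
    (fun e => by rw [e, H3.hermForm_zero_left hF] at hux; exact zero_ne_one hux) (hxx.trans huu.symm)
  obtain ⟨π, hπ⟩ := h hg
  have hmem : u ∈ V (π i0) := by rw [← hπ i0]; exact ⟨x, hx, hgx⟩
  by_cases hj : π i0 = i0
  · have := hV.orthogonal (π i0) i1 (by rw [hj]; exact h01) u hmem y hy
    rw [huy] at this
    exact one_ne_zero this
  · have := hV.orthogonal (π i0) i0 hj u hmem x hx
    rw [hux] at this
    exact one_ne_zero this

/-- SU swaps no pair of totally singular halves. -/
theorem su_not_le_halves (hn : 3 ≤ n) {k : ℕ} {V : Fin 2 → Submodule F (Fin n → F)}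
    (hV : IsMDecomposition k V) (hts : ∀ i, IsTotallySingularFor (hermForm n F q) (V i)) :
    ¬ suGL n F q ≤ decompositionStabilizer V := by
  intro h
  obtain ⟨v, hv, hv0⟩ := Submodule.exists_mem_ne_zero_of_ne_bot (show V 0 ≠ ⊥ from fun e => by
    have h3 := hV.finrank_eq 0
    rw [e, finrank_bot] at h3
    exact absurd h3.symm hV.pos.ne')
  obtain ⟨x, hx⟩ := H3.exists_hermForm_eq_one hF hv0
  have htop : V 0 ⊔ V 1 = ⊤ := by
    refine eq_top_iff.2 (hV.iSup_eq_top ▸ iSup_le fun i => ?_)
    fin_cases i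
    · exact le_sup_left
    · exact le_sup_right
  obtain ⟨a, ha, w, hw, hxw⟩ := Submodule.mem_sup.1 (show x ∈ V 0 ⊔ V 1 by rw [htop]; trivial)
  have hwv : hermForm n F q w v = 1 := by
    rw [← hxw, H3.hermForm_add_left hF, hts 0 a ha v hv, zero_add] at hx
    exact hx
  have hvw : hermForm n F q v w = 1 := by rw [← H3.hermForm_pow_q hF, hwv, one_pow]
  obtain ⟨b, hb0, hb⟩ := H3.exists_trace_zero_ne_zero hF
  set u := v + b • w with hu
  have huu : hermForm n F q u u = 0 := by
    simp only [hu, H3.hermForm_add_left hF, H3.hermForm_add_right hF, H3.hermForm_smul_left hF,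
      H3.hermForm_smul_right hF, hts 0 v hv v hv, hts 1 w hw w hw, hwv, hvw]
    linear_combination hb
  have hne : u ∉ V 0 ∧ u ∉ V 1 := by
    constructor
    · intro hu0
      have hbw : b • w ∈ V 0 := by
        have := (V 0).sub_mem hu0 hv
        rwa [hu, add_sub_cancel_left] at this
      have hw0 : w ∈ V 0 := by
        have := (V 0).smul_mem b⁻¹ hbw
        rwa [inv_smul_smul₀ hb0] at this
      rw [hts 0 w hw0 v hv] at hwv
      exact zero_ne_one hwv
    · intro hu1
      have hv1 : v ∈ V 1 := by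
        have := (V 1).sub_mem hu1 ((V 1).smul_mem b hw)
        rwa [hu, add_sub_cancel_right] at this
      rw [hts 1 w hw v hv1] at hwv
      exact zero_ne_one hwv
  obtain ⟨g, hg, hgv⟩ := exists_su_mulVec hF hn (v := v) (w := u) hv0
    (fun e => hne.1 (by rw [e]; exact Submodule.zero_mem _)) ((hts 0 v hv v hv).trans huu.symm)
  obtain ⟨π, hπ⟩ := h hg
  have hmem : u ∈ V (π 0) := by rw [← hπ 0]; exact ⟨v, hv, hgv⟩
  rcases Fin.exists_fin_two.1 ⟨π 0, rfl⟩ with e | e <;> rw [e] at hmem
  · exact hne.1 hmem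
  · exact hne.2 hmem

/-- An element of SU given by a unitary transvection. -/
lemma exists_transGL {v : Fin n → F} {c : F} (hv : hermForm n F q v v = 0) (hc : c + c ^ q = 0) :
    ∃ t ∈ suGL n F q, (t : Matrix (Fin n) (Fin n) F) = unitaryTransvection n q v c := by
  refine ⟨Matrix.GeneralLinearGroup.mkOfDetNeZero (unitaryTransvection n q v c)
    (by rw [H3.det_unitaryTransvection v c hv]; exact one_ne_zero), ⟨?_, ?_⟩, rfl⟩
  · exact fun x y => H3.transvection_preserves hF hv hc x y
  · exact mem_specialLinear_iff.2 (H3.det_unitaryTransvection v c hv)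

/-- A conjugate by a transvection differs by rank at most two. -/
lemma rank_trans_conj_le (v : Fin n → F) (c : F) (t : GL (Fin n) F)
    (ht : (t : Matrix (Fin n) (Fin n) F) = unitaryTransvection n q v c) (x : Matrix (Fin n) (Fin n) F) :
    ((t : Matrix (Fin n) (Fin n) F) * x * ((t⁻¹ : GL (Fin n) F) : Matrix (Fin n) (Fin n) F) - x).rank ≤ 2 := by
  let N : Matrix (Fin n) (Fin n) F := Matrix.vecMulVec (c • v) (fun j => v j ^ q)
  have hN : (t : Matrix (Fin n) (Fin n) F) = 1 + N := by
    rw [ht, unitaryTransvection, ← Matrix.smul_vecMulVec]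
  have key : (t : Matrix (Fin n) (Fin n) F) * x * ((t⁻¹ : GL (Fin n) F) : Matrix (Fin n) (Fin n) F) - x =
      (N * x + (-x) * N) * ((t⁻¹ : GL (Fin n) F) : Matrix (Fin n) (Fin n) F) := by
    rw [show N * x + (-x) * N = (t : Matrix (Fin n) (Fin n) F) * x - x * (t : Matrix (Fin n) (Fin n) F) by
      rw [hN]; noncomm_ring, sub_mul, mul_assoc x, ← Units.val_mul, mul_inv_cancel, Units.val_one, mul_one]
  rw [key]
  refine (Matrix.rank_mul_le_left _ _).trans ((rank_add_le' _ _).trans ?_)
  exact add_le_add ((Matrix.rank_mul_le_left _ _).trans (Matrix.rank_vecMulVec_le _ _))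
    ((Matrix.rank_mul_le_right _ _).trans (Matrix.rank_vecMulVec_le _ _))

/-- A matrix commuting with all elements of SU is scalar. -/
lemma scalar_of_commute_su (hn : 2 ≤ n) {x : Matrix (Fin n) (Fin n) F}
    (h : ∀ (v : Fin n → F) (c : F) (t : GL (Fin n) F), t ∈ suGL n F q →
      (t : Matrix (Fin n) (Fin n) F) = unitaryTransvection n q v c →
      (t : Matrix (Fin n) (Fin n) F) * x * ((t⁻¹ : GL (Fin n) F) : Matrix (Fin n) (Fin n) F) = x) :
    ∃ c : F, x = c • 1 := by
  obtain ⟨l, hl⟩ := H3.scalar_of_commute_transvections hF hn x fun v c hv hc => by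
    obtain ⟨t, ht, htc⟩ := exists_transGL hF hv hc
    show x * unitaryTransvection n q v c = unitaryTransvection n q v c * x
    rw [← htc]
    exact ((Units.mul_inv_eq_iff_eq_mul t).1 (h v c t ht htc)).symm
  exact ⟨l, Matrix.ext_of_mulVec_single fun i => by rw [hl, Matrix.smul_mulVec, Matrix.one_mulVec]⟩

/-- SU normalises no extension field. -/
theorem su_not_le_field (hn : 3 ≤ n) {r : ℕ} (hr : r.Prime) {K : Subalgebra F (Matrix (Fin n) (Fin n) F)}
    (hK : IsFieldSubalgebra r K) : ¬ suGL n F q ≤ subalgebraNormalizer K := by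
  intro h
  have hbot : K ≤ (⊥ : Subalgebra F (Matrix (Fin n) (Fin n) F)) := by
    intro x hx
    obtain ⟨c, hc⟩ := scalar_of_commute_su hF (x := x) (by omega) fun v c t ht htc => by
      by_contra hne
      have hy : (t : Matrix (Fin n) (Fin n) F) * x * ((t⁻¹ : GL (Fin n) F) : Matrix (Fin n) (Fin n) F) - x ∈ K :=
        K.sub_mem ((h ht x).1 hx) hx
      obtain ⟨z, -, hz⟩ := hK.inv _ hy (sub_ne_zero.2 hne)
      have := rank_trans_conj_le hF v c t htc x
      rw [Matrix.rank_of_isUnit _ (IsUnit.of_mul_eq_one z hz), Fintype.card_fin] at this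
      omega
    rw [hc, ← Algebra.algebraMap_eq_smul_one]
    exact Subalgebra.algebraMap_mem _ _
  have : Nonempty (Fin n) := ⟨⟨0, by omega⟩⟩
  have h1 : Module.finrank F K = 1 := by rw [le_bot_iff.1 hbot]; exact Subalgebra.finrank_bot
  have := hr.two_le
  rw [hK.finrank_eq] at h1
  omega

/-- SU stabilises no tensor decomposition with second factor of dimension at least three. -/
theorem su_not_le_tensor {n₁ n₂ : ℕ} (h1 : 2 ≤ n₁) (h2 : 3 ≤ n₂)
    (e : Fin n ≃ Fin n₁ × Fin n₂) (P : GL (Fin n) F) : ¬ suGL n F q ≤ tensorProductSubgroup n₁ n₂ e P := by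
  intro h
  have hcard : n = n₁ * n₂ := by simpa using Fintype.card_congr e
  have hn : 2 ≤ n := by rw [hcard]; exact le_trans h1 (Nat.le_mul_of_pos_right _ (by omega))
  have : NeZero n₁ := ⟨by omega⟩
  have : NeZero n₂ := ⟨by omega⟩
  let L : Matrix (Fin n₁) (Fin n₁) F →ₐ[F] Matrix (Fin n) (Fin n) F := (conjHom P).comp (tensL e)
  have hinj : Function.Injective L := fun a b hab => tensL_injective e (conj_inj P (by
    simpa only [L, AlgHom.comp_apply, conjHom_apply] using hab))
  let E := Matrix.single (⟨0, by omega⟩ : Fin n₁) (⟨1, by omega⟩ : Fin n₁) (1 : F)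
  obtain ⟨c, hc⟩ := scalar_of_commute_su hF (x := L E) hn fun v c t ht htc => by
    obtain ⟨a, b, hab⟩ := mem_tensorProductSubgroup_iff.1 (h ht)
    set E' := (a : Matrix (Fin n₁) (Fin n₁) F) * E * ((a⁻¹ : GL (Fin n₁) F) : Matrix (Fin n₁) (Fin n₁) F) with hE'
    have hconj : (t : Matrix (Fin n) (Fin n) F) * L E * ((t⁻¹ : GL (Fin n) F) : Matrix (Fin n) (Fin n) F) = L E' := by
      rw [Units.mul_inv_eq_iff_eq_mul]
      simp only [L, AlgHom.comp_apply, tensL_apply, conjHom_apply, hab, hE']
      simp only [mul_assoc]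
      simp only [← mul_assoc ((P⁻¹ : GL (Fin n) F) : Matrix (Fin n) (Fin n) F) (P : Matrix (Fin n) (Fin n) F),
        Units.inv_mul, one_mul]
      simp only [← mul_assoc (tens e _ _) (tens e _ _), tens_mul, one_mul, mul_one]
      rw [mul_assoc, mul_assoc, Units.inv_mul, mul_one]
    rw [hconj]
    by_contra hne
    obtain ⟨i, j, hij⟩ : ∃ i j, (E' - E) i j ≠ 0 := by
      by_contra h0
      push Not at h0
      exact hne (by rw [sub_eq_zero.1 (Matrix.ext h0 : E' - E = 0)])
    have hr := rank_trans_conj_le hF v c t htc (L E)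
    rw [hconj, ← map_sub] at hr
    have hsub : (tens e (E' - E) (1 : Matrix (Fin n₂) (Fin n₂) F)).submatrix
        (fun k => e.symm (i, k)) (fun k => e.symm (j, k)) = (E' - E) i j • (1 : Matrix (Fin n₂) (Fin n₂) F) := by
      ext k l
      simp [tens_apply, Matrix.one_apply]
    have h3 := Matrix.rank_submatrix_le (tens e (E' - E) (1 : Matrix (Fin n₂) (Fin n₂) F))
      (fun k => e.symm (i, k)) (fun k => e.symm (j, k))
    rw [hsub, rank_smul_one hij, Fintype.card_fin] at h3
    have h4 : (tens e (E' - E) (1 : Matrix (Fin n₂) (Fin n₂) F)).rank ≤ (L (E' - E)).rank := by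
      have e5 : tens e (E' - E) (1 : Matrix (Fin n₂) (Fin n₂) F) = ((P⁻¹ : GL (Fin n) F) : Matrix (Fin n) (Fin n) F) *
          L (E' - E) * (P : Matrix (Fin n) (Fin n) F) := by
        simp only [L, AlgHom.comp_apply, tensL_apply, conjHom_apply]
        simp [mul_assoc]
      rw [e5]
      exact (Matrix.rank_mul_le_left _ _).trans (Matrix.rank_mul_le_right _ _)
    omega
  have hE : E = c • 1 := hinj (by rw [map_smul, map_one]; exact hc)
  have := congrFun (congrFun hE ⟨0, by omega⟩) ⟨1, by omega⟩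
  simp [E] at this

/-- SU lies in no subfield group. -/
theorem su_not_le_subfield (hn : 3 ≤ n) {r : ℕ} (hr : r.Prime) {F₀ : Subfield F}
    (hc : Fintype.card F = Nat.card F₀ ^ r) (P : GL (Fin n) F) : ¬ suGL n F q ≤ subfieldSubgroup F₀ P := by
  intro h
  classical
  let σ := H3.conjQ hF
  obtain ⟨p, hp⟩ := CharP.exists F
  obtain ⟨d, hpp, hd⟩ := FiniteField.card F p
  have : Fact p.Prime := ⟨hpp⟩
  obtain ⟨d₀, -, hd₀⟩ := (Nat.dvd_prime_pow hpp).1 (show Nat.card F₀ ∣ p ^ (d : ℕ) by
    rw [← hd, hc]; exact dvd_pow_self _ hr.ne_zero)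
  let τ : F →+* F :=
    { toFun := fun x => x ^ Nat.card F₀
      map_one' := one_pow _
      map_mul' := fun x y => mul_pow x y _
      map_zero' := zero_pow (Nat.pos_iff_ne_zero.1 Nat.card_pos)
      map_add' := fun x y => by rw [hd₀]; exact add_pow_char_pow x y p d₀ }
  have hτ : ∀ x, x ∈ F₀ ↔ τ x = x := fun x => mem_subfield_iff F₀ x
  -- the rational rank-one part of every transvection
  have hA : ∀ (v : Fin n → F) (c : F), hermForm n F q v v = 0 → c + c ^ q = 0 →
      ∀ i j, (((P⁻¹ : GL (Fin n) F) : Matrix (Fin n) (Fin n) F) * Matrix.vecMulVec (c • v) (fun j => v j ^ q) *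
        (P : Matrix (Fin n) (Fin n) F)) i j ∈ F₀ := by
    intro v c hv hc'
    obtain ⟨t, ht, htc⟩ := exists_transGL hF hv hc'
    obtain ⟨k, hk, hkt⟩ := h ht
    obtain ⟨a', ⟨a₀, rfl⟩, z, hz, haz⟩ := Subgroup.mem_sup_of_normal_right.1 hk
    obtain ⟨s, hs⟩ := (mem_scalars_iff z).1 hz
    let M : Matrix (Fin n) (Fin n) F := (a₀ : Matrix (Fin n) (Fin n) F₀).map F₀.subtype
    set A := ((P⁻¹ : GL (Fin n) F) : Matrix (Fin n) (Fin n) F) * Matrix.vecMulVec (c • v) (fun j => v j ^ q) *
      (P : Matrix (Fin n) (Fin n) F) with hAdef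
    have hA1 : A = (s : F) • M - 1 := by
      have e1 : ((P⁻¹ : GL (Fin n) F) : Matrix (Fin n) (Fin n) F) * (t : Matrix (Fin n) (Fin n) F) *
          (P : Matrix (Fin n) (Fin n) F) = (s : F) • M := by
        rw [← hkt, ← haz]
        show ((P⁻¹ : GL (Fin n) F) : Matrix (Fin n) (Fin n) F) *
          ((P * (_ * z) * P⁻¹ : GL (Fin n) F) : Matrix (Fin n) (Fin n) F) * (P : Matrix (Fin n) (Fin n) F) = _
        rw [← Units.val_mul, ← Units.val_mul]
        simp only [mul_assoc, inv_mul_cancel_left, inv_mul_cancel, mul_one]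
        rw [Units.val_mul, hs, mul_smul_comm, mul_one]
        rfl
      rw [← e1, htc, unitaryTransvection, ← Matrix.smul_vecMulVec, mul_add, mul_one, add_mul, ← Units.val_mul,
        inv_mul_cancel, Units.val_one, add_sub_cancel_left]
    have hM : M.map τ = M := Matrix.ext fun i j => (hτ _).1 ((a₀ : Matrix (Fin n) (Fin n) F₀) i j).2
    have hrA : A.rank ≤ 1 :=
      (Matrix.rank_mul_le_left _ _).trans ((Matrix.rank_mul_le_right _ _).trans (Matrix.rank_vecMulVec_le _ _))
    have hrA' : (A.map τ).rank ≤ 1 := by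
      rw [hAdef, Matrix.map_mul, Matrix.map_mul]
      refine (Matrix.rank_mul_le_left _ _).trans ((Matrix.rank_mul_le_right _ _).trans ?_)
      rw [show (Matrix.vecMulVec (c • v) (fun j => v j ^ q)).map τ =
        Matrix.vecMulVec (τ ∘ (c • v)) (τ ∘ fun j => v j ^ q) from Matrix.ext fun i j => by
          simp [Matrix.vecMulVec_apply, mul_assoc]]
      exact Matrix.rank_vecMulVec_le _ _
    have hs0 : (s : F) ∈ F₀ := by
      rw [hτ]
      by_contra hne
      have key : ((s : F) - τ s) • (1 : Matrix (Fin n) (Fin n) F) = τ s • A + (-(s : F)) • A.map τ := by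
        rw [hA1, Matrix.map_sub _ (map_sub τ), Matrix.map_smul' _ _ _ (map_mul τ), hM,
          Matrix.map_one _ (map_zero τ) (map_one τ)]
        ext i j
        simp only [Matrix.smul_apply, Matrix.sub_apply, Matrix.add_apply, smul_eq_mul]
        ring
      have hr2 := congrArg Matrix.rank key
      rw [rank_smul_one (sub_ne_zero.2 (Ne.symm hne)),
        Fintype.card_fin] at hr2
      have := rank_add_le' (τ s • A) ((-(s : F)) • A.map τ)
      rw [← hr2] at this
      have e2 : (τ s • A).rank ≤ 1 := by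
        rw [← Matrix.one_mul A, ← Matrix.smul_mul]
        exact (Matrix.rank_mul_le_right _ _).trans hrA
      have e3 : ((-(s : F)) • A.map τ).rank ≤ 1 := by
        rw [← Matrix.one_mul (A.map τ), ← Matrix.smul_mul]
        exact (Matrix.rank_mul_le_right _ _).trans hrA'
      omega
    intro i j
    rw [hA1]
    simp only [Matrix.sub_apply, Matrix.smul_apply, smul_eq_mul, Matrix.one_apply]
    refine F₀.sub_mem (F₀.mul_mem hs0 ((a₀ : Matrix (Fin n) (Fin n) F₀) i j).2) ?_
    split_ifs
    · exact F₀.one_mem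
    · exact F₀.zero_mem
  obtain ⟨c₀, hc0, hc₀⟩ := H3.exists_trace_zero_ne_zero hF
  obtain ⟨v, hv0, hv⟩ := H3.exists_isotropic hF (n := n) (by omega)
  obtain ⟨w₀, -, -, hw₀v⟩ := exists_isotropic_partner hF hv0 hv
  have hq : q ≠ 0 := by have := H3.two_le_q hF; omega
  -- the fixed field of σ is F₀
  obtain ⟨K, hK, hKc⟩ := card_eq_sq_fixed σ (H3.conjQ_conjQ hF) (H3.conjQ_ne_id hF)
  have hKF : K ≤ F₀ := by
    intro μ hμ
    set A := ((P⁻¹ : GL (Fin n) F) : Matrix (Fin n) (Fin n) F) * Matrix.vecMulVec (c₀ • v) (fun j => v j ^ q) *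
      (P : Matrix (Fin n) (Fin n) F) with hAdef
    obtain ⟨i, j, hij⟩ : ∃ i j, A i j ≠ 0 := by
      by_contra h0
      push Not at h0
      have hA0 : A = 0 := Matrix.ext h0
      have h5 : Matrix.vecMulVec (c₀ • v) (fun j => v j ^ q) = 0 := by
        have := congrArg (fun M => (P : Matrix (Fin n) (Fin n) F) * M * ((P⁻¹ : GL (Fin n) F) :
          Matrix (Fin n) (Fin n) F)) hA0
        simpa [hAdef, mul_assoc] using this
      obtain ⟨i, hi⟩ := Function.ne_iff.1 hv0
      have := congrFun (congrFun h5 i) i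
      simp only [Matrix.vecMulVec_apply, Pi.smul_apply, smul_eq_mul, Matrix.zero_apply, mul_eq_zero] at this
      rcases this with (h6 | h6) | h6
      · exact hc0 h6
      · exact hi h6
      · exact hi (eq_zero_of_pow_eq_zero h6)
    have hμ' : μ ^ q = μ := (hK μ).1 hμ
    have h6 := hA v (μ * c₀) hv (by rw [mul_pow, hμ', ← mul_add, hc₀, mul_zero]) i j
    rw [show (μ * c₀) • v = μ • (c₀ • v) from (smul_smul _ _ _).symm, Matrix.smul_vecMulVec, mul_smul_comm,
      smul_mul_assoc, Matrix.smul_apply, ← hAdef, smul_eq_mul] at h6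
    have := F₀.div_mem h6 (hA v c₀ hv hc₀ i j)
    rwa [← hAdef, mul_div_cancel_right₀ _ hij] at this
  have hFK : F₀ = K := by
    obtain ⟨m, hm⟩ := exists_card_eq_pow_of_le hKF
    rw [hc, hm, ← pow_mul] at hKc
    have h2 := Nat.pow_right_injective (Finite.one_lt_card : 1 < Nat.card K) hKc
    have hm1 : m = 1 := by
      rcases (Nat.dvd_prime Nat.prime_two).1 ⟨r, h2.symm⟩ with h3 | h3
      · exact h3
      · rw [h3] at h2
        have := hr.two_le
        omega
    rw [hm1, pow_one] at hm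
    ext x
    rw [mem_subfield_iff, mem_subfield_iff, hm]
  -- three transvections with trace of the product outside the fixed field
  have hvw₀ : hermForm n F q v w₀ = 1 := by rw [← H3.hermForm_pow_q hF, hw₀v, one_pow]
  obtain ⟨u, huu, hvu, huv⟩ := exists_isotropic_partner hF hv0 hv
  have ho : LinearIndependent F ![v, u] := by
    refine LinearIndependent.pair_iff.2 fun a b hab => ?_
    have e1 := congrArg (fun z => hermForm n F q z v) hab
    have e2 := congrArg (fun z => hermForm n F q z u) hab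
    simp only [H3.hermForm_add_left hF, H3.hermForm_smul_left hF, H3.hermForm_zero_left hF, hv, huu, huv, hvu,
      mul_zero, zero_add, add_zero, mul_one] at e1 e2
    exact ⟨e2, e1⟩
  obtain ⟨z, hz1, hzv, hzu⟩ : ∃ z, hermForm n F q z z = 1 ∧ hermForm n F q z v = 0 ∧ hermForm n F q z u = 0 := by
    obtain ⟨z₀, hz₀, hz₀v⟩ := H3.exists_norm_one_orth hF hn hv0 hv
    have hz₀v' : hermForm n F q z₀ v = 0 := (H3.hermForm_eq_zero_comm hF).1 hz₀v
    set β := hermForm n F q z₀ u with hβ
    have hβ' : hermForm n F q u z₀ = β ^ q := (H3.hermForm_pow_q hF z₀ u).symm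
    refine ⟨z₀ - β • v, ?_, ?_, ?_⟩
    · simp only [H3.hermForm_sub_left hF, H3.hermForm_sub_right hF, H3.hermForm_smul_left hF,
        H3.hermForm_smul_right hF, hv, hz₀, hz₀v, hz₀v']
      ring
    · simp only [H3.hermForm_sub_left hF, H3.hermForm_smul_left hF, hv, hz₀v']
      ring
    · simp only [H3.hermForm_sub_left hF, H3.hermForm_smul_left hF, hvu, ← hβ]
      ring
  obtain ⟨a, ha⟩ := H3.exists_trace_eq hF (a := (-1 : F)) (by rw [← H3.conjQ_apply hF, map_neg, map_one])
  set w := u + a • v + z with hw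
  have huz : hermForm n F q u z = 0 := (H3.hermForm_eq_zero_comm hF).1 hzu
  have hvz : hermForm n F q v z = 0 := (H3.hermForm_eq_zero_comm hF).1 hzv
  have hww : hermForm n F q w w = 0 := by
    simp only [hw, H3.hermForm_add_left hF, H3.hermForm_add_right hF, H3.hermForm_smul_left hF,
      H3.hermForm_smul_right hF, huu, huv, hvu, hv, huz, hzu, hvz, hzv, hz1]
    linear_combination ha
  have hwv : hermForm n F q w v = 1 := by
    simp only [hw, H3.hermForm_add_left hF, H3.hermForm_smul_left hF, hv, huv, hzv]; ring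
  have huw : hermForm n F q u w = a ^ q := by
    simp only [hw, H3.hermForm_add_right hF, H3.hermForm_smul_right hF, huu, huv, huz]; ring
  have htr : ∀ x y z : Fin n → F,
      ((Matrix.vecMulVec (c₀ • x) fun j => x j ^ q) * (Matrix.vecMulVec (c₀ • y) fun j => y j ^ q) *
        (Matrix.vecMulVec (c₀ • z) fun j => z j ^ q)).trace =
      c₀ ^ 3 * hermForm n F q y x * hermForm n F q z y * hermForm n F q x z := by
    intro x y z
    have e : ∀ x y : Fin n → F, (fun j => x j ^ q) ⬝ᵥ y = hermForm n F q y x := fun x y => by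
      simp [dotProduct, hermForm, mul_comm]
    simp only [Matrix.vecMulVec_mul_vecMulVec, Matrix.trace_vecMulVec, Matrix.vecMulVec_smul, smul_dotProduct,
      dotProduct_smul, Matrix.smul_mul, Matrix.mul_smul, Matrix.trace_smul, smul_eq_mul, Matrix.smul_vecMulVec]
    rw [dotProduct_comm x, e, e, e]
    ring
  let N : (Fin n → F) → Matrix (Fin n) (Fin n) F := fun x => Matrix.vecMulVec (c₀ • x) fun j => x j ^ q
  let A : (Fin n → F) → Matrix (Fin n) (Fin n) F := fun x =>
    ((P⁻¹ : GL (Fin n) F) : Matrix (Fin n) (Fin n) F) * N x * (P : Matrix (Fin n) (Fin n) F)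
  have hmem : ((A u) * (A v) * (A w)).trace ∈ F₀ := by
    refine F₀.sum_mem fun i _ => ?_
    rw [Matrix.diag_apply, Matrix.mul_apply]
    refine F₀.sum_mem fun j _ => F₀.mul_mem ?_ (hA w c₀ hww hc₀ j i)
    rw [Matrix.mul_apply]
    exact F₀.sum_mem fun k _ => F₀.mul_mem (hA u c₀ huu hc₀ i k) (hA v c₀ hv hc₀ k j)
  have hconj : A u * A v * A w =
      ((P⁻¹ : GL (Fin n) F) : Matrix (Fin n) (Fin n) F) * (N u * N v * N w) * (P : Matrix (Fin n) (Fin n) F) := by
    simp only [A]
    simp [mul_assoc]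
  rw [hconj, Matrix.trace_units_conj', htr, hvu, hwv, huw, mul_one, mul_one, hFK, hK] at hmem
  simp only [map_mul, map_pow, σ, H3.conjQ_apply, H3.pow_q_pow_q hF] at hmem
  rw [eq_neg_of_add_eq_zero_right hc₀] at hmem
  have h7 : c₀ ^ 3 * (a + a ^ q) = 0 := by linear_combination -hmem
  rw [ha, mul_eq_zero] at h7
  exact h7.elim (pow_ne_zero _ hc0) (neg_ne_zero.2 one_ne_zero)

/-- SU normalises no symplectic-type group, in dimension at least five. -/
theorem su_not_le_symplecticType (hn : 5 ≤ n) {r : ℕ} {R : Subgroup (GL (Fin n) F)}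
    (hR : IsSymplecticTypeGroup r R) (habs : ActsAbsolutelyIrreducibly (matrixSet R)) :
    ¬ suGL n F q ≤ subgroupNormalizer R := by
  classical
  intro h
  have : Nonempty (Fin n) := ⟨⟨0, by omega⟩⟩
  have hne : ¬ R ≤ scalars (Fin n) F := by
    intro hRs
    obtain ⟨c, hc⟩ := habs.2 (Matrix.single (⟨0, by omega⟩ : Fin n) (⟨1, by omega⟩ : Fin n) (1 : F)) (by
      rintro _ ⟨s, hs, rfl⟩
      obtain ⟨d, hd⟩ := (mem_scalars_iff s).1 (hRs hs)
      show _ * (s : Matrix (Fin n) (Fin n) F) = (s : Matrix (Fin n) (Fin n) F) * _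
      rw [hd, mul_smul_comm, smul_mul_assoc, mul_one, one_mul])
    have := congrFun (congrFun hc ⟨0, by omega⟩) ⟨1, by omega⟩
    simp at this
  have : Fact r.Prime := ⟨hR.prime⟩
  obtain ⟨A, hmemA, hAns⟩ := exists_second_center R (scalars (Fin n) F) hR.pGroup hne
  obtain ⟨x, hxA, hxs⟩ := SetLike.not_le_iff_exists.1 hAns
  obtain ⟨l, hl⟩ := scalar_of_commute_su hF (x := (x : Matrix (Fin n) (Fin n) F)) (by omega) fun v c t ht htc => by
    set x' : GL (Fin n) F := t * x * t⁻¹ with hx'
    have hconj : ∀ g ∈ suGL n F q, ∀ y ∈ R, g * y * g⁻¹ ∈ R := fun g hg y hy =>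
      ((Subgroup.mem_normalizer_iff).1 (h hg) y).1 hy
    have hx'A : x' ∈ A := by
      rw [hmemA]
      refine ⟨hconj t ht x ((hmemA x).1 hxA).1, fun y hy => ?_⟩
      have hc := ((hmemA x).1 hxA).2 _ (hconj t⁻¹ (inv_mem ht) y hy)
      rw [inv_inv] at hc
      have := scalars_normal.conj_mem _ hc t
      convert this using 1
      simp [x', mul_assoc]
    set z := x' * x⁻¹ with hz
    have hzA : z ∈ A := A.mul_mem hx'A (A.inv_mem hxA)
    have hrk : ((z : Matrix (Fin n) (Fin n) F) - 1).rank ≤ 2 := by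
      have e : (z : Matrix (Fin n) (Fin n) F) - 1 =
          ((t : Matrix (Fin n) (Fin n) F) * (x : Matrix (Fin n) (Fin n) F) *
            ((t⁻¹ : GL (Fin n) F) : Matrix (Fin n) (Fin n) F) - (x : Matrix (Fin n) (Fin n) F)) *
          ((x⁻¹ : GL (Fin n) F) : Matrix (Fin n) (Fin n) F) := by
        rw [sub_mul, ← Units.val_mul, ← Units.val_mul, ← Units.val_mul, ← Units.val_mul, mul_inv_cancel,
          Units.val_one]
      rw [e]
      exact (Matrix.rank_mul_le_left _ _).trans (rank_trans_conj_le hF v c t htc _)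
    have hz1 : z = 1 := by
      by_contra hz1
      by_cases hzs : z ∈ scalars (Fin n) F
      · obtain ⟨b, hb⟩ := (mem_scalars_iff z).1 hzs
        have hb1 : (b : F) - 1 ≠ 0 := fun e => hz1 (Units.ext (by
          rw [hb, sub_eq_zero.1 e, one_smul]; rfl))
        rw [hb, show (b : F) • (1 : Matrix (Fin n) (Fin n) F) - 1 = ((b : F) - 1) • 1 by rw [sub_smul, one_smul],
          rank_smul_one hb1, Fintype.card_fin] at hrk
        omega
      · obtain ⟨y, hy, hyz⟩ : ∃ y ∈ R, y * z * y⁻¹ * z⁻¹ ≠ 1 := by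
          by_contra hall
          push Not at hall
          refine hzs (mem_scalars_of_commute habs fun y hy => ?_)
          have := mul_inv_eq_one.1 (hall y hy)
          exact (mul_inv_eq_iff_eq_mul.1 this).symm
        obtain ⟨b, hb⟩ := (mem_scalars_iff _).1 (((hmemA z).1 hzA).2 y hy)
        have hb1 : (b : F) - 1 ≠ 0 := fun e => hyz (Units.ext (by
          rw [hb, sub_eq_zero.1 e, one_smul]; rfl))
        have e4 : (y : Matrix (Fin n) (Fin n) F) * ((z : Matrix (Fin n) (Fin n) F) - 1) *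
            ((y⁻¹ : GL (Fin n) F) : Matrix (Fin n) (Fin n) F) =
            (b : F) • (z : Matrix (Fin n) (Fin n) F) - 1 := by
          rw [mul_sub, sub_mul, mul_one, ← Units.val_mul, ← Units.val_mul, ← Units.val_mul, mul_inv_cancel,
            Units.val_one, show y * z * y⁻¹ = y * z * y⁻¹ * z⁻¹ * z by simp, Units.val_mul, hb, smul_mul_assoc,
            one_mul]
        have hr2 : ((b : F) • (z : Matrix (Fin n) (Fin n) F) - 1).rank ≤ 2 := by
          rw [← e4]
          exact (Matrix.rank_mul_le_left _ _).trans ((Matrix.rank_mul_le_right _ _).trans hrk)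
        have key : ((b : F) - 1) • (1 : Matrix (Fin n) (Fin n) F) =
            ((b : F) • (z : Matrix (Fin n) (Fin n) F) - 1) +
              (-(b : F) • (1 : Matrix (Fin n) (Fin n) F)) * ((z : Matrix (Fin n) (Fin n) F) - 1) := by
          rw [smul_mul_assoc, one_mul, smul_sub, neg_smul, neg_smul, sub_smul, one_smul]
          abel
        have hr3 := congrArg Matrix.rank key
        rw [rank_smul_one hb1, Fintype.card_fin] at hr3
        have h5 := rank_add_le' ((b : F) • (z : Matrix (Fin n) (Fin n) F) - 1)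
          ((-(b : F) • (1 : Matrix (Fin n) (Fin n) F)) * ((z : Matrix (Fin n) (Fin n) F) - 1))
        rw [← hr3] at h5
        have h6 := (Matrix.rank_mul_le_right (-(b : F) • (1 : Matrix (Fin n) (Fin n) F))
          ((z : Matrix (Fin n) (Fin n) F) - 1)).trans hrk
        omega
    have : x' = x := mul_inv_eq_one.1 hz1
    rw [← Units.val_mul, ← Units.val_mul]
    exact congrArg Units.val this
  exact hxs (mem_scalars_of_smul hl)

/-- SU is perfect. -/
theorem suGL_le_commutator (hn : 3 ≤ n) (h32 : ¬(n = 3 ∧ q = 2)) :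
    suGL n F q ≤ ⁅suGL n F q, suGL n F q⁆ := by
  let φ : SU n F q →* GL (Fin n) F := (GU n F q).subtype.comp (H3.suToGU n F q)
  have hrange : φ.range = suGL n F q := by
    show ((GU n F q).subtype.comp (H3.suToGU n F q)).range = suGL n F q
    rw [MonoidHom.range_comp, H3.range_suToGU]
    ext g
    constructor
    · rintro ⟨x, hx, rfl⟩
      exact ⟨x.2, hx⟩
    · rintro ⟨h1, h2⟩
      exact ⟨⟨g, h1⟩, h2, rfl⟩
  rw [← hrange, MonoidHom.range_eq_map, ← Subgroup.map_commutator]
  have := H3.commutator_SU_eq_top hF hn h32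
  rw [commutator_def] at this
  rw [this]

/-- SU stabilises no tensor square of a space of dimension at least three. -/
theorem su_not_le_wreath {m : ℕ} (hm : 3 ≤ m) (e : Fin n ≃ (Fin 2 → Fin m)) (P : GL (Fin n) F) :
    ¬ suGL n F q ≤ tensorWreathSubgroup m 2 e P := by
  intro h
  have hcard : n = m ^ 2 := by simpa using Fintype.card_congr e
  have hn : 9 ≤ n := by rw [hcard]; exact le_trans (by norm_num) (Nat.pow_le_pow_left hm 2)
  exact su_not_le_tensor hF (n₁ := m) (by omega) hm (e.trans (finTwoArrowEquiv (Fin m))) P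
    ((suGL_le_commutator hF (by omega) (by omega)).trans
      ((Subgroup.commutator_mono h h).trans (wreath_commutator_le_tensor e P)))

end Cfsg.Agent.H99.Asch
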