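import Cfsg.Agent.H99.Aschbacher.UnitaryGroup

/-!
Maximal subgroups of the special unitary group in dimensions five to twenty-six: the list of alternatives, with
the refinements for the field of four elements.
-/

set_option autoImplicit false

open scoped MatrixGroups Matrix Kronecker

namespace Cfsg.Agent.H99.Asch

open Cfsg.Geo

variable {F : Type*} [Field F] [Fintype F] {q n : ℕ} (hF : Fintype.card F = q ^ 2)
include hF

/-- Coefficients in a block of an orthonormal family. -/
lemma orth_apply_block {t k : ℕ} {b : Fin t × Fin k → Fin n → F} (hb : H3.Orth (H3.hermB hF n) b) (i : Fin t)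
    (c : Fin k → F) (a : Fin k) : hermForm n F q (∑ a', c a' • b (i, a')) (b (i, a)) = c a := by
  classical
  have h : H3.Orth (H3.hermB hF n) (fun a' => b (i, a')) := fun x y => by
    rw [hb]
    exact if_congr ⟨fun h => congrArg Prod.snd h, fun h => by rw [h]⟩ rfl rfl
  exact h.apply_sum c a

/-- An orthonormal basis cut into t blocks of size k gives a decomposition. -/
theorem decomposition_of_orth {t k : ℕ} (ht : 2 ≤ t) (hk : 0 < k) (hn : t * k = n)
    (b : Fin t × Fin k → Fin n → F) (hb : H3.Orth (H3.hermB hF n) b) :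
    IsNondegenerateMDecomposition (hermForm n F q) k (fun i => Submodule.span F (Set.range fun a => b (i, a))) := by
  classical
  have hli := hb.linearIndependent
  have hf : ∀ p p', hermForm n F q (b p) (b p') = if p' = p then 1 else 0 := fun p p' => hb p' p
  set V : Fin t → Submodule F (Fin n → F) := fun i => Submodule.span F (Set.range fun a => b (i, a)) with hV
  have hfin : ∀ i, Module.finrank F (V i) = k := fun i => by
    rw [hV]
    simp only
    show Module.finrank F (Submodule.span F (Set.range (b ∘ fun a => (i, a)))) = k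
    rw [finrank_span_eq_card (hli.comp _ (fun a a' h => congrArg Prod.snd h)), Fintype.card_fin]
  have hort : ∀ i j, i ≠ j → AreOrthogonalFor (hermForm n F q) (V i) (V j) := by
    intro i j hij u hu v hv
    induction hu using Submodule.span_induction with
    | mem u hu =>
      obtain ⟨a, rfl⟩ := hu
      induction hv using Submodule.span_induction with
      | mem v hv =>
        obtain ⟨a', rfl⟩ := hv
        rw [hf, if_neg fun h => hij (congrArg Prod.fst h).symm]
      | zero => exact H3.hermForm_zero_right hF _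
      | add v v' _ _ h h' => rw [H3.hermForm_add_right hF, h, h', add_zero]
      | smul c v _ h => rw [H3.hermForm_smul_right hF, h, mul_zero]
    | zero => exact H3.hermForm_zero_left hF v
    | add u u' _ _ h h' => rw [H3.hermForm_add_left hF, h, h', add_zero]
    | smul c u _ h => rw [H3.hermForm_smul_left hF, h, mul_zero]
  have htop : iSup V = ⊤ := by
    have h1 : Submodule.span F (Set.range b) = ⊤ :=
      hli.span_eq_top_of_card_eq_finrank' (by simp [hn])
    rw [eq_top_iff, ← h1, Submodule.span_le]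
    rintro _ ⟨⟨i, a⟩, rfl⟩
    exact Submodule.mem_iSup_of_mem i (Submodule.subset_span ⟨a, rfl⟩)
  have hnd : ∀ i, IsNondegenerateOn (hermForm n F q) (V i) := by
    intro i w hw hw0
    have key : ∀ v, (∀ x ∈ V i, hermForm n F q v x = 0) → v ∈ V i → v = 0 := by
      intro v hv hvi
      obtain ⟨c, rfl⟩ := (Submodule.mem_span_range_iff_exists_fun F).1 hvi
      refine Finset.sum_eq_zero fun a _ => ?_
      have h1 := orth_apply_block hF hb i c a
      rw [hv _ (Submodule.subset_span ⟨a, rfl⟩)] at h1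
      rw [← h1, zero_smul]
    have h2 : ∃ x ∈ V i, hermForm n F q w x ≠ 0 := by
      by_contra h
      push Not at h
      exact hw0 (key w h hw)
    obtain ⟨x, hx, hx0⟩ := h2
    exact ⟨⟨x, hx, fun e => hx0 ((H3.hermForm_eq_zero_comm hF).1 e)⟩, x, hx, hx0⟩
  refine ⟨⟨ht, hk, hfin, ?_, htop⟩, hnd, hort⟩
  rw [iSupIndep_def]
  intro i
  rw [Submodule.disjoint_def]
  intro v hv hv'
  by_contra hv0
  obtain ⟨-, x, hx, hx0⟩ := hnd i v hv hv0
  apply hx0
  clear hx0 hv hv0
  induction hv' using Submodule.iSup_induction' with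
  | mem j v hv =>
    by_cases hji : j = i
    · subst hji
      rw [iSup_neg (fun h => h rfl), Submodule.mem_bot] at hv
      rw [hv, H3.hermForm_zero_left hF]
    · rw [iSup_pos hji] at hv
      exact hort j i hji v hv x hx
  | zero => exact H3.hermForm_zero_left hF x
  | add v v' _ _ h h' => rw [H3.hermForm_add_left hF, h, h', add_zero]

omit hF in
/-- In the field of four elements non-zero norms are one. -/
lemma norm_eq_one_of_four (hF : Fintype.card F = 2 ^ 2) {a : F} (ha : a ≠ 0) : a ^ 3 = 1 := by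
  have := FiniteField.pow_card_sub_one_eq_one a ha
  rwa [hF] at this

omit hF in
/-- Over the field of four elements a vector of norm one in two coordinates lies on an axis. -/
lemma axis_of_four (hF : Fintype.card F = 2 ^ 2) {a b : F} (h : a ^ 3 + b ^ 3 = 1) : a = 0 ∨ b = 0 := by
  by_contra h0
  push Not at h0
  rw [norm_eq_one_of_four hF h0.1, norm_eq_one_of_four hF h0.2] at h
  exact one_ne_zero (add_left_cancel (h.trans (add_zero (1 : F)).symm))

/-- For q = 2 a decomposition into planes is refined by one into lines. -/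
theorem decomposition_refine (hq : q = 2) {t : ℕ} {V : Fin t → Submodule F (Fin n → F)}
    (hV : IsNondegenerateMDecomposition (hermForm n F q) 2 V) (htn : t * 2 = n) :
    ∃ V' : Fin n → Submodule F (Fin n → F), IsNondegenerateMDecomposition (hermForm n F q) 1 V' ∧
      decompositionStabilizer V ⊓ GU n F q ≤ decompositionStabilizer V' := by
  classical
  subst hq
  have hb : ∀ i, ∃ x y, x ∈ V i ∧ y ∈ V i ∧ hermForm n F 2 x x = 1 ∧ hermForm n F 2 y y = 1 ∧
      hermForm n F 2 x y = 0 ∧ hermForm n F 2 y x = 0 ∧ ∀ v ∈ V i, ∃ a b : F, v = a • x + b • y := by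
    intro i
    have hne : V i ≠ ⊥ := fun e => by
      have h3 := hV.decomp.finrank_eq i
      rw [e, finrank_bot] at h3
      omega
    obtain ⟨x, hx, hxx⟩ := exists_norm_one_mem hF hne (hV.nondegenerate i)
    obtain ⟨w, hw, hwx⟩ : ∃ w ∈ V i, w ∉ Submodule.span F {x} := by
      by_contra h
      push Not at h
      have h1 := Submodule.finrank_mono (show V i ≤ Submodule.span F {x} from h)
      rw [hV.decomp.finrank_eq, finrank_span_singleton (fun e => by
        rw [e, H3.hermForm_zero_left hF] at hxx; exact zero_ne_one hxx)] at h1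
      omega
    set w' := w - hermForm n F 2 w x • x with hw'
    have hw'm : w' ∈ V i := (V i).sub_mem hw ((V i).smul_mem _ hx)
    have hw'x : hermForm n F 2 w' x = 0 := by
      rw [hw', H3.hermForm_sub_left hF, H3.hermForm_smul_left hF, hxx, mul_one, sub_self]
    have hw'0 : w' ≠ 0 := fun e => hwx (by
      rw [sub_eq_zero.1 e]; exact Submodule.smul_mem _ _ (Submodule.mem_span_singleton_self x))
    have hli : LinearIndependent F ![x, w'] := H3.linearIndependent_pair_of_orth hF hxx hw'0 hw'x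
    have hspan : ∀ v ∈ V i, ∃ a b : F, v = a • x + b • w' := by
      intro v hv
      have hle : Submodule.span F (Set.range ![x, w']) ≤ V i :=
        Submodule.span_le.2 (by rintro _ ⟨a, rfl⟩; fin_cases a <;> assumption)
      have heq := Submodule.eq_of_le_of_finrank_eq hle (by
        rw [finrank_span_eq_card hli, hV.decomp.finrank_eq, Fintype.card_fin])
      rw [← heq, Submodule.mem_span_range_iff_exists_fun] at hv
      obtain ⟨c, hc⟩ := hv
      exact ⟨c 0, c 1, by rw [← hc, Fin.sum_univ_two]; rfl⟩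
    have hw'w : hermForm n F 2 w' w' ≠ 0 := by
      intro h0
      obtain ⟨-, v, hv, hv0⟩ := hV.nondegenerate i w' hw'm hw'0
      obtain ⟨a, b, rfl⟩ := hspan v hv
      apply hv0
      rw [H3.hermForm_add_right hF, H3.hermForm_smul_right hF, H3.hermForm_smul_right hF, hw'x, h0, mul_zero,
        mul_zero, add_zero]
    obtain ⟨c, hc0, hc⟩ := (H3.isHerm_hermB hF n).exists_smul_self_eq_one (v := w') hw'w
    refine ⟨x, c • w', hx, (V i).smul_mem _ hw'm, hxx, hc, ?_, ?_, fun v hv => ?_⟩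
    · rw [H3.hermForm_smul_right hF, (H3.hermForm_eq_zero_comm hF).1 hw'x, mul_zero]
    · rw [H3.hermForm_smul_left hF, hw'x, mul_zero]
    · obtain ⟨a, b, rfl⟩ := hspan v hv
      exact ⟨a, b / c, by rw [smul_smul, div_mul_cancel₀ _ hc0]⟩
  choose x y hx hy hxx hyy hxy hyx hspan using hb
  let ε : Fin n ≃ Fin t × Fin 2 := (finCongr htn.symm).trans finProdFinEquiv.symm
  let B : Fin t × Fin 2 → Fin n → F := fun p => ![x p.1, y p.1] p.2
  have hBmem : ∀ i a, B (i, a) ∈ V i := fun i a => by fin_cases a <;> [exact hx i; exact hy i]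
  have hBorth : H3.Orth (H3.hermB hF n) B := by
    rintro ⟨i, a⟩ ⟨j, a'⟩
    rw [H3.hermB_apply]
    by_cases hij : i = j
    · subst hij
      fin_cases a <;> fin_cases a' <;> simp [B, hxx, hyy, hxy, hyx]
    · rw [if_neg fun h => hij (congrArg Prod.fst h), hV.orthogonal j i (Ne.symm hij) _ (hBmem j a') _ (hBmem i a)]
  let b : Fin n × Fin 1 → Fin n → F := fun p => B (ε p.1)
  have hborth : H3.Orth (H3.hermB hF n) b := by
    rintro ⟨p, u⟩ ⟨p', u'⟩
    rw [hBorth]
    exact if_congr ⟨fun h => Prod.ext (ε.injective h) (Subsingleton.elim u u'), fun h => congrArg ε (congrArg Prod.fst h)⟩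
      rfl rfl
  refine ⟨_, decomposition_of_orth hF (by have := hV.decomp.two_le; omega) one_pos (mul_one n) b hborth, ?_⟩
  rintro g ⟨⟨π, hπ⟩, hg⟩
  have hpres : ∀ u v, hermForm n F 2 ((g : Matrix (Fin n) (Fin n) F) *ᵥ u) ((g : Matrix (Fin n) (Fin n) F) *ᵥ v) =
      hermForm n F 2 u v := hg
  have himg : ∀ p, ∃ p' : Fin n, ∃ s : F, s ≠ 0 ∧ (g : Matrix (Fin n) (Fin n) F) *ᵥ B (ε p) = s • B (ε p') := by
    intro p
    obtain ⟨⟨i, a⟩, hp⟩ : ∃ z, ε p = z := ⟨_, rfl⟩
    rw [hp]
    have hm : (g : Matrix (Fin n) (Fin n) F) *ᵥ B (i, a) ∈ V (π i) := by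
      rw [← hπ i]; exact ⟨_, hBmem i a, rfl⟩
    obtain ⟨c, d, hcd⟩ := hspan _ _ hm
    have h1 : c ^ 3 + d ^ 3 = 1 := by
      have h2 := hpres (B (i, a)) (B (i, a))
      have h3 : hermForm n F 2 (B (i, a)) (B (i, a)) = 1 := by
        have := hBorth (i, a) (i, a)
        rwa [if_pos rfl] at this
      rw [h3, hcd] at h2
      simp only [H3.hermForm_add_left hF, H3.hermForm_add_right hF, H3.hermForm_smul_left hF,
        H3.hermForm_smul_right hF, hxx, hyy, hxy, hyx] at h2
      linear_combination h2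
    rcases axis_of_four hF h1 with rfl | rfl
    · refine ⟨ε.symm (π i, 1), d, fun e => ?_, ?_⟩
      · subst e; simp at h1
      · rw [hcd, Equiv.apply_symm_apply, zero_smul, zero_add]; rfl
    · refine ⟨ε.symm (π i, 0), c, fun e => ?_, ?_⟩
      · subst e; simp at h1
      · rw [hcd, Equiv.apply_symm_apply, zero_smul, add_zero]; rfl
  choose π' s hs hπ' using himg
  have hinj : Function.Injective π' := by
    intro p p' h
    by_contra hne
    have h1 := hpres (B (ε p)) (B (ε p'))
    rw [hπ', hπ', h, H3.hermForm_smul_left hF, H3.hermForm_smul_right hF] at h1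
    have h2 : hermForm n F 2 (B (ε (π' p'))) (B (ε (π' p'))) = 1 := by
      have := hBorth (ε (π' p')) (ε (π' p'))
      rwa [if_pos rfl] at this
    have h3 : hermForm n F 2 (B (ε p)) (B (ε p')) = 0 := by
      have := hBorth (ε p') (ε p)
      rwa [if_neg fun e => hne (ε.injective e).symm] at this
    rw [h2, h3, mul_one] at h1
    exact mul_ne_zero (hs p) (pow_ne_zero _ (hs p')) h1
  refine ⟨Equiv.ofBijective π' (Finite.injective_iff_bijective.1 hinj), fun p => ?_⟩
  rw [Submodule.map_span, Equiv.ofBijective_apply]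
  have e : ∀ p, (Set.range fun a : Fin 1 => b (p, a)) = {B (ε p)} := fun p => by
    ext v; simp [b, Set.mem_range, eq_comm]
  simp only
  rw [e, e, Set.image_singleton, Matrix.toLin'_apply, hπ']
  exact Submodule.span_singleton_smul_eq (IsUnit.mk0 _ (hs p)) _

/-- For q = 2 a tensor decomposition with a two-dimensional factor gives a decomposition into two parts. -/
theorem tensor_refine (hq : q = 2) {m : ℕ} (hm : 0 < m) {e : Fin n ≃ Fin 2 × Fin m} {P : GL (Fin n) F}
    {G₁ : Matrix (Fin 2) (Fin 2) F} {G₂ : Matrix (Fin m) (Fin m) F}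
    (hG₁ : IsUnitaryFormPow q (gramForm (H3.conjQ hF) G₁)) (hG₂ : IsUnitaryFormPow q (gramForm (H3.conjQ hF) G₂))
    (hform : IsTensorFormStructure (fun x : F => x ^ q) (hermForm n F q) (gramForm (H3.conjQ hF) G₁)
      (gramForm (H3.conjQ hF) G₂) e P) :
    ∃ V : Fin 2 → Submodule F (Fin n → F), IsNondegenerateMDecomposition (hermForm n F q) m V ∧
      tensorProductSubgroup 2 m e P ⊓ GU n F q ≤ decompositionStabilizer V := by
  classical
  subst hq
  let D := unitaryData hF n
  let σ := H3.conjQ hF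
  have hσσ := H3.conjQ_conjQ hF
  have hherm : ∀ {k : ℕ} (G : Matrix (Fin k) (Fin k) F), IsUnitaryFormPow 2 (gramForm σ G) →
      IsUnit G ∧ (G.map σ)ᵀ = G := by
    intro k G h
    constructor
    · rw [Matrix.isUnit_iff_isUnit_det, isUnit_iff_ne_zero]
      intro h0
      obtain ⟨v, hv, hv0⟩ := Matrix.exists_vecMul_eq_zero_iff.2 h0
      obtain ⟨-, x, hx⟩ := h.nondegenerate v hv
      apply hx
      rw [gramForm, Matrix.dotProduct_mulVec, hv0, zero_dotProduct]
    · refine eq_of_gramForm_eq σ fun u v => ?_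
      rw [← gramForm_swap σ hσσ, h.herm u v]
      rfl
  obtain ⟨hu1, hh1⟩ := hherm G₁ hG₁
  obtain ⟨hu2, hh2⟩ := hherm G₂ hG₂
  obtain ⟨c, hc, hf⟩ := hform
  have hgram : D.gramAt P = c • tens e G₁ G₂ := by
    refine eq_of_gramForm_eq D.σ fun u v => ?_
    have h1 := hf (u ∘ e.symm) (v ∘ e.symm)
    have h2 : ∀ w : Fin n → F, (w ∘ e.symm) ∘ e = w := fun w => by funext i; simp
    rw [h2, h2, gramMatrix_gramForm, gramMatrix_gramForm, ← unitaryData_form hF,
      FormData.form_gramAt, show (fun x : F => x ^ 2) = (σ : F → F) from rfl, formOfGram_eq] at h1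
    rw [h1, gramForm_smul_gram]
    congr 1
    conv_rhs => rw [← h2 u, ← h2 v]
    exact (gramForm_reindex σ e _ _ _).symm
  obtain ⟨S₁, hS₁⟩ := exists_congr_one hF hu1 hh1
  obtain ⟨S₂, hS₂⟩ := exists_congr_one hF hu2 hh2
  let P' := P * tensUnit e S₁ S₂
  have hgram' : D.gramAt P' = c • (1 : Matrix (Fin n) (Fin n) F) := by
    rw [FormData.gramAt_mul, hgram]
    show (tens e (S₁ : Matrix _ _ F) (S₂ : Matrix _ _ F))ᵀ * _ *
      (tens e (S₁ : Matrix _ _ F) (S₂ : Matrix _ _ F)).map σ = _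
    rw [tens_transpose, tens_map, mul_smul_comm, smul_mul_assoc, tens_mul, tens_mul, hS₁, hS₂, tens_one]
  have : Nonempty (Fin n) := ⟨e.symm (0, ⟨0, hm⟩)⟩
  have hc1 : c = 1 := by
    have h1 := D.gramAt_herm P'
    rw [hgram', Matrix.map_smul' _ _ _ (map_mul D.σ), Matrix.map_one _ (map_zero D.σ) (map_one D.σ),
      Matrix.transpose_smul, Matrix.transpose_one, show D.ε = 1 from rfl, one_smul] at h1
    have h2 : c ^ 2 = c := smul_left_injective F one_ne_zero h1
    have h3 : c * (c - 1) = 0 := by linear_combination h2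
    exact sub_eq_zero.1 ((mul_eq_zero.1 h3).resolve_left hc)
  subst hc1
  rw [one_smul] at hgram'
  let b : Fin 2 × Fin m → Fin n → F := fun p => (P' : Matrix (Fin n) (Fin n) F) *ᵥ Pi.single (e.symm p) 1
  have hb : H3.Orth (H3.hermB hF n) b := by
    intro p p'
    rw [H3.hermB_apply, ← unitaryData_form hF, FormData.form_gramAt, hgram']
    have e1 : D.σ ∘ (Pi.single (e.symm p) (1 : F)) = Pi.single (e.symm p) 1 := by
      funext k; by_cases hk : k = e.symm p <;> simp [hk]
    rw [gramForm, e1, Matrix.one_mulVec, single_dotProduct, one_mul, Pi.single_apply]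
    exact if_congr ⟨fun h => (e.symm.injective h).symm, fun h => by rw [h]⟩ rfl rfl
  refine ⟨_, decomposition_of_orth hF le_rfl hm (by simpa using (Fintype.card_congr e).symm) b hb, ?_⟩
  rintro g ⟨hgt, hg⟩
  obtain ⟨A, B, hAB⟩ := mem_tensorProductSubgroup_iff.1 (tensorProductSubgroup_base e P S₁ S₂ hgt)
  have hinv : (tens e (A : Matrix (Fin 2) (Fin 2) F) (B : Matrix (Fin m) (Fin m) F))ᵀ *
      (tens e (A : Matrix (Fin 2) (Fin 2) F) (B : Matrix (Fin m) (Fin m) F)).map σ = 1 := by
    refine eq_of_gramForm_eq D.σ fun u v => ?_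
    have h1 := hg ((P' : Matrix (Fin n) (Fin n) F) *ᵥ u) ((P' : Matrix (Fin n) (Fin n) F) *ᵥ v)
    simp only [Units.coeHom_apply] at h1
    rw [← unitaryData_form hF] at h1
    have e2 : ∀ u, (g : Matrix (Fin n) (Fin n) F) *ᵥ ((P' : Matrix (Fin n) (Fin n) F) *ᵥ u) =
        (P' : Matrix (Fin n) (Fin n) F) *ᵥ (tens e (A : Matrix (Fin 2) (Fin 2) F) (B : Matrix _ _ F) *ᵥ u) := fun u => by
      rw [hAB, Matrix.mulVec_mulVec, mul_assoc, ← Units.val_mul, inv_mul_cancel, Units.val_one, mul_one,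
        Matrix.mulVec_mulVec]
    rw [e2, e2, FormData.form_gramAt, FormData.form_gramAt, hgram', gramForm_mulVec, mul_one] at h1
    exact h1
  rw [tens_transpose, tens_map, tens_mul, ← tens_one e] at hinv
  have : Nonempty (Fin m) := ⟨⟨0, hm⟩⟩
  obtain ⟨z, hz, hA, -⟩ := tens_eq_tens e one_ne_zero one_ne_zero hinv
  have hz1 : z = 1 := by
    have h1 : σ z = z := by
      have h2 := congrArg (fun M : Matrix (Fin 2) (Fin 2) F => (M.map σ)ᵀ) hA
      have h5 : (((A : Matrix (Fin 2) (Fin 2) F)ᵀ * (A : Matrix (Fin 2) (Fin 2) F).map σ).map σ)ᵀ =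
          (A : Matrix (Fin 2) (Fin 2) F)ᵀ * (A : Matrix (Fin 2) (Fin 2) F).map σ := by
        rw [Matrix.map_mul, Matrix.transpose_mul]
        congr 1
        exact Matrix.ext fun i j => by
          show σ (σ ((A : Matrix (Fin 2) (Fin 2) F) j i)) = _
          rw [hσσ]; rfl
      rw [h5, hA, Matrix.map_smul' _ _ _ (map_mul σ),
        Matrix.map_one _ (map_zero σ) (map_one σ), Matrix.transpose_smul, Matrix.transpose_one] at h2
      exact (smul_left_injective F one_ne_zero h2).symm
    have h3 : z * (z - 1) = 0 := by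
      have h4 : z ^ 2 = z := h1
      linear_combination h4
    exact sub_eq_zero.1 ((mul_eq_zero.1 h3).resolve_left hz)
  subst hz1
  rw [one_smul] at hA
  have haxis : ∀ a, ∃ a', ∀ i, i ≠ a' → (A : Matrix (Fin 2) (Fin 2) F) i a = 0 := by
    intro a
    have h1 := congrFun (congrFun hA a) a
    rw [Matrix.mul_apply, Fin.sum_univ_two, Matrix.one_apply_eq] at h1
    have h2 : (A : Matrix (Fin 2) (Fin 2) F) 0 a ^ 3 + (A : Matrix (Fin 2) (Fin 2) F) 1 a ^ 3 = 1 := by
      simp only [Matrix.transpose_apply, Matrix.map_apply, σ, H3.conjQ_apply] at h1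
      linear_combination h1
    rcases axis_of_four hF h2 with h3 | h3
    · exact ⟨1, fun i hi => by fin_cases i; exacts [h3, absurd rfl hi]⟩
    · exact ⟨0, fun i hi => by fin_cases i; exacts [absurd rfl hi, h3]⟩
  choose π hπ using haxis
  have hπinj : Function.Injective π := by
    intro a a' h
    by_contra hne
    have h1 := congrFun (congrFun hA a) a'
    have h2 := congrFun (congrFun hA a) a
    rw [Matrix.mul_apply, Finset.sum_eq_single (π a) (fun i _ hi => by
      rw [Matrix.transpose_apply, hπ a i hi, zero_mul]) (fun h0 => absurd (Finset.mem_univ _) h0),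
      Matrix.transpose_apply, Matrix.map_apply, Matrix.one_apply_ne hne] at h1
    rw [Matrix.mul_apply, Finset.sum_eq_single (π a) (fun i _ hi => by
      rw [Matrix.transpose_apply, hπ a i hi, zero_mul]) (fun h0 => absurd (Finset.mem_univ _) h0),
      Matrix.transpose_apply, Matrix.map_apply, Matrix.one_apply_eq] at h2
    have h3 : (A : Matrix (Fin 2) (Fin 2) F) (π a) a' = 0 := by
      rcases mul_eq_zero.1 h1 with h4 | h4
      · rw [h4, zero_mul] at h2
        exact absurd h2 zero_ne_one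
      · exact (map_eq_zero σ).1 h4
    have h5 : ∀ i, (A : Matrix (Fin 2) (Fin 2) F) i a' = 0 := fun i => by
      by_cases hi : i = π a'
      · rw [hi, ← h]; exact h3
      · exact hπ a' i hi
    have h6 := congrFun (congrFun hA a') a'
    rw [Matrix.mul_apply, Finset.sum_eq_zero fun i _ => by rw [Matrix.transpose_apply, h5 i, zero_mul],
      Matrix.one_apply_eq] at h6
    exact zero_ne_one h6
  refine ⟨Equiv.ofBijective π (Finite.injective_iff_bijective.1 hπinj), fun a => ?_⟩
  rw [Equiv.ofBijective_apply]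
  have hle : (Submodule.span F (Set.range fun l => b (a, l))).map (Matrix.toLin' (g : Matrix (Fin n) (Fin n) F)) ≤
      Submodule.span F (Set.range fun l => b (π a, l)) := by
    rw [Submodule.map_span_le]
    rintro _ ⟨l, rfl⟩
    rw [Matrix.toLin'_apply]
    have h1 : (g : Matrix (Fin n) (Fin n) F) *ᵥ b (a, l) =
        ∑ l', ((A : Matrix (Fin 2) (Fin 2) F) (π a) a * (B : Matrix (Fin m) (Fin m) F) l' l) • b (π a, l') := by
      rw [hAB]
      simp only [b, Matrix.mulVec_mulVec]
      rw [mul_assoc, ← Units.val_mul, inv_mul_cancel, Units.val_one, mul_one, ← Matrix.mulVec_mulVec]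
      simp only [← Matrix.mulVec_smul, ← Matrix.mulVec_sum]
      congr 1
      funext u
      rw [Matrix.mulVec_single_one, Matrix.col_apply, tens_apply, Equiv.apply_symm_apply, Finset.sum_apply]
      obtain ⟨p, rfl⟩ := e.symm.surjective u
      rw [Equiv.apply_symm_apply]
      obtain ⟨i, l'⟩ := p
      by_cases hi : i = π a
      · subst hi
        rw [Finset.sum_eq_single l'] <;> simp +contextual [Pi.single_apply]
      · rw [hπ a i hi, zero_mul]
        symm
        refine Finset.sum_eq_zero fun l'' _ => ?_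
        simp [Pi.single_apply, hi]
    rw [h1]
    exact Submodule.sum_mem _ fun l' _ => Submodule.smul_mem _ _ (Submodule.subset_span ⟨l', rfl⟩)
  refine Submodule.eq_of_le_of_finrank_eq hle ?_
  have hd := decomposition_of_orth hF le_rfl hm (by simpa using (Fintype.card_congr e).symm) b hb
  rw [((Submodule.span F (Set.range fun l => b (a, l))).equivMapOfInjective _
    (Matrix.mulVec_injective_of_isUnit (Units.isUnit g))).finrank_eq.symm, hd.decomp.finrank_eq a,
    hd.decomp.finrank_eq (π a)]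

/-- The possibilities for a maximal subgroup of SU. -/
theorem unitary_maximal_cases (hn5 : 5 ≤ n) (hn26 : n ≤ 26) {H : Subgroup (GL (Fin n) F)}
    (hH : IsMaximalIn (suGL n F q) H) :
    (∃ W : Submodule F (Fin n → F), W ≠ ⊥ ∧ IsTotallySingularFor (hermForm n F q) W ∧
      H = subspaceStabilizer W ⊓ suGL n F q) ∨
    (∃ W : Submodule F (Fin n → F), W ≠ ⊥ ∧ IsNondegenerateOn (hermForm n F q) W ∧
      2 * Module.finrank F W < n ∧ H = subspaceStabilizer W ⊓ suGL n F q) ∨
    (∃ (t k : ℕ) (V : Fin t → Submodule F (Fin n → F)), IsNondegenerateMDecomposition (hermForm n F q) k V ∧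
      t * k = n ∧ 2 ≤ t ∧ (k = 2 → 3 ≤ q) ∧ H = decompositionStabilizer V ⊓ suGL n F q) ∨
    (∃ (k : ℕ) (V : Fin 2 → Submodule F (Fin n → F)), 2 * k = n ∧ IsMDecomposition k V ∧
      (∀ i, IsTotallySingularFor (hermForm n F q) (V i)) ∧ H = decompositionStabilizer V ⊓ suGL n F q) ∨
    (∃ (r : ℕ) (K : Subalgebra F (Matrix (Fin n) (Fin n) F)), r.Prime ∧ Odd r ∧ r ∣ n ∧ IsFieldSubalgebra r K ∧
      IsAdjointClosedFor (hermForm n F q) K ∧ H = subalgebraNormalizer K ⊓ suGL n F q) ∨
    (∃ (n₁ n₂ : ℕ) (e : Fin n ≃ Fin n₁ × Fin n₂) (P : GL (Fin n) F) (f₁ : (Fin n₁ → F) → (Fin n₁ → F) → F)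
      (f₂ : (Fin n₂ → F) → (Fin n₂ → F) → F), 2 ≤ n₁ ∧ n₁ < n₂ ∧ n = n₁ * n₂ ∧ (n₁ = 2 → 3 ≤ q) ∧
      IsUnitaryFormPow q f₁ ∧ IsUnitaryFormPow q f₂ ∧
      IsTensorFormStructure (fun x : F => x ^ q) (hermForm n F q) f₁ f₂ e P ∧
      H = tensorProductSubgroup n₁ n₂ e P ⊓ suGL n F q) ∨
    (∃ (F₀ : Subfield F) (r : ℕ) (P : GL (Fin n) F), r.Prime ∧ Odd r ∧ Fintype.card F = Nat.card F₀ ^ r ∧
      IsFormRationalStructure (hermForm n F q) F₀ 1 P ∧ H = subfieldSubgroup F₀ P ⊓ suGL n F q) ∨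
    (Odd q ∧ ∃ (F₀ : Subfield F) (P : GL (Fin n) F), Fintype.card F = Nat.card F₀ ^ 2 ∧
      IsFormRationalStructure (hermForm n F q) F₀ 1 P ∧ H = subfieldSubgroup F₀ P ⊓ suGL n F q) ∨
    (Even n ∧ ∃ (F₀ : Subfield F) (P : GL (Fin n) F) (ζ : F), Fintype.card F = Nat.card F₀ ^ 2 ∧ ζ ≠ 0 ∧
      ζ + ζ ^ q = 0 ∧ IsFormRationalStructure (hermForm n F q) F₀ ζ P ∧
      (∀ u : Fin n → F, (∀ i, u i ∈ F₀) →
        hermForm n F q ((P : Matrix (Fin n) (Fin n) F) *ᵥ u) ((P : Matrix (Fin n) (Fin n) F) *ᵥ u) = 0) ∧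
      H = subfieldSubgroup F₀ P ⊓ suGL n F q) ∨
    (∃ (r : ℕ) (R : Subgroup (GL (Fin n) F)) (p e k : ℕ), IsSymplecticTypeGroup r R ∧
      ActsAbsolutelyIrreducibly (matrixSet R) ∧ R ≤ similarityGroup (hermForm n F q) ∧ r ≠ p ∧
      IsMinimalFieldFor (Nat.card (Subgroup.center R)) p e F ∧ n = r ^ k ∧
      ((Odd r ∧ Nat.card (Subgroup.center R) = r ∧ Nat.card R = r ^ (1 + 2 * k) ∧ R ≤ GU n F q) ∨
        (r = 2 ∧ e = 2 ∧ Nat.card (Subgroup.center R) = 4 ∧ Nat.card R = 2 ^ (2 + 2 * k))) ∧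
      H = subgroupNormalizer R ⊓ suGL n F q) ∨
    (∃ (k : ℕ) (e : Fin n ≃ (Fin 2 → Fin k)) (P : GL (Fin n) F) (f₁ : (Fin k → F) → (Fin k → F) → F),
      3 ≤ k ∧ n = k ^ 2 ∧ ¬ (q = 2 ∧ k = 3) ∧ IsUnitaryFormPow q f₁ ∧
      IsTensorPowerFormStructure (fun x : F => x ^ q) (hermForm n F q) f₁ e P ∧
      H = tensorWreathSubgroup k 2 e P ⊓ suGL n F q) ∨
    InUnitaryResidualClass H := by
  have hG : H ≤ GU n F q := hH.1.le.trans inf_le_left
  have key : ∀ {S : Subgroup (GL (Fin n) F)}, H ≤ S → ¬ suGL n F q ≤ S → H = S ⊓ suGL n F q := fun {S} hle hS =>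
    ((hH.2 _ (le_inf hle hH.1.le) inf_le_right).resolve_right fun e => hS (inf_eq_right.1 e)).symm
  rcases unitary_aschbacher hF (by omega) hG with ⟨W, hW, hts, hle⟩ | ⟨W, hW, hnd, hdim, hle⟩ |
    ⟨t, k, V, hV, htk, hle⟩ | ⟨k, V, hk, hV, hts, -, hle⟩ | ⟨r, K, hr, hodd, hrn, hK, hadj, -, hle⟩ |
    ⟨n₁, n₂, e, P, G₁, G₂, h1, h12, hG₁, hG₂, hform, -, hle⟩ | ⟨F₀, r, P, hr, hodd, hc, hf, -, hle⟩ |
    ⟨F₀, P, hq, hc, hf, -, hle⟩ | ⟨F₀, P, ζ, hev, hc, hζ, hζq, hf, halt, -, hle⟩ |
    ⟨r, R, p, e, k, hR, habs, hsim, hrp, hmin, hn, hk, hcase, -, hle⟩ |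
    ⟨k, t, e, P, G, hk, ht, hex, hG₁, hform, -, hle⟩ | ⟨hres, -⟩
  · refine Or.inl ⟨W, hW, hts, key hle (su_not_le_subspace hF (by omega) hW fun e => ?_)⟩
    subst e
    have h1 := hts (Pi.single ⟨0, by omega⟩ 1) trivial (Pi.single ⟨0, by omega⟩ 1) trivial
    rw [H3.hermForm_single_left, Pi.single_eq_same, one_pow, mul_one] at h1
    exact one_ne_zero h1
  · refine Or.inr (Or.inl ⟨W, hW, hnd, hdim, key hle (su_not_le_subspace hF (by omega) hW fun e => ?_)⟩)
    subst e
    rw [finrank_top, Module.finrank_fin_fun] at hdim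
    omega
  · refine Or.inr (Or.inr (Or.inl ?_))
    by_cases hex : k = 2 ∧ q = 2
    · obtain ⟨rfl, hq⟩ := hex
      obtain ⟨V', hV', hle'⟩ := decomposition_refine hF hq hV htk
      exact ⟨n, 1, V', hV', mul_one n, by omega, fun h => absurd h (by decide),
        key ((le_inf hle hG).trans hle') (su_not_le_decomposition hF (by omega) hV')⟩
    · exact ⟨t, k, V, hV, htk, hV.decomp.two_le, fun h => by have := H3.two_le_q hF; omega,
        key hle (su_not_le_decomposition hF (by omega) hV)⟩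
  · exact Or.inr (Or.inr (Or.inr (Or.inl ⟨k, V, hk, hV, hts,
      key hle (su_not_le_halves hF (by omega) hV hts)⟩)))
  · exact Or.inr (Or.inr (Or.inr (Or.inr (Or.inl ⟨r, K, hr, hodd, hrn, hK, hadj,
      key hle (su_not_le_field hF (by omega) hr hK)⟩))))
  · have hcard : n = n₁ * n₂ := by simpa using Fintype.card_congr e
    by_cases hex : n₁ = 2 ∧ q = 2
    · obtain ⟨rfl, hq⟩ := hex
      obtain ⟨V, hV, hle'⟩ := tensor_refine hF hq (by omega) hG₁ hG₂ hform
      exact Or.inr (Or.inr (Or.inl ⟨2, n₂, V, hV, hcard.symm, le_rfl, fun h => absurd h (by omega),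
        key ((le_inf hle hG).trans hle') (su_not_le_decomposition hF (by omega) hV)⟩))
    · exact Or.inr (Or.inr (Or.inr (Or.inr (Or.inr (Or.inl ⟨n₁, n₂, e, P, _, _, h1, h12, hcard,
        fun h => by have := H3.two_le_q hF; omega, hG₁, hG₂, hform,
        key hle (su_not_le_tensor hF h1 (by omega) e P)⟩)))))
  · exact Or.inr (Or.inr (Or.inr (Or.inr (Or.inr (Or.inr (Or.inl ⟨F₀, r, P, hr, hodd, hc, hf,
      key hle (su_not_le_subfield hF (by omega) hr hc P)⟩))))))
  · exact Or.inr (Or.inr (Or.inr (Or.inr (Or.inr (Or.inr (Or.inr (Or.inl ⟨hq, F₀, P, hc, hf,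
      key hle (su_not_le_subfield hF (by omega) Nat.prime_two hc P)⟩)))))))
  · exact Or.inr (Or.inr (Or.inr (Or.inr (Or.inr (Or.inr (Or.inr (Or.inr (Or.inl ⟨hev, F₀, P, ζ, hc, hζ, hζq,
      hf, halt, key hle (su_not_le_subfield hF (by omega) Nat.prime_two hc P)⟩))))))))
  · exact Or.inr (Or.inr (Or.inr (Or.inr (Or.inr (Or.inr (Or.inr (Or.inr (Or.inr (Or.inl ⟨r, R, p, e, k, hR, habs,
      hsim, hrp, hmin, hn, hcase, key hle (su_not_le_symplecticType hF hn5 hR habs)⟩)))))))))
  · have hcard : n = k ^ t := by simpa using Fintype.card_congr e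
    have ht2 : t = 2 := by
      by_contra hne
      have h3 : (3 : ℕ) ^ 3 ≤ k ^ t :=
        (Nat.pow_le_pow_left hk 3).trans (Nat.pow_le_pow_right (by omega) (by omega))
      omega
    subst ht2
    exact Or.inr (Or.inr (Or.inr (Or.inr (Or.inr (Or.inr (Or.inr (Or.inr (Or.inr (Or.inr (Or.inl ⟨k, e, P, _, hk,
      hcard, hex, hG₁, hform, key hle (su_not_le_wreath hF hk e P)⟩))))))))))
  · exact Or.inr (Or.inr (Or.inr (Or.inr (Or.inr (Or.inr (Or.inr (Or.inr (Or.inr (Or.inr (Or.inr hres))))))))))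

end Cfsg.Agent.H99.Asch
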