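import Cfsg.Agent.H99.Aschbacher.SymplecticTensor

/-!
Aschbacher's theorem for the symplectic group: the alternatives of the general form-relative theorem are turned
into the data of the symplectic classes.
-/

set_option autoImplicit false

open scoped MatrixGroups Matrix Kronecker

namespace Cfsg.Agent.H99.Asch

open Cfsg.Geo

variable {F : Type*} [Field F] [Fintype F]

/-- A pure tensor vector. -/
def pureVec {s k : ℕ} (u : Fin k → Fin s → F) : (Fin k → Fin s) → F := fun x => ∏ i, u i (x i)

lemma single_eq_pureVec {s k : ℕ} (y : Fin k → Fin s) :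
    (Pi.single y (1 : F) : (Fin k → Fin s) → F) = pureVec fun i => Pi.single (y i) 1 := by
  funext x
  by_cases h : x = y
  · subst h; simp [pureVec]
  · obtain ⟨i, hi⟩ := Function.ne_iff.1 h
    rw [Pi.single_eq_of_ne h]
    exact (Finset.prod_eq_zero (Finset.mem_univ i) (by simp [hi])).symm

lemma tpow_mulVec_pure {s k : ℕ} (c : Fin k → Matrix (Fin s) (Fin s) F) (u : Fin k → Fin s → F) :
    tpow c *ᵥ pureVec u = pureVec fun i => c i *ᵥ u i := by
  funext x
  simp only [Matrix.mulVec, dotProduct, pureVec, tpow_apply, Fintype.prod_sum, ← Finset.prod_mul_distrib]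

lemma pureVec_dot {s k : ℕ} (u w : Fin k → Fin s → F) : pureVec u ⬝ᵥ pureVec w = ∏ i, u i ⬝ᵥ w i := by
  simp only [dotProduct, pureVec, Fintype.prod_sum, ← Finset.prod_mul_distrib]

/-- The wreath group sends pure tensors to pure tensors. -/
lemma wreath_pure {s k : ℕ} {g : GL (Fin k → Fin s) F} (hg : g ∈ tensorWreathStandard s k F)
    (u : Fin k → Fin s → F) :
    ∃ u', (g : Matrix (Fin k → Fin s) (Fin k → Fin s) F) *ᵥ pureVec u = pureVec u' := by
  revert u
  induction hg using Subgroup.closure_induction with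
  | mem x hx =>
    intro u
    rcases hx with ⟨gs, hgs⟩ | ⟨σ, hσ⟩
    · refine ⟨fun i => (gs i : Matrix (Fin s) (Fin s) F) *ᵥ u i, ?_⟩
      rw [← tpow_mulVec_pure, show (x : Matrix (Fin k → Fin s) (Fin k → Fin s) F) =
        tpow (fun i => (gs i : Matrix (Fin s) (Fin s) F)) from Matrix.ext hgs]
    · refine ⟨fun j => u (σ.symm j), funext fun z => ?_⟩
      simp only [Matrix.mulVec, dotProduct, hσ, ite_mul, one_mul, zero_mul, Finset.sum_ite_eq',
        Finset.mem_univ, if_true]
      rw [pureVec, pureVec, ← Equiv.prod_comp σ (fun i => u (σ.symm i) (z i))]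
      simp
  | one => exact fun u => ⟨u, by rw [Units.val_one, Matrix.one_mulVec]⟩
  | mul x y _ _ hx hy =>
    intro u
    obtain ⟨u1, h1⟩ := hy u
    obtain ⟨u2, h2⟩ := hx u1
    exact ⟨u2, by rw [Units.val_mul, ← Matrix.mulVec_mulVec, h1, h2]⟩
  | inv x _ hx =>
    have hp : ∀ (n : ℕ) (u : Fin k → Fin s → F),
        ∃ u', ((x ^ n : GL (Fin k → Fin s) F) : Matrix (Fin k → Fin s) (Fin k → Fin s) F) *ᵥ pureVec u = pureVec u' := by
      intro n
      induction n with
      | zero => exact fun u => ⟨u, by rw [pow_zero, Units.val_one, Matrix.one_mulVec]⟩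
      | succ n ih =>
        intro u
        obtain ⟨u1, h1⟩ := hx u
        obtain ⟨u2, h2⟩ := ih u1
        exact ⟨u2, by rw [pow_succ, Units.val_mul, ← Matrix.mulVec_mulVec, h1, h2]⟩
    obtain ⟨n, hn⟩ : ∃ n : ℕ, x ^ n = x⁻¹ := ⟨orderOf x - 1, by
      refine eq_inv_of_mul_eq_one_left ?_
      rw [← pow_succ, Nat.sub_add_cancel (orderOf_pos x), pow_orderOf_eq_one]⟩
    rw [← hn]
    exact hp n

variable {m : ℕ} {H : Subgroup (GL (Fin m ⊕ Fin m) F)}

/-- The solvability of GL(2, 3). -/
lemma no_perfect_two_three (hc : Fintype.card F = 3) {Q : Subgroup (GL (Fin 2) F)} (hQ : ⁅Q, Q⁆ = Q) : Q = ⊥ := by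
  by_contra hne
  have hsol : Group.IsSolvable (GL (Fin 2) F) := by
    refine H25.isSolvable_of_card_eq_mul_pow (a := 4) (b := 1) Nat.prime_two Nat.prime_three ?_
    rw [Matrix.card_GL_field]
    simp [Fin.prod_univ_two, hc]
  exact (Group.IsSolvable.commutator_lt_of_ne_bot hne).ne hQ

/-- A tensor power of the alternating form. -/
theorem symplectic_tensorPower (hH : H ≤ spGL m F) (hirr : ActsIrreducibly (matrixSet H))
    (h : InFormTensorPower (sympData m F) H) : SymplecticCase m H := by
  classical
  let D := sympData m F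
  obtain ⟨s, k, e, P, G, c, a, hs, hk, hc, hgram, hG, hcak, hle, -, Q, hQperf, hQ, -⟩ := h
  have : Nonempty (Fin s) := ⟨⟨0, by omega⟩⟩
  replace hG : (G : Matrix (Fin s) (Fin s) F)ᵀ = a • (G : Matrix (Fin s) (Fin s) F) := hG
  replace hcak : c * a ^ k = -1 * c := hcak
  have hak : a ^ k = -1 := mul_left_cancel₀ hc (by rw [hcak, mul_comm])
  have ha := mul_self_eq_one_iff.1 (sign_sq (Units.ne_zero G) hG)
  rcases card_parity (F := F) with hq | h2
  · have h2 := two_ne_zero_of_card_odd hq
    rcases ha with rfl | rfl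
    · rw [one_pow] at hak
      exact absurd (show (2 : F) = 0 by linear_combination hak) h2
    have hodd : Odd k := by
      by_contra hev
      rw [(Nat.not_odd_iff_even.1 hev).neg_one_pow] at hak
      exact h2 (by linear_combination hak)
    have hk3 : 3 ≤ k := by
      rcases eq_or_lt_of_le hk with rfl | h3
      · exact absurd hodd (by decide)
      · exact h3
    have hex : ¬ (Fintype.card F = 3 ∧ s = 2) := by
      rintro ⟨hc3, rfl⟩
      exact hQ (no_perfect_two_three hc3 hQperf)
    rw [neg_one_smul] at hG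
    exact .tensorPower s k e P _ hq hodd hk3 hs hex (gramForm_symplectic h2 (Units.isUnit G) hG)
      (isTensorPowerFormStructure_of D (σ' := id) (fun a => rfl) e P hc hgram) hirr hle
  · have hneg : (-1 : F) = 1 := by linear_combination (-1 : F) * h2
    rw [hneg] at ha
    obtain rfl : a = 1 := ha.elim id id
    rw [one_smul] at hG
    set g : Matrix (Fin s) (Fin s) F := (G : Matrix (Fin s) (Fin s) F)
    have hd : ∀ j, g j j = 0 := fun j => by
      have := sympData_gramAt_diag (F := F) m P (e.symm fun _ => j)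
      rw [hgram] at this
      simp only [Matrix.smul_apply, smul_eq_mul, Matrix.coe_reindexAlgEquiv, Matrix.reindex_apply, Equiv.symm_symm,
        Matrix.submatrix_apply, Equiv.apply_symm_apply, tpow_apply, Finset.prod_const, Finset.card_univ,
        Fintype.card_fin] at this
      exact (pow_eq_zero_iff (by omega)).1 ((mul_eq_zero.1 this).resolve_left hc)
    let A : Matrix (Fin s) (Fin s) F := Matrix.of fun i j => if i < j then g i j else 0
    have hA : ∀ i j, A i j + A j i = g i j := by
      intro i j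
      have e1 : g j i = g i j := congrFun (congrFun hG i) j
      rcases lt_trichotomy i j with hij | rfl | hij
      · simp [A, hij, hij.not_gt]
      · simp [A, hd]
      · simp [A, hij, hij.not_gt, e1]
    let i₀ : Fin k := ⟨0, by omega⟩
    let i₁ : Fin k := ⟨1, by omega⟩
    let C : Fin k → Matrix (Fin s) (Fin s) F := Function.update (fun _ => g) i₀ A
    let M₀ := tpow C
    refine orth_of_frame hH h2 P (c • Matrix.reindexAlgEquiv F F e.symm M₀) ?_ (fun i => ?_) fun h hh i => ?_
    · rw [hgram, Matrix.transpose_smul, ← smul_add]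
      congr 1
      ext x y
      simp only [Matrix.add_apply, Matrix.transpose_apply, Matrix.coe_reindexAlgEquiv, Matrix.reindex_apply,
        Equiv.symm_symm, Matrix.submatrix_apply, M₀, tpow_apply]
      have key : ∀ u v : Fin k → Fin s, ∏ i, C i (u i) (v i) =
          A (u i₀) (v i₀) * ∏ i ∈ Finset.univ.erase i₀, g (u i) (v i) := by
        intro u v
        rw [← Finset.mul_prod_erase _ _ (Finset.mem_univ i₀), show C i₀ = A from Function.update_self ..]
        congr 1
        refine Finset.prod_congr rfl fun i hi => ?_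
        rw [show C i = g from Function.update_of_ne (Finset.mem_erase.1 hi).1 _ _]
      rw [key, key, ← Finset.mul_prod_erase _ _ (Finset.mem_univ i₀), ← hA (e x i₀) (e y i₀), add_mul]
      congr 2
      exact Finset.prod_congr rfl fun i _ => (congrFun (congrFun hG (e x i)) (e y i))
    · simp only [Matrix.smul_apply, Matrix.coe_reindexAlgEquiv, Matrix.reindex_apply, Equiv.symm_symm,
        Matrix.submatrix_apply, M₀, tpow_apply]
      rw [Finset.prod_eq_zero (Finset.mem_univ i₀) (by simp [C, A]), smul_zero]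
    · obtain ⟨_, ⟨g', hg', rfl⟩, hhg⟩ := hle hh
      have e1 : ((P⁻¹ * h * P : GL (Fin m ⊕ Fin m) F) : Matrix (Fin m ⊕ Fin m) (Fin m ⊕ Fin m) F) =
          Matrix.reindexAlgEquiv F F e.symm (g' : Matrix (Fin k → Fin s) (Fin k → Fin s) F) := by
        rw [← hhg]
        simp [mul_assoc]
        rfl
      rw [e1, ← show Matrix.reindexAlgEquiv F F e.symm ((g' : Matrix (Fin k → Fin s) (Fin k → Fin s) F)ᵀ) =
        (Matrix.reindexAlgEquiv F F e.symm (g' : Matrix (Fin k → Fin s) (Fin k → Fin s) F))ᵀ from rfl,
        mul_smul_comm, smul_mul_assoc, ← map_mul, ← map_mul, Matrix.smul_apply]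
      simp only [Matrix.coe_reindexAlgEquiv, Matrix.reindex_apply, Equiv.symm_symm, Matrix.submatrix_apply]
      have e2 : ((g' : Matrix (Fin k → Fin s) (Fin k → Fin s) F)ᵀ * M₀ *
          (g' : Matrix (Fin k → Fin s) (Fin k → Fin s) F)) (e i) (e i) =
          ((g' : Matrix (Fin k → Fin s) (Fin k → Fin s) F) *ᵥ Pi.single (e i) 1) ⬝ᵥ
            (M₀ *ᵥ ((g' : Matrix (Fin k → Fin s) (Fin k → Fin s) F) *ᵥ Pi.single (e i) 1)) := by
        rw [quad_mulVec]; simp
      obtain ⟨w, hw⟩ := wreath_pure hg' (fun j => Pi.single (e i j) 1)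
      rw [e2, single_eq_pureVec, hw, tpow_mulVec_pure, pureVec_dot,
        Finset.prod_eq_zero (Finset.mem_univ i₁) (show _ = (0 : F) from ?_), smul_zero]
      have hne : i₁ ≠ i₀ := fun e0 => absurd (congrArg Fin.val e0) (by simp [i₀, i₁])
      rw [show C i₁ = g from Function.update_of_ne hne _ _]
      exact quad_eq_zero h2 hG hd _

/-- Aschbacher's theorem for the symplectic group. -/
theorem symplectic_aschbacher (hm : 2 ≤ m) (hH : H ≤ spGL m F) : SymplecticCase m H := by
  have : Nonempty (Fin m ⊕ Fin m) := ⟨Sum.inl ⟨0, by omega⟩⟩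
  have hcard : Fintype.card (Fin m ⊕ Fin m) = m + m := by simp
  rcases form_aschbacher (sympData m F) (by omega) (H := H) hH with h | h | ⟨hirr, h⟩
  · rcases h with ⟨W, hW, hts, hle⟩ | ⟨W, hW, hnd, hdim, hle⟩
    · exact .singular W hW hts hle
    · exact .nondeg W hW hnd (by omega) hle
  · obtain ⟨t, k, V, hV, hle⟩ := h
    exact .decomp t k V hV ((mDecomposition_card hV.decomp).trans hcard) hle
  · rcases h with h | ⟨N, -, -, h⟩ | h | h | h | h | h
    · exact symplectic_halves (by omega) hH hirr h
    · exact symplectic_field (by omega) hH hirr h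
    · exact symplectic_tensor (by omega) hH hirr h
    · exact symplectic_subfield hirr h
    · exact symplectic_typeTwo hirr h
    · exact symplectic_tensorPower hH hirr h
    · exact symplectic_residual (by omega) hH hirr h

end Cfsg.Agent.H99.Asch
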