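import Cfsg.Agent.H99.Aschbacher.Dims

/-!
The normaliser of a cubic extension inside SL(3, 4) lies in a subfield group over the field of two elements.
-/

set_option autoImplicit false

open scoped MatrixGroups Matrix

namespace Cfsg.Agent.H99.Asch

open Cfsg.Geo

variable {F : Type*} [Field F] [Fintype F]

lemma pow_eight_of_four {F : Type*} [Field F] [Fintype F] (hq : Fintype.card F = 4) (a : F) : a ^ 8 = a ^ 2 := by
  have h : a ^ 4 = a := by rw [← hq]; exact FiniteField.pow_card a
  calc a ^ 8 = (a ^ 4) ^ 2 := by ring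
    _ = a ^ 2 := by rw [h]

lemma pow_eq_one_of_mem_ker {A B : Type*} [Group A] [Group B] [Finite A] (f : A →* B) {b k : ℕ} (hb : b.Prime)
    (hB : Nat.card B = b) (hA : Nat.card A = b * k) (hne : f.range ≠ ⊥) {x : A} (hx : f x = 1) : x ^ k = 1 := by
  have : Fact (Nat.card B).Prime := ⟨hB ▸ hb⟩
  have hr : f.range = ⊤ := (Subgroup.eq_bot_or_eq_top_of_prime_card f.range).resolve_left hne
  have h1 := f.ker.card_mul_index
  rw [Subgroup.index_ker, hr, Subgroup.card_top, hB, hA, mul_comm b k] at h1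
  have hk : Nat.card f.ker = k := Nat.eq_of_mul_eq_mul_right hb.pos h1
  have h := pow_card_eq_one' (x := (⟨x, hx⟩ : f.ker))
  rw [hk] at h
  exact congrArg Subtype.val h

theorem cubic_four (hq : Fintype.card F = 4) {K : Subalgebra F (Matrix (Fin 3) (Fin 3) F)}
    (hK : IsFieldSubalgebra 3 K) :
    ∃ (F₀ : Subfield F) (P : GL (Fin 3) F), Fintype.card F = Nat.card F₀ ^ 2 ∧
      subalgebraNormalizer K ⊓ specialLinear (Fin 3) F ≤ subfieldSubgroup F₀ P := by
  classical
  have hc2 : CharP F 2 := ringChar.of_eq (FiniteField.even_card_iff_char_two.2 (by rw [hq]))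
  have : Fact (Nat.Prime 2) := ⟨Nat.prime_two⟩
  obtain ⟨F₀, hF₀⟩ := exists_subfield (F := F) (p := 2) (e := 2) (d := 1) (by rw [hq]; norm_num) (one_dvd 2)
  rw [pow_one] at hF₀
  have hmem₀ : ∀ a : F, a ∈ F₀ ↔ a ^ 2 = a := fun a => by rw [mem_subfield_iff, hF₀]
  have : Nontrivial K := ⟨⟨0, 1, fun e => zero_ne_one (congrArg Subtype.val e)⟩⟩
  have hF : IsField K :=
    { exists_pair_ne := exists_pair_ne _
      mul_comm := fun a b => Subtype.ext (hK.comm a a.2 b b.2)
      mul_inv_cancel := fun {a} ha => by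
        obtain ⟨y, hy, hxy⟩ := hK.inv a a.2 (fun e => ha (Subtype.ext e))
        exact ⟨⟨y, hy⟩, Subtype.ext hxy⟩ }
  let _ : Field K := hF.toField
  have : Finite K := Finite.of_injective _ Subtype.val_injective
  let _ : Fintype K := Fintype.ofFinite K
  have hcardK : Fintype.card K = 64 := by
    rw [Module.card_eq_pow_finrank (K := F) (V := K), hK.finrank_eq, hq]; norm_num
  have : CharP K 2 := charP_of_injective_algebraMap (algebraMap F K).injective 2
  -- an element of order seven
  obtain ⟨u, hu⟩ : ∃ u : Kˣ, orderOf u = 7 := by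
    have : Fact (Nat.Prime 7) := ⟨by norm_num⟩
    exact exists_prime_orderOf_dvd_card 7 (by rw [Fintype.card_units, hcardK]; norm_num)
  have hu7 : (u : K) ^ 7 = 1 := by
    rw [← Units.val_pow_eq_pow_val, ← hu, pow_orderOf_eq_one, Units.val_one]
  have hu8 : (u : K) ^ 8 = u := by rw [pow_succ, hu7, one_mul]
  have hun1 : (u : K) ≠ 1 := fun e => by
    have : u = 1 := Units.ext e
    rw [this, orderOf_one] at hu
    omega
  have hu3 : (u : K) ^ 3 ≠ 1 := fun e => hun1 (by
    calc (u : K) = (u : K) * ((u : K) ^ 3) ^ 2 := by rw [e, one_pow, mul_one]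
      _ = (u : K) ^ 7 := by ring
      _ = 1 := hu7)
  have hnF : ∀ a : F, (u : K) ≠ algebraMap F K a := by
    intro a e
    apply hu3
    rw [e, ← map_pow]
    have ha : a ≠ 0 := fun h => u.ne_zero (by rw [e, h, map_zero])
    have := FiniteField.pow_card_sub_one_eq_one a ha
    rw [hq] at this
    rw [show a ^ 3 = 1 from this, map_one]
  have hrel : ∀ a : Fin 3 → F, algebraMap F K (a 0) + algebraMap F K (a 1) * u + algebraMap F K (a 2) * (u : K) ^ 2 = 0 →
      a = 0 := by
    intro a h
    by_cases h2 : a 2 = 0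
    · rw [h2, map_zero, zero_mul, add_zero] at h
      by_cases h1 : a 1 = 0
      · rw [h1, map_zero, zero_mul, add_zero] at h
        have h0 : a 0 = 0 := (algebraMap F K).injective (h.trans (map_zero _).symm)
        funext i
        fin_cases i <;> simp [h0, h1, h2]
      · refine absurd ?_ (hnF (-(a 0 / a 1)))
        rw [map_neg, map_div₀, eq_neg_iff_add_eq_zero, add_comm]
        have hne : algebraMap F K (a 1) ≠ 0 := fun e => h1 ((algebraMap F K).injective (e.trans (map_zero _).symm))
        field_simp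
        linear_combination h
    · exfalso
      set b := algebraMap F K (a 1 / a 2) with hb
      set c := algebraMap F K (a 0 / a 2) with hc
      have hne : algebraMap F K (a 2) ≠ 0 := fun e => h2 ((algebraMap F K).injective (e.trans (map_zero _).symm))
      have h' : c + b * u + (u : K) ^ 2 = 0 := by
        rw [hb, hc, map_div₀, map_div₀]
        field_simp
        linear_combination h
      have hb8 : b ^ 8 = b ^ 2 := by rw [hb, ← map_pow, pow_eight_of_four hq, map_pow]
      have hc8 : c ^ 8 = c ^ 2 := by rw [hc, ← map_pow, pow_eight_of_four hq, map_pow]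
      have h8 : c ^ 2 + b ^ 2 * u + (u : K) ^ 2 = 0 := by
        have := congrArg (fun x => x ^ 2 ^ 3) h'
        simp only [add_pow_char_pow, mul_pow] at this
        norm_num at this
        have hu28 : ((u : K) ^ 2) ^ 8 = (u : K) ^ 2 := by rw [← pow_mul, mul_comm, pow_mul, hu8]
        rw [hb8, hc8, hu8, hu28] at this
        linear_combination this
      have hd : (b ^ 2 - b) * u = -(c ^ 2 - c) := by linear_combination h8 - h'
      by_cases hbb : b ^ 2 = b
      · have hcc : c ^ 2 = c := by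
          rw [hbb, sub_self, zero_mul] at hd
          linear_combination hd
        have h01 : ∀ x : K, x ^ 2 = x → x = 0 ∨ x = 1 := fun x hx =>
          (mul_eq_zero.1 (show x * (x - 1) = 0 by linear_combination hx)).imp id sub_eq_zero.1
        have h20 : (2 : K) = 0 := CharTwo.two_eq_zero
        rcases h01 b hbb with e1 | e1 <;> rcases h01 c hcc with e2 | e2 <;> rw [e1, e2] at h'
        · simp [u.ne_zero] at h'
        · exact hun1 (by
            have : ((u : K) - 1) ^ 2 = 0 := by linear_combination h' - (u : K) * h20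
            exact sub_eq_zero.1 (pow_eq_zero_iff two_ne_zero |>.1 this))
        · have : (u : K) * (1 + u) = 0 := by linear_combination h'
          refine hun1 ?_
          have := (mul_eq_zero.1 this).resolve_left u.ne_zero
          linear_combination this - h20
        · exact hu3 (by linear_combination ((u : K) - 1) * h')
      · apply hnF (-((a 0 / a 2) ^ 2 - a 0 / a 2) / ((a 1 / a 2) ^ 2 - a 1 / a 2))
        rw [map_div₀, map_neg, map_sub, map_sub, map_pow, map_pow, ← hb, ← hc, eq_div_iff (sub_ne_zero.2 hbb)]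
        linear_combination hd
  let pw : Fin 3 → K := fun i => (u : K) ^ (i : ℕ)
  have hpw : LinearIndependent F pw := by
    rw [Fintype.linearIndependent_iff]
    intro a ha
    refine congrFun (hrel a ?_)
    rw [← ha]
    simp [Fin.sum_univ_three, pw, Algebra.smul_def]
  let bK : Module.Basis (Fin 3) F K :=
    basisOfLinearIndependentOfCardEqFinrank hpw (by simp [hK.finrank_eq])
  have hbK : ∀ i, bK i = pw i := fun i => by simp [bK]
  -- elements fixed by the eighth power have coordinates in F₀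
  have hL : ∀ x : K, x ^ 8 = x → ∀ i, bK.repr x i ∈ F₀ := by
    intro x hx i
    rw [hmem₀]
    have hs := bK.sum_repr x
    simp only [hbK, Algebra.smul_def, pw, Fin.sum_univ_three, Fin.val_zero, Fin.val_one, Fin.val_two, pow_zero,
      pow_one, mul_one] at hs
    have h8 := congrArg (fun y => y ^ 2 ^ 3) hs
    simp only [add_pow_char_pow, mul_pow] at h8
    norm_num at h8
    have hu28 : ((u : K) ^ 2) ^ 8 = (u : K) ^ 2 := by rw [← pow_mul, mul_comm, pow_mul, hu8]
    simp only [← map_pow (algebraMap F K), pow_eight_of_four hq, hu8, hu28, hx] at h8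
    have := hrel (fun j => bK.repr x j ^ 2 - bK.repr x j) (by
      simp only [map_sub]
      linear_combination h8 - hs)
    exact sub_eq_zero.1 (congrFun this i)
  -- the basis of the natural module
  let v₀ : Fin 3 → F := Pi.single 0 1
  let ev : K →ₗ[F] (Fin 3 → F) :=
    { toFun := fun x => (x : Matrix (Fin 3) (Fin 3) F) *ᵥ v₀
      map_add' := fun x y => Matrix.add_mulVec _ _ _
      map_smul' := fun c x => Matrix.smul_mulVec _ _ _ }
  have hevinj : Function.Injective ev := by
    rw [injective_iff_map_eq_zero]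
    intro x hx
    by_contra hx0
    obtain ⟨y, -, hy⟩ := hK.inv x x.2 (fun e => hx0 (Subtype.ext e))
    have hu : IsUnit (x : Matrix (Fin 3) (Fin 3) F) := IsUnit.of_mul_eq_one _ hy
    have := congrFun (Matrix.mulVec_injective_of_isUnit hu (hx.trans (Matrix.mulVec_zero _).symm)) 0
    simp [v₀] at this
  have hfr : Module.finrank F K = Module.finrank F (Fin 3 → F) := by simp [hK.finrank_eq]
  let Ev : K ≃ₗ[F] (Fin 3 → F) := LinearEquiv.ofBijective ev
    ⟨hevinj, (LinearMap.injective_iff_surjective_of_finrank_eq_finrank hfr).1 hevinj⟩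
  let M : Matrix (Fin 3) (Fin 3) F := Matrix.of fun r i => ev (pw i) r
  have hMcol : ∀ c : Fin 3 → F, M *ᵥ c = ev (∑ i, c i • pw i) := by
    intro c
    funext r
    simp [M, Matrix.mulVec, dotProduct, map_sum, mul_comm]
  have hMu : IsUnit M := by
    rw [← Matrix.mulVec_injective_iff_isUnit]
    intro a b hab
    rw [hMcol, hMcol] at hab
    funext i
    exact sub_eq_zero.1 (Fintype.linearIndependent_iff.1 hpw (fun j => a j - b j) (by
      simp [sub_smul, Finset.sum_sub_distrib, hevinj hab]) i)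
  obtain ⟨P, hP⟩ := hMu
  refine ⟨F₀, P, by rw [hq, hF₀]; norm_num, fun g hg => ?_⟩
  obtain ⟨hgN, hgS⟩ := hg
  have hdetg : (g : Matrix (Fin 3) (Fin 3) F).det = 1 := by
    exact congrArg Units.val (MonoidHom.mem_ker.1 hgS : Matrix.GeneralLinearGroup.det g = 1)
  obtain ⟨k₀, hk₀⟩ := Ev.surjective ((g : Matrix (Fin 3) (Fin 3) F) *ᵥ v₀)
  change (k₀ : Matrix (Fin 3) (Fin 3) F) *ᵥ v₀ = _ at hk₀
  have hk0 : k₀ ≠ 0 := by
    intro e
    rw [e, ZeroMemClass.coe_zero, Matrix.zero_mulVec] at hk₀
    have := congrFun (Matrix.mulVec_injective_of_isUnit (Units.isUnit g)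
      (hk₀.symm.trans (Matrix.mulVec_zero _).symm)) 0
    simp [v₀] at this
  let cj : K → K := fun x =>
    ⟨(g : Matrix (Fin 3) (Fin 3) F) * x * ((g⁻¹ : GL (Fin 3) F) : Matrix (Fin 3) (Fin 3) F), (hgN x).1 x.2⟩
  have hcj1 : cj 1 = 1 := Subtype.ext (by simp [cj])
  have hcjm : ∀ x y, cj (x * y) = cj x * cj y := fun x y => Subtype.ext (by simp [cj, mul_assoc])
  let cjH : K →* K := { toFun := cj, map_one' := hcj1, map_mul' := hcjm }
  -- the determinant on the units of K
  let dt : Kˣ →* Fˣ := Units.map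
    ((Matrix.detMonoidHom : Matrix (Fin 3) (Fin 3) F →* F).comp K.val.toRingHom.toMonoidHom)
  have hdt : ∀ x : Kˣ, (dt x : F) = ((x : K) : Matrix (Fin 3) (Fin 3) F).det := fun x => rfl
  have hFunits : Nat.card Fˣ = 3 := by rw [Nat.card_eq_fintype_card, Fintype.card_units, hq]
  have hdtne : dt.range ≠ ⊥ := by
    intro hb
    have hall : ∀ x : K, x ≠ 0 → (x : Matrix (Fin 3) (Fin 3) F).det = 1 := by
      intro x hx
      have : dt (Units.mk0 x hx) ∈ dt.range := ⟨_, rfl⟩
      rw [hb, Subgroup.mem_bot] at this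
      exact congrArg Units.val this
    let U : Matrix (Fin 3) (Fin 3) F := ((u : K) : Matrix (Fin 3) (Fin 3) F)
    have hev : ∀ c : F, (U.charpoly - 1).eval c = 0 := by
      intro c
      rw [Polynomial.eval_sub, Polynomial.eval_one, Matrix.eval_charpoly]
      have hne : (algebraMap F K c - u : K) ≠ 0 := sub_ne_zero.2 (Ne.symm (hnF c))
      have := hall _ hne
      rw [show ((algebraMap F K c - u : K) : Matrix (Fin 3) (Fin 3) F) = Matrix.scalar (Fin 3) c - U from rfl] at this
      rw [this, sub_self]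
    have hdeg : (U.charpoly - 1).natDegree < Fintype.card F := by
      rw [hq]
      refine (Polynomial.natDegree_sub_le _ _).trans_lt ?_
      simp [U.charpoly_natDegree_eq_dim]
    have h0 := Polynomial.eq_zero_of_natDegree_lt_card_of_eval_eq_zero (U.charpoly - 1)
      (f := (id : F → F)) Function.injective_id (fun c => hev c) hdeg
    have := congrArg Polynomial.natDegree (sub_eq_zero.1 h0)
    simp [U.charpoly_natDegree_eq_dim] at this
  have hKu : Nat.card Kˣ = 3 * 21 := by rw [Nat.card_eq_fintype_card, Fintype.card_units, hcardK]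
  have hker : ∀ x : Kˣ, dt x = 1 → x ^ 21 = 1 := fun x hx =>
    pow_eq_one_of_mem_ker dt Nat.prime_three hFunits hKu hdtne hx
  -- the matrix of g in the chosen basis
  let d : Matrix (Fin 3) (Fin 3) F := Matrix.of fun j i => bK.repr (cjH (pw i)) j
  have hd8 : ∀ i, (cjH (pw i)) ^ 8 = cjH (pw i) := fun i => by
    have e : pw i ^ 8 = pw i := by simp only [pw]; rw [← pow_mul, mul_comm, pow_mul, hu8]
    exact (map_pow cjH (pw i) 8).symm.trans (congrArg cjH e)
  have hdF : ∀ j i, d j i ∈ F₀ := fun j i => hL _ (hd8 i) j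
  have hevmul : ∀ x y : K, ev (x * y) = (x : Matrix (Fin 3) (Fin 3) F) *ᵥ ev y := fun x y =>
    (Matrix.mulVec_mulVec v₀ (x : Matrix (Fin 3) (Fin 3) F) (y : Matrix (Fin 3) (Fin 3) F)).symm
  have hcolP : ∀ i, (P : Matrix (Fin 3) (Fin 3) F) *ᵥ Pi.single i 1 = ev (pw i) := fun i => by
    rw [hP]; funext r; simp [M]
  have hgP : ∀ i, (g : Matrix (Fin 3) (Fin 3) F) *ᵥ ev (pw i) = (k₀ : Matrix (Fin 3) (Fin 3) F) *ᵥ ev (cjH (pw i)) := by
    intro i
    show _ *ᵥ ((pw i : Matrix (Fin 3) (Fin 3) F) *ᵥ v₀) = _ *ᵥ ((cj (pw i) : Matrix (Fin 3) (Fin 3) F) *ᵥ v₀)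
    rw [Matrix.mulVec_mulVec, Matrix.mulVec_mulVec, hK.comm _ k₀.2 _ (cj (pw i)).2, ← Matrix.mulVec_mulVec _ _ (k₀ : Matrix (Fin 3) (Fin 3) F), hk₀, Matrix.mulVec_mulVec]
    simp [cj, mul_assoc]
  have hgMat : (g : Matrix (Fin 3) (Fin 3) F) * P = (k₀ : Matrix (Fin 3) (Fin 3) F) * P * d := by
    apply Matrix.ext_of_mulVec_single
    intro i
    rw [← Matrix.mulVec_mulVec, hcolP, hgP, ← Matrix.mulVec_mulVec, ← Matrix.mulVec_mulVec]
    congr 1
    rw [hP, hMcol]
    congr 1
    rw [← bK.sum_repr (cjH (pw i))]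
    refine Finset.sum_congr rfl fun j _ => ?_
    rw [hbK]
    simp [d, Matrix.mulVec_single_one, Matrix.col_apply, bK.sum_repr]
  have hdet_d : d.det ^ 2 = d.det := by
    rw [← hmem₀]
    let d₀ : Matrix (Fin 3) (Fin 3) F₀ := Matrix.of fun j i => ⟨d j i, hdF j i⟩
    have : d = d₀.map F₀.subtype := rfl
    rw [this, ← RingHom.mapMatrix_apply, ← RingHom.map_det]
    exact Subtype.prop _
  have hk1 : dt (Units.mk0 k₀ hk0) = 1 := by
    apply Units.ext
    rw [hdt, Units.val_one, Units.val_mk0]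
    have h := congrArg Matrix.det hgMat
    rw [Matrix.det_mul, Matrix.det_mul, Matrix.det_mul, hdetg, one_mul] at h
    have hPd : (P : Matrix (Fin 3) (Fin 3) F).det ≠ 0 :=
      ((Matrix.isUnit_iff_isUnit_det _).1 (Units.isUnit P)).ne_zero
    have hkd : (k₀ : Matrix (Fin 3) (Fin 3) F).det * d.det = 1 := by
      apply mul_right_cancel₀ hPd
      linear_combination -h
    have hd0 : d.det ≠ 0 := fun e => by rw [e, mul_zero] at hkd; exact zero_ne_one hkd
    have hd1 : d.det = 1 := mul_right_cancel₀ hd0 (by rw [← sq, hdet_d, one_mul])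
    rwa [hd1, mul_one] at hkd
  have h21 : k₀ ^ 21 = 1 := congrArg Units.val (hker _ hk1)
  -- k₀ is a scalar times an element fixed by the eighth power
  obtain ⟨z, hz⟩ : ∃ z : F, algebraMap F K z = k₀ ^ 7 := by
    have hz4 : (k₀ ^ 7) ^ 4 = k₀ ^ 7 := by
      calc (k₀ ^ 7) ^ 4 = k₀ ^ 21 * k₀ ^ 7 := by ring
        _ = k₀ ^ 7 := by rw [h21, one_mul]
    let T := {x : K // x ^ 4 = x}
    let f : F → T := fun a => ⟨algebraMap F K a, by rw [← map_pow, ← hq, FiniteField.pow_card]⟩
    have hinj : Function.Injective f := fun a b e => (algebraMap F K).injective (congrArg Subtype.val e)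
    have hbij : Function.Bijective f := (Nat.bijective_iff_injective_and_card f).2 ⟨hinj, le_antisymm
      (Nat.card_le_card_of_injective f hinj) (by
        rw [Nat.card_eq_fintype_card (α := F), hq]; exact card_fixed_le (by norm_num))⟩
    obtain ⟨z, hz⟩ := hbij.2 ⟨_, hz4⟩
    exact ⟨z, congrArg Subtype.val hz⟩
  let l : K := k₀ ^ 15
  have hl8 : l ^ 8 = l := by
    calc l ^ 8 = (k₀ ^ 21) ^ 5 * k₀ ^ 15 := by simp only [l]; ring
      _ = l := by rw [h21, one_pow, one_mul]
  have hkl : k₀ = z • l := by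
    rw [Algebra.smul_def, hz]
    calc k₀ = k₀ * k₀ ^ 21 := by rw [h21, mul_one]
      _ = k₀ ^ 7 * l := by simp only [l]; ring
  have hz0 : z ≠ 0 := fun e => hk0 (by rw [hkl, e, zero_smul])
  let E : Matrix (Fin 3) (Fin 3) F₀ := Matrix.of fun j i =>
    ⟨bK.repr (l * cjH (pw i)) j, hL _ (by rw [mul_pow, hl8, hd8]) j⟩
  have hE : (g : Matrix (Fin 3) (Fin 3) F) * P = z • ((P : Matrix (Fin 3) (Fin 3) F) * E.map F₀.subtype) := by
    apply Matrix.ext_of_mulVec_single
    intro i
    rw [← Matrix.mulVec_mulVec, hcolP, hgP, Matrix.smul_mulVec, ← Matrix.mulVec_mulVec, hkl]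
    show ((z • l : K) : Matrix (Fin 3) (Fin 3) F) *ᵥ _ = _
    rw [Subalgebra.coe_smul, Matrix.smul_mulVec]
    congr 1
    rw [hP, hMcol]
    have e : ∑ j, ((E.map F₀.subtype) *ᵥ (Pi.single i 1 : Fin 3 → F)) j • pw j = l * cjH (pw i) := by
      refine Eq.trans ?_ (bK.sum_repr (l * cjH (pw i)))
      refine Finset.sum_congr rfl fun j _ => ?_
      rw [hbK]
      simp [E]
    rw [e]
    exact (hevmul l (cjH (pw i))).symm
  have hEdet : E.det ≠ 0 := by
    intro e
    have h := congrArg Matrix.det hE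
    rw [Matrix.det_mul, Matrix.det_smul, Matrix.det_mul, ← RingHom.mapMatrix_apply, ← RingHom.map_det, e, map_zero,
      mul_zero, mul_zero, hdetg, one_mul] at h
    exact ((Matrix.isUnit_iff_isUnit_det _).1 (Units.isUnit P)).ne_zero h
  obtain ⟨Eu, hEu⟩ : IsUnit E := (Matrix.isUnit_iff_isUnit_det _).2 (isUnit_iff_ne_zero.2 hEdet)
  refine mem_subfieldSubgroup_of F₀ P g Eu (Units.mk0 z hz0) ?_
  rw [Units.val_mul, Units.val_mul, mul_assoc, hE, mul_smul_comm, ← mul_assoc, Units.inv_mul, one_mul, hEu]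
  rfl

end Cfsg.Agent.H99.Asch
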