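import Cfsg.Agent.H99.Aschbacher.Small

/-!
The list of maximal subgroups of SL(ι, F) with the small-field exceptions removed, and the arithmetic of class six.
-/

set_option autoImplicit false

open scoped MatrixGroups Matrix

namespace Cfsg.Agent.H99.Asch

open Cfsg.Geo

variable {ι : Type} [Fintype ι] [DecidableEq ι] {F : Type*} [Field F] [Fintype F]

/-- A maximal subgroup inside a similarity group is one. -/
lemma forms_of_maximal (hn3 : 3 ≤ Fintype.card ι) {H : Subgroup (GL ι F)} (hH : IsMaximalIn (specialLinear ι F) H)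
    (h : InForms H) :
    (Even (Fintype.card ι) ∧ ∃ f, IsSymplecticForm f ∧ H = similarityGroup f ⊓ specialLinear ι F) ∨
    (∃ (σ : F ≃+* F) (f : (ι → F) → (ι → F) → F), IsUnitaryForm σ f ∧
      H = similarityGroup f ⊓ specialLinear ι F) ∨
    (Odd (Fintype.card F) ∧ ∃ Q : (ι → F) → F, IsNondegenerateQuadraticForm Q ∧
      H = quadSimilarityGroup Q ⊓ specialLinear ι F) := by
  rcases h with ⟨f, hf, h⟩ | ⟨σ, f, hf, h⟩ | ⟨Q, hQ, ho, h⟩
  · exact Or.inl ⟨symplectic_even hf, f, hf,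
      eq_inf_of_maximal hH h (sl_not_le_similarity hn3 (RingHom.id F) Function.surjective_id
        hf.bilinear.add_right (fun c v x => hf.bilinear.smul_right c v x) hf.nondegenerate)⟩
  · exact Or.inr (Or.inl ⟨σ, f, hf,
      eq_inf_of_maximal hH h (sl_not_le_similarity hn3 σ.toRingHom σ.surjective
        (fun v x y => by rw [hf.herm v, hf.add_left, map_add, ← hf.herm, ← hf.herm])
        (fun c v x => by rw [hf.herm v, hf.smul_left, map_mul, ← hf.herm]; rfl) hf.nondegenerate)⟩)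
  · refine Or.inr (Or.inr ⟨ho, Q, hQ, eq_inf_of_maximal hH h fun hle => ?_⟩)
    apply sl_not_le_similarity hn3 (RingHom.id F) Function.surjective_id hQ.polar_bilinear.add_right
      (fun c v x => hQ.polar_bilinear.smul_right c v x) hQ.nondegenerate
    intro g hg
    obtain ⟨c, hc⟩ := hle hg
    refine ⟨c, fun u v => ?_⟩
    simp only [QuadraticMap.polar, ← Matrix.mulVec_add, hc]
    ring

/-- The possibilities for a maximal subgroup of SL(ι, F), with the exceptions over small fields removed. -/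
theorem maximal_list (hn3 : 3 ≤ Fintype.card ι) (hn : Fintype.card ι ≤ 26)
    {H : Subgroup (GL ι F)} (hH : IsMaximalIn (specialLinear ι F) H) :
    (∃ W : Submodule F (ι → F), W ≠ ⊥ ∧ W ≠ ⊤ ∧ H = subspaceStabilizer W ⊓ specialLinear ι F) ∨
    (∃ (t m : ℕ) (D : Fin t → Submodule F (ι → F)), IsMDecomposition m D ∧ t * m = Fintype.card ι ∧
      (m = 1 → 5 ≤ Fintype.card F) ∧ (m = 2 → 3 ≤ Fintype.card F) ∧
      (m = 2 → t = 2 → 4 ≤ Fintype.card F) ∧ H = decompositionStabilizer D ⊓ specialLinear ι F) ∨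
    (∃ (r : ℕ) (K : Subalgebra F (Matrix ι ι F)), r.Prime ∧ r ∣ Fintype.card ι ∧ IsFieldSubalgebra r K ∧
      H = subalgebraNormalizer K ⊓ specialLinear ι F) ∨
    (∃ (n₁ n₂ : ℕ) (e : ι ≃ Fin n₁ × Fin n₂) (P : GL ι F), 2 ≤ n₁ ∧ n₁ < n₂ ∧ Fintype.card ι = n₁ * n₂ ∧
      (n₁ = 2 → 3 ≤ Fintype.card F) ∧ H = tensorProductSubgroup n₁ n₂ e P ⊓ specialLinear ι F) ∨
    (∃ (F₁ : Subfield F) (r : ℕ) (P : GL ι F), r.Prime ∧ Fintype.card F = Nat.card F₁ ^ r ∧
      H = subfieldSubgroup F₁ P ⊓ specialLinear ι F) ∨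
    (∃ (r : ℕ) (R : Subgroup (GL ι F)) (m : ℕ), IsLinearSymplecticTypeData r R ∧ Fintype.card ι = r ^ m ∧
      1 ≤ m ∧ H = subgroupNormalizer R ⊓ specialLinear ι F) ∨
    (∃ (m : ℕ) (e : ι ≃ (Fin 2 → Fin m)) (P : GL ι F), 3 ≤ m ∧ Fintype.card ι = m ^ 2 ∧
      H = tensorWreathSubgroup m 2 e P ⊓ specialLinear ι F) ∨
    (Even (Fintype.card ι) ∧ ∃ f, IsSymplecticForm f ∧ H = similarityGroup f ⊓ specialLinear ι F) ∨
    (∃ (σ : F ≃+* F) (f : (ι → F) → (ι → F) → F), IsUnitaryForm σ f ∧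
      H = similarityGroup f ⊓ specialLinear ι F) ∨
    (Odd (Fintype.card F) ∧ ∃ Q : (ι → F) → F, IsNondegenerateQuadraticForm Q ∧
      H = quadSimilarityGroup Q ⊓ specialLinear ι F) ∨
    InLinearResidualClass H := by
  classical
  have hforms : InForms H → _ := fun h => forms_of_maximal hn3 hH h
  have h2F := Fintype.one_lt_card (α := F)
  have toForms : ∀ {M : Subgroup (GL ι F)}, H ≤ M → InForms M → InForms H := by
    intro M hle hM
    rcases hM with ⟨f, hf, h⟩ | ⟨σ, f, hf, h⟩ | ⟨Q, hQ, ho, h⟩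
    · exact Or.inl ⟨f, hf, hle.trans h⟩
    · exact Or.inr (Or.inl ⟨σ, f, hf, hle.trans h⟩)
    · exact Or.inr (Or.inr ⟨Q, hQ, ho, hle.trans h⟩)
  rcases maximal_cases hn3 hn hH with h | ⟨t, m, D, hD, htm, h⟩ | h | ⟨n₁, n₂, e, P, h1, h2, hc, h⟩ | h | h | h |
    h | h | h | h
  · exact Or.inl h
  · have hle : H ≤ decompositionStabilizer D := h ▸ inf_le_left
    have hle' : H ≤ decompositionStabilizer D ⊓ specialLinear ι F := h.le
    have cls : (InForms H) ∨ (∃ W : Submodule F (ι → F), W ≠ ⊥ ∧ W ≠ ⊤ ∧ H ≤ subspaceStabilizer W) ∨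
        ((m = 1 → 5 ≤ Fintype.card F) ∧ (m = 2 → 3 ≤ Fintype.card F) ∧
          (m = 2 → t = 2 → 4 ≤ Fintype.card F)) := by
      by_cases hm1 : m = 1
      · subst hm1
        by_cases h5 : 5 ≤ Fintype.card F
        · exact Or.inr (Or.inr ⟨fun _ => h5, fun e => absurd e (by omega), fun e => absurd e (by omega)⟩)
        have hq : Fintype.card F = 2 ∨ Fintype.card F = 3 ∨ Fintype.card F = 4 := by omega
        rcases hq with hq | hq | hq
        · obtain ⟨W, w1, w2, w3⟩ := monomial_two (by omega) hD hq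
          exact Or.inr (Or.inl ⟨W, w1, w2, hle.trans w3⟩)
        · exact Or.inl (toForms hle (monomial_three hD hq))
        · exact Or.inl (toForms hle (monomial_four hD hq))
      by_cases hm2 : m = 2
      · subst hm2
        by_cases hq2 : Fintype.card F = 2
        · exact Or.inl (toForms hle (planes_two hD hq2))
        by_cases hq3 : t = 2 ∧ Fintype.card F = 3
        · obtain ⟨rfl, hq3⟩ := hq3
          exact Or.inl (toForms hle' (planes_three hD hq3))
        exact Or.inr (Or.inr ⟨fun e => absurd e (by omega), fun _ => by omega, fun _ ht => by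
          have : Fintype.card F ≠ 3 := fun e => hq3 ⟨ht, e⟩
          omega⟩)
      exact Or.inr (Or.inr ⟨fun e => absurd e hm1, fun e => absurd e hm2, fun e => absurd e hm2⟩)
    rcases cls with hf | ⟨W, w1, w2, w3⟩ | ⟨c1, c2, c3⟩
    · exact Or.inr (Or.inr (Or.inr (Or.inr (Or.inr (Or.inr (Or.inr
        ((hforms hf).imp id fun x => x.imp id Or.inl)))))))
    · exact Or.inl ⟨W, w1, w2, eq_inf_of_maximal hH w3 (sl_not_le_subspace hn3 w1 w2)⟩
    · exact Or.inr (Or.inl ⟨t, m, D, hD, htm, c1, c2, c3, h⟩)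
  · exact Or.inr (Or.inr (Or.inl h))
  · by_cases hq : n₁ = 2 ∧ Fintype.card F = 2
    · obtain ⟨rfl, hq⟩ := hq
      obtain ⟨K, hK, hKle⟩ := tensor_two (by omega) e P hq
      exact Or.inr (Or.inr (Or.inl ⟨2, K, Nat.prime_two, hc ▸ Dvd.intro n₂ rfl, hK,
        eq_inf_of_maximal hH ((h ▸ inf_le_left).trans hKle) (sl_not_le_field hn3 Nat.prime_two hK)⟩))
    · exact Or.inr (Or.inr (Or.inr (Or.inl ⟨n₁, n₂, e, P, h1, h2, hc, fun e1 => by
        have : Fintype.card F ≠ 2 := fun e2 => hq ⟨e1, e2⟩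
        omega, h⟩)))
  · exact Or.inr (Or.inr (Or.inr (Or.inr (Or.inl h))))
  · exact Or.inr (Or.inr (Or.inr (Or.inr (Or.inr (Or.inl h)))))
  · exact Or.inr (Or.inr (Or.inr (Or.inr (Or.inr (Or.inr (Or.inl h))))))
  · exact Or.inr (Or.inr (Or.inr (Or.inr (Or.inr (Or.inr (Or.inr (Or.inl h)))))))
  · exact Or.inr (Or.inr (Or.inr (Or.inr (Or.inr (Or.inr (Or.inr (Or.inr (Or.inl h))))))))
  · exact Or.inr (Or.inr (Or.inr (Or.inr (Or.inr (Or.inr (Or.inr (Or.inr (Or.inr (Or.inl h)))))))))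
  · exact Or.inr (Or.inr (Or.inr (Or.inr (Or.inr (Or.inr (Or.inr (Or.inr (Or.inr (Or.inr h)))))))))

/-- A prime is determined by a power of it. -/
lemma prime_of_pow_eq {r s m k : ℕ} (hr : r.Prime) (hs : s.Prime) (h : s ^ k = r ^ m) (hm : 1 ≤ m) : r = s := by
  have h1 : r ∣ s ^ k := h ▸ dvd_pow_self r (by omega)
  exact (Nat.prime_dvd_prime_iff_eq hr hs).1 (hr.dvd_of_dvd_pow h1)

/-- Class six in even characteristic of the extraspecial group: a prime field of order congruent to one modulo four. -/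
lemma classSix_two (hn3 : 3 ≤ Fintype.card ι) {R : Subgroup (GL ι F)} (hR : IsLinearSymplecticTypeData 2 R) :
    ∃ p : ℕ, p.Prime ∧ Fintype.card F = p ∧ p % 4 = 1 := by
  obtain ⟨p, e, -, ⟨hp, -, hc, hd, -⟩, h⟩ := hR.field
  rcases h with ⟨ho, -⟩ | ⟨-, rfl, hz, -⟩ | ⟨-, -, hι, -⟩
  · exact absurd ho (by decide)
  · rw [hz, pow_one] at hd
    refine ⟨p, hp, by simpa using hc, ?_⟩
    obtain ⟨k, hk⟩ := hd
    have := hp.two_le
    omega
  · omega

/-- Class six for an odd prime r: the degree e of F over the prime field is odd and divides r - 1. -/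
lemma classSix_odd {r : ℕ} (hodd : Odd r) {R : Subgroup (GL ι F)} (hR : IsLinearSymplecticTypeData r R) :
    ∃ p e : ℕ, p.Prime ∧ CharP F p ∧ Fintype.card F = p ^ e ∧ Odd e ∧ e ∣ r - 1 ∧ r ∣ p ^ e - 1 ∧
      (1 < e → ¬ r ∣ p - 1) := by
  obtain ⟨p, e, hrp, ⟨hp, hch, hc, hd, hmin⟩, h⟩ := hR.field
  rcases h with ⟨-, he, hz, -⟩ | ⟨rfl, -⟩ | ⟨rfl, -⟩
  · rw [hz] at hd hmin
    have : Fact r.Prime := ⟨hR.symplecticType.prime⟩
    refine ⟨p, e, hp, hch, hc, he, ?_, hd, fun h1 h2 => hmin 1 one_pos h1 (by rwa [pow_one])⟩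
    have hp0 : (p : ZMod r) ≠ 0 := by
      rw [Ne, ZMod.natCast_eq_zero_iff]
      exact fun hdvd => hrp ((Nat.prime_dvd_prime_iff_eq hR.symplecticType.prime hp).1 hdvd)
    have hiff : ∀ d, r ∣ p ^ d - 1 ↔ (p : ZMod r) ^ d = 1 := by
      intro d
      rw [← ZMod.natCast_eq_zero_iff, Nat.cast_sub (Nat.one_le_pow _ _ hp.pos), sub_eq_zero, Nat.cast_pow,
        Nat.cast_one]
    have hpow : (p : ZMod r) ^ e = 1 := (hiff e).1 hd
    have hord := orderOf_dvd_of_pow_eq_one hpow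
    have he0 : 0 < e := he.pos
    have hpos : 0 < orderOf (p : ZMod r) := Nat.pos_of_dvd_of_pos hord he0
    have heq : orderOf (p : ZMod r) = e := by
      by_contra hne
      exact hmin _ hpos (lt_of_le_of_ne (Nat.le_of_dvd he0 hord) hne) ((hiff _).2 (pow_orderOf_eq_one _))
    rw [← heq]
    exact orderOf_dvd_of_pow_eq_one (ZMod.pow_card_sub_one_eq_one hp0)
  · exact absurd hodd (by decide)
  · exact absurd hodd (by decide)

end Cfsg.Agent.H99.Asch
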