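import Cfsg.Agent.H99.Aschbacher.FormTools
import Cfsg.Agent.H99.Aschbacher.SymplecticType

/-!
An absolutely irreducible 2-group of isometries of a non-degenerate alternating form in odd characteristic with
centre of order two and order twice the square of the degree is of minus type.
-/

set_option autoImplicit false

open scoped MatrixGroups Matrix

namespace Cfsg.Agent.H99.Asch

open Cfsg.Geo

variable {ι : Type} [Fintype ι] [DecidableEq ι] {F : Type*} [Field F] [Fintype F]

/-- A commutative group of involutions has a vector separating its enveloping algebra on any invariant subspace. -/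
lemma exists_separating (h2 : (2 : F) ≠ 0) {S : Set (Matrix ι ι F)} (hsq : ∀ b ∈ S, b * b = 1)
    (hcomm : ∀ a ∈ S, ∀ b ∈ S, a * b = b * a) :
    ∀ (d : ℕ) (W : Submodule F (ι → F)), Module.finrank F W ≤ d → IsInv S W →
      ∃ v ∈ W, ∀ M ∈ Algebra.adjoin F S, M *ᵥ v = 0 → ∀ u ∈ W, M *ᵥ u = 0 := by
  intro d
  induction d with
  | zero =>
    intro W hW _
    refine ⟨0, W.zero_mem, fun M _ _ u hu => ?_⟩
    rw [Submodule.finrank_eq_zero.1 (Nat.le_zero.1 hW), Submodule.mem_bot] at hu
    rw [hu, Matrix.mulVec_zero]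
  | succ d ih =>
    intro W hW hinv
    by_cases hall : ∀ b ∈ S, ∃ c : F, ∀ u ∈ W, b *ᵥ u = c • u
    · have hsc : ∀ M ∈ Algebra.adjoin F S, ∃ c : F, ∀ u ∈ W, M *ᵥ u = c • u := by
        intro M hM
        induction hM using Algebra.adjoin_induction with
        | mem x hx => exact hall x hx
        | algebraMap r => exact ⟨r, fun u _ => by
            rw [Algebra.algebraMap_eq_smul_one, Matrix.smul_mulVec, Matrix.one_mulVec]⟩
        | add x y _ _ hx hy =>
          obtain ⟨a, ha⟩ := hx
          obtain ⟨b, hb⟩ := hy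
          exact ⟨a + b, fun u hu => by rw [Matrix.add_mulVec, ha u hu, hb u hu, add_smul]⟩
        | mul x y _ _ hx hy =>
          obtain ⟨a, ha⟩ := hx
          obtain ⟨b, hb⟩ := hy
          exact ⟨b * a, fun u hu => by
            rw [← Matrix.mulVec_mulVec, hb u hu, Matrix.mulVec_smul, ha u hu, smul_smul]⟩
      by_cases hb : W = ⊥
      · exact ⟨0, W.zero_mem, fun M _ _ u hu => by
          rw [hb, Submodule.mem_bot] at hu; rw [hu, Matrix.mulVec_zero]⟩
      obtain ⟨v, hv, hv0⟩ := Submodule.exists_mem_ne_zero_of_ne_bot hb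
      refine ⟨v, hv, fun M hM h u hu => ?_⟩
      obtain ⟨c, hc⟩ := hsc M hM
      rw [hc v hv] at h
      rw [hc u hu, (smul_eq_zero.1 h).resolve_right hv0, zero_smul]
    · push Not at hall
      obtain ⟨b, hb, hnsc⟩ := hall
      let L := Matrix.toLin' b
      let Wp := W ⊓ LinearMap.ker (L - LinearMap.id)
      let Wm := W ⊓ LinearMap.ker (L + LinearMap.id)
      have hmemp : ∀ x, x ∈ Wp ↔ x ∈ W ∧ b *ᵥ x = x := fun x => by
        simp [Wp, L, sub_eq_zero]
      have hmemm : ∀ x, x ∈ Wm ↔ x ∈ W ∧ b *ᵥ x = -x := fun x => by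
        simp [Wm, L, add_eq_zero_iff_eq_neg]
      have hsplit : ∀ u ∈ W, ∃ x ∈ Wp, ∃ y ∈ Wm, x + y = u := by
        intro u hu
        have hbu : b *ᵥ u ∈ W := hinv b hb u hu
        have hbb : b *ᵥ (b *ᵥ u) = u := by rw [Matrix.mulVec_mulVec, hsq b hb, Matrix.one_mulVec]
        refine ⟨(2 : F)⁻¹ • (u + b *ᵥ u), (hmemp _).2 ⟨W.smul_mem _ (W.add_mem hu hbu), ?_⟩,
          (2 : F)⁻¹ • (u - b *ᵥ u), (hmemm _).2 ⟨W.smul_mem _ (W.sub_mem hu hbu), ?_⟩, ?_⟩
        · rw [Matrix.mulVec_smul, Matrix.mulVec_add, hbb, add_comm]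
        · rw [Matrix.mulVec_smul, Matrix.mulVec_sub, hbb, ← smul_neg, neg_sub]
        · rw [← smul_add, show u + b *ᵥ u + (u - b *ᵥ u) = (2 : F) • u by rw [two_smul]; abel, smul_smul,
            inv_mul_cancel₀ h2, one_smul]
      have hlt : ∀ Z : Submodule F (ι → F), Z ≤ W → Z ≠ W → Module.finrank F Z ≤ d := fun Z hle hne => by
        have := Submodule.finrank_lt_finrank_of_lt (lt_of_le_of_ne hle hne)
        omega
      have hp : Module.finrank F Wp ≤ d := hlt _ inf_le_left fun e => by
        obtain ⟨u, hu, hne⟩ := hnsc 1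
        apply hne
        rw [one_smul]
        exact ((hmemp u).1 (by rw [e]; exact hu)).2
      have hm : Module.finrank F Wm ≤ d := hlt _ inf_le_left fun e => by
        obtain ⟨u, hu, hne⟩ := hnsc (-1)
        apply hne
        rw [neg_smul, one_smul]
        exact ((hmemm u).1 (by rw [e]; exact hu)).2
      have hinvp : IsInv S Wp := fun a ha u hu => by
        obtain ⟨h1, h2'⟩ := (hmemp u).1 hu
        exact (hmemp _).2 ⟨hinv a ha u h1, by rw [Matrix.mulVec_mulVec, hcomm b hb a ha, ← Matrix.mulVec_mulVec, h2']⟩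
      have hinvm : IsInv S Wm := fun a ha u hu => by
        obtain ⟨h1, h2'⟩ := (hmemm u).1 hu
        exact (hmemm _).2 ⟨hinv a ha u h1, by
          rw [Matrix.mulVec_mulVec, hcomm b hb a ha, ← Matrix.mulVec_mulVec, h2', Matrix.mulVec_neg]⟩
      obtain ⟨vp, hvp, hsp⟩ := ih Wp hp hinvp
      obtain ⟨vm, hvm, hsm⟩ := ih Wm hm hinvm
      refine ⟨vp + vm, W.add_mem hvp.1 hvm.1, fun M hM h u hu => ?_⟩
      have hMp : M *ᵥ vp ∈ Wp := hinvp.adjoin M hM vp hvp
      have hMm : M *ᵥ vm ∈ Wm := hinvm.adjoin M hM vm hvm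
      rw [Matrix.mulVec_add] at h
      have h0 : M *ᵥ vp = 0 := by
        have e1 := ((hmemp _).1 hMp).2
        have e2 := ((hmemm _).1 hMm).2
        rw [eq_neg_of_add_eq_zero_right h, Matrix.mulVec_neg, e1, neg_neg] at e2
        have h3 : (2 : F) • (M *ᵥ vp) = 0 := by
          rw [two_smul]
          nth_rewrite 1 [← e2]
          exact neg_add_cancel _
        exact (smul_eq_zero.1 h3).resolve_left h2
      rw [h0, zero_add] at h
      obtain ⟨x, hx, y, hy, rfl⟩ := hsplit u hu
      rw [Matrix.mulVec_add, hsp M hM h0 x hx, hsm M hM h y hy, add_zero]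

/-- The extraspecial group is of minus type. -/
theorem minus_type (D : FormData ι F) (hσ : D.σ = RingHom.id F) (heps : D.ε = -1) (h2 : (2 : F) ≠ 0)
    {R : Subgroup (GL ι F)} (hR : R ≤ D.isom) (habs : ActsAbsolutelyIrreducibly (matrixSet R)) {k : ℕ}
    (hn : Fintype.card ι = 2 ^ k) (hcard : Nat.card R = 2 ^ (1 + 2 * k))
    (hz : Nat.card (Subgroup.center R) = 2) : IsOfMinusType k R := by
  classical
  have : Nonempty ι := Fintype.card_pos_iff.1 (by rw [hn]; exact Nat.two_pow_pos k)
  intro A hA hA2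
  by_contra hlt
  push Not at hlt
  let S : Subgroup R := (scalars ι F).subgroupOf R
  have hS : S = Subgroup.center R := by
    ext x
    rw [Subgroup.mem_subgroupOf, Subgroup.mem_center_iff]
    refine ⟨fun hx y => Subtype.ext (scalars_commute hx y).symm, fun h => ?_⟩
    exact mem_scalars_of_commute habs fun y hy => (congrArg Subtype.val (h ⟨y, hy⟩)).symm
  have : S.Normal := by rw [hS]; infer_instance
  let : Fintype (R ⧸ S) := Fintype.ofFinite _
  let T : R ⧸ S → Matrix ι ι F := fun x => ((x.out : R) : GL ι F)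
  have hrep : ∀ g : R, ∃ c : F, ((g : GL ι F) : Matrix ι ι F) = c • T (QuotientGroup.mk g) := by
    intro g
    obtain ⟨s, hs⟩ := QuotientGroup.mk_out_eq_mul S g
    obtain ⟨c, hc⟩ := (mem_scalars_iff ((s : R) : GL ι F)).1 (Subgroup.mem_subgroupOf.1 s.2)
    refine ⟨(c : F)⁻¹, ?_⟩
    show _ = (c : F)⁻¹ • ((((QuotientGroup.mk g : R ⧸ S).out : R) : GL ι F) : Matrix ι ι F)
    rw [hs, Subgroup.coe_mul, Units.val_mul, hc, mul_smul_comm, mul_one, smul_smul,
      inv_mul_cancel₀ c.ne_zero, one_smul]
  have hspan : ⊤ ≤ Submodule.span F (Set.range T) := by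
    intro M _
    have hM : M ∈ (env R).toSubmodule := by
      rw [env_eq_top habs, Algebra.top_toSubmodule]
      exact Submodule.mem_top
    rw [env_toSubmodule] at hM
    refine Submodule.span_le.2 ?_ hM
    rintro _ ⟨g, hg, rfl⟩
    obtain ⟨c, hc⟩ := hrep ⟨g, hg⟩
    show (g : Matrix ι ι F) ∈ _
    rw [hc]
    exact Submodule.smul_mem _ _ (Submodule.subset_span ⟨_, rfl⟩)
  have hQ : Fintype.card (R ⧸ S) = Fintype.card ι * Fintype.card ι := by
    have h1 := Subgroup.card_eq_card_quotient_mul_card_subgroup S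
    have h2 : Nat.card S = 2 := by rw [hS]; exact hz
    rw [hcard, h2, Nat.card_eq_fintype_card] at h1
    rw [hn, ← pow_add]
    have : 2 ^ (1 + 2 * k) = 2 ^ (k + k) * 2 := by rw [← pow_succ]; congr 1; omega
    omega
  have hind : LinearIndependent F T :=
    linearIndependent_of_top_le_span_of_card_eq_finrank hspan (by rw [hQ, Module.finrank_matrix]; simp)
  let SA : Set (Matrix ι ι F) := (fun a : R => ((a : GL ι F) : Matrix ι ι F)) '' (A : Set R)
  let K : Subalgebra F (Matrix ι ι F) := Algebra.adjoin F SA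
  -- the enveloping algebra of A is at least as large as the degree
  let Abar : Subgroup (R ⧸ S) := A.map (QuotientGroup.mk' S)
  let : Fintype Abar := Fintype.ofFinite _
  have hAbar : 2 ^ k ≤ Nat.card Abar := by
    have h1 : Nat.card A ≤ Nat.card Abar * 2 := by
      have h3 := Subgroup.card_eq_card_quotient_mul_card_subgroup
        ((QuotientGroup.mk' S).comp A.subtype).ker
      have h4 : Nat.card ((QuotientGroup.mk' S).comp A.subtype).ker ≤ 2 := by
        rw [← hz, ← hS]
        refine Nat.card_le_card_of_injective (fun x => (⟨(x.1 : R), ?_⟩ : S)) fun x y h => ?_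
        · exact (QuotientGroup.eq_one_iff _).1 (MonoidHom.mem_ker.1 x.2)
        · exact Subtype.ext (Subtype.ext (congrArg (fun z : S => (z : R)) h))
      have h5 : Nat.card (A ⧸ ((QuotientGroup.mk' S).comp A.subtype).ker) = Nat.card Abar := by
        rw [Nat.card_congr (QuotientGroup.quotientKerEquivRange _).toEquiv, MonoidHom.range_comp,
          Subgroup.range_subtype]
      rw [h3, h5]
      exact Nat.mul_le_mul_left _ h4
    rw [pow_succ] at hlt
    omega
  have hKmem : ∀ x : Abar, T x.1 ∈ K.toSubmodule := by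
    rintro ⟨_, a, ha, rfl⟩
    obtain ⟨c, hc⟩ := hrep a
    have hc0 : c ≠ 0 := fun e => by
      rw [e, zero_smul] at hc
      exact Units.ne_zero (a : GL ι F) hc
    have : T (QuotientGroup.mk' S a) = c⁻¹ • ((a : GL ι F) : Matrix ι ι F) := by
      rw [hc, smul_smul, inv_mul_cancel₀ hc0, one_smul]; rfl
    show T (QuotientGroup.mk' S a) ∈ _
    rw [this]
    exact Submodule.smul_mem _ _ (Algebra.subset_adjoin ⟨a, ha, rfl⟩)
  have hdim : Fintype.card ι ≤ Module.finrank F K.toSubmodule := by
    have hi : LinearIndependent F (fun x : Abar => (⟨T x.1, hKmem x⟩ : K.toSubmodule)) :=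
      LinearIndependent.of_comp K.toSubmodule.subtype (hind.comp _ Subtype.val_injective)
    have := hi.fintype_card_le_finrank
    rw [← Nat.card_eq_fintype_card] at this
    omega
  have hsq : ∀ b ∈ SA, b * b = 1 := by
    rintro _ ⟨a, ha, rfl⟩
    show ((a : GL ι F) : Matrix ι ι F) * ((a : GL ι F) : Matrix ι ι F) = 1
    rw [← Units.val_mul, ← Subgroup.coe_mul, hA2 a ha]
    rfl
  have hcomm : ∀ a ∈ SA, ∀ b ∈ SA, a * b = b * a := by
    rintro _ ⟨a, ha, rfl⟩ _ ⟨b, hb, rfl⟩
    show ((a : GL ι F) : Matrix ι ι F) * ((b : GL ι F) : Matrix ι ι F) = _ * _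
    rw [← Units.val_mul, ← Units.val_mul, ← Subgroup.coe_mul, ← Subgroup.coe_mul,
      show a * b = b * a from congrArg Subtype.val (hA.is_comm.comm ⟨a, ha⟩ ⟨b, hb⟩)]
  obtain ⟨v, -, hv⟩ := exists_separating h2 hsq hcomm _ ⊤ le_rfl fun _ _ _ _ => Submodule.mem_top
  have hinj : ∀ M ∈ K, M *ᵥ v = 0 → M = 0 := fun M hM h => Matrix.ext_of_mulVec_single fun i => by
    rw [hv M hM h _ Submodule.mem_top, Matrix.zero_mulVec]
  let E : K.toSubmodule →ₗ[F] (ι → F) :=
    { toFun := fun M => (M : Matrix ι ι F) *ᵥ v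
      map_add' := fun M N => Matrix.add_mulVec _ _ _
      map_smul' := fun c M => Matrix.smul_mulVec _ _ _ }
  have hEinj : Function.Injective E := by
    rw [injective_iff_map_eq_zero]
    intro M hM
    exact Subtype.ext (hinj M M.2 hM)
  have hsurj : Function.Surjective E := by
    rw [← LinearMap.range_eq_top]
    refine Submodule.eq_top_of_finrank_eq ?_
    rw [LinearMap.finrank_range_of_inj hEinj, Module.finrank_fintype_fun_eq_card]
    have := LinearMap.finrank_le_finrank_of_injective hEinj
    rw [Module.finrank_fintype_fun_eq_card] at this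
    omega
  have hskew : ∀ x y, D.form x y = - D.form y x := fun x y => by
    have h1 := D.form_swap x y
    rw [hσ, heps, RingHom.id_apply] at h1
    rw [h1]; ring
  have hperp : ∀ M ∈ K, D.form v (M *ᵥ v) = 0 := by
    intro M hM
    have hM' : M ∈ K.toSubmodule := hM
    have e : K.toSubmodule ≤ Submodule.span F SA ⊔ Submodule.span F {(1 : Matrix ι ι F)} := by
      rw [Algebra.adjoin_eq_span]
      refine Submodule.span_le.2 fun x hx => ?_
      induction hx using Submonoid.closure_induction with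
      | mem y hy => exact Submodule.mem_sup_left (Submodule.subset_span hy)
      | one => exact Submodule.mem_sup_right (Submodule.mem_span_singleton_self _)
      | mul y z _ _ hy hz =>
        obtain ⟨y1, hy1, y2, hy2, rfl⟩ := Submodule.mem_sup.1 hy
        obtain ⟨z1, hz1, z2, hz2, rfl⟩ := Submodule.mem_sup.1 hz
        obtain ⟨c, rfl⟩ := Submodule.mem_span_singleton.1 hy2
        obtain ⟨d, rfl⟩ := Submodule.mem_span_singleton.1 hz2
        simp only [add_mul, mul_add, smul_mul_assoc, mul_smul_comm, one_mul, mul_one, smul_add]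
        repeat' apply Submodule.add_mem
        any_goals first
          | exact Submodule.smul_mem _ _ (Submodule.mem_sup_left hz1)
          | exact Submodule.smul_mem _ _ (Submodule.mem_sup_left hy1)
          | exact Submodule.smul_mem _ _ (Submodule.smul_mem _ _ (Submodule.mem_sup_right
              (Submodule.mem_span_singleton_self _)))
        refine Submodule.mem_sup_left ?_
        have hm := Submodule.mul_mem_mul hy1 hz1
        rw [Submodule.span_mul_span] at hm
        refine Submodule.span_le.2 ?_ hm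
        rintro _ ⟨_, ⟨a, ha, rfl⟩, _, ⟨b, hb, rfl⟩, rfl⟩
        exact Submodule.subset_span ⟨a * b, A.mul_mem ha hb, by simp⟩
    obtain ⟨x, hx, y, hy, rfl⟩ := Submodule.mem_sup.1 (e hM')
    obtain ⟨c, rfl⟩ := Submodule.mem_span_singleton.1 hy
    have hvv : D.form v v = 0 := (mul_eq_zero.1
      (show (2 : F) * D.form v v = 0 by linear_combination hskew v v)).resolve_left h2
    rw [Matrix.add_mulVec, Matrix.smul_mulVec, Matrix.one_mulVec, D.form_add_right, D.form_smul_right, hvv,
      mul_zero, add_zero]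
    clear e hM hM' hy
    induction hx using Submodule.span_induction with
    | mem b hb =>
      obtain ⟨a, ha, rfl⟩ := hb
      have h1 : D.form (((a : GL ι F) : Matrix ι ι F) *ᵥ v) v = D.form v (((a : GL ι F) : Matrix ι ι F) *ᵥ v) := by
        rw [D.form_adj, FormData.mem_isom_iff_adj.1 (hR a.2)]
        congr 2
        have : (a : GL ι F)⁻¹ = (a : GL ι F) := inv_eq_of_mul_eq_one_right (by rw [← Subgroup.coe_mul, hA2 a ha]; rfl)
        rw [this]
      rw [hskew] at h1
      exact (mul_eq_zero.1 (show (2 : F) * D.form v (((a : GL ι F) : Matrix ι ι F) *ᵥ v) = 0 by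
        linear_combination -h1)).resolve_left h2
    | zero => rw [Matrix.zero_mulVec, D.form_zero_right]
    | add x y _ _ hx hy => rw [Matrix.add_mulVec, D.form_add_right, hx, hy, add_zero]
    | smul c x _ hx => rw [Matrix.smul_mulVec, D.form_smul_right, hx, mul_zero]
  have hv0 : v ≠ 0 := by
    intro e
    have := hinj 1 K.one_mem (by rw [e, Matrix.mulVec_zero])
    exact one_ne_zero this
  obtain ⟨-, u, hu⟩ := D.nondegenerate v hv0
  obtain ⟨M, rfl⟩ := hsurj u
  exact hu (hperp M M.2)

end Cfsg.Agent.H99.Asch
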