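import Cfsg.Agent.H99.Aschbacher.OddOrthBase

/-!
Aschbacher's theorem for the orthogonal groups in odd dimension and odd characteristic.
-/

set_option autoImplicit false

open scoped MatrixGroups Matrix Kronecker commutatorElement

namespace Cfsg.Agent.H99.Asch

open Cfsg.Geo

variable {F : Type*} [Field F] [Fintype F]

/-- The alternatives for a group of isometries of the standard odd form, with the data of the classes. -/
inductive OddOrthCase (m : ℕ) (H : Subgroup (GL (OddIdx m) F)) : Prop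
  | singular (W : Submodule F (OddIdx m → F)) (hW : W ≠ ⊥)
      (hts : IsTotallySingularQuad (Cfsg.quadFormOdd m F) W) (hle : H ≤ subspaceStabilizer W)
  | nondeg (W : Submodule F (OddIdx m → F)) (hW : W ≠ ⊥) (hW' : W ≠ ⊤) (hev : Even (Module.finrank F W))
      (hnd : IsNondegenerateOn (QuadraticMap.polar (Cfsg.quadFormOdd m F)) W) (hle : H ≤ subspaceStabilizer W)
  | decomp (t k : ℕ) (V : Fin t → Submodule F (OddIdx m → F)) (hk : 1 < k) (htk : t * k = 2 * m + 1)
      (hV : IsOrthogonalMDecomposition (Cfsg.quadFormOdd m F) k V) (hirr : ActsIrreducibly (matrixSet H))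
      (hle : H ≤ decompositionStabilizer V)
  | frame (V : Fin (2 * m + 1) → Submodule F (OddIdx m → F)) (hp : (Fintype.card F).Prime)
      (hV : IsOrthogonalMDecomposition (Cfsg.quadFormOdd m F) 1 V) (hle : H ≤ decompositionStabilizer V)
  | field (r : ℕ) (K : Subalgebra F (Matrix (OddIdx m) (OddIdx m) F)) (hr : r.Prime) (hrn : r ∣ 2 * m + 1)
      (hne : 2 * m + 1 ≠ r) (hK : IsFieldSubalgebra r K)
      (hself : IsSelfAdjointFor (QuadraticMap.polar (Cfsg.quadFormOdd m F)) K)
      (hirr : ActsIrreducibly (matrixSet H)) (hle : H ≤ subalgebraNormalizer K)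
  | tensor (n₁ n₂ : ℕ) (e : OddIdx m ≃ Fin n₁ × Fin n₂) (P : GL (OddIdx m) F)
      (f₁ : (Fin n₁ → F) → (Fin n₁ → F) → F) (f₂ : (Fin n₂ → F) → (Fin n₂ → F) → F)
      (h1 : 3 ≤ n₁) (h12 : n₁ < n₂) (ho₁ : Odd n₁) (ho₂ : Odd n₂) (hf₁ : IsSymmetricForm f₁)
      (hf₂ : IsSymmetricForm f₂)
      (hform : IsTensorFormStructure id (QuadraticMap.polar (Cfsg.quadFormOdd m F)) f₁ f₂ e P)
      (hirr : ActsIrreducibly (matrixSet H)) (hle : H ≤ tensorProductSubgroup n₁ n₂ e P)
  | subfield (F₀ : Subfield F) (r : ℕ) (P : GL (OddIdx m) F) (hr : r.Prime)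
      (hc : Fintype.card F = Nat.card F₀ ^ r)
      (hQ : IsQuadFormRationalStructure (Cfsg.quadFormOdd m F) F₀ P)
      (hirr : ActsIrreducibly (matrixSet H)) (hle : H ≤ subfieldSubgroup F₀ P)
  | tensorPower (k t : ℕ) (e : OddIdx m ≃ (Fin t → Fin k)) (P : GL (OddIdx m) F)
      (f₁ : (Fin k → F) → (Fin k → F) → F) (hk : 3 ≤ k) (hko : Odd k) (ht : 2 ≤ t)
      (hex : ¬ (Fintype.card F = 3 ∧ k = 3)) (hf₁ : IsSymmetricForm f₁)
      (hform : IsTensorPowerFormStructure id (QuadraticMap.polar (Cfsg.quadFormOdd m F)) f₁ e P)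
      (hirr : ActsIrreducibly (matrixSet H)) (hle : H ≤ tensorWreathSubgroup k t e P)
  | residual (hres : InOrthogonalResidualClass H) (hirr : ActsIrreducibly (matrixSet H))

variable {m : ℕ} {H : Subgroup (GL (OddIdx m) F)}

/-- An irreducible group permuting the members of a decomposition is transitive on them. -/
lemma decomposition_transitive {ι : Type} [Fintype ι] [DecidableEq ι] {t k : ℕ}
    {V : Fin t → Submodule F (ι → F)} (hV : IsMDecomposition k V) {H : Subgroup (GL ι F)}
    (hirr : ActsIrreducibly (matrixSet H)) (hle : H ≤ decompositionStabilizer V) (i j : Fin t) :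
    ∃ h ∈ H, (V i).map (Matrix.toLin' (h : Matrix ι ι F)) = V j := by
  classical
  by_contra hno
  push Not at hno
  let S : Set (Fin t) := {l | ∃ h ∈ H, (V i).map (Matrix.toLin' (h : Matrix ι ι F)) = V l}
  let W := ⨆ l ∈ S, V l
  have hinv : IsInv (matrixSet H) W := by
    rintro _ ⟨g, hg, rfl⟩ v hv
    have h1 : W.map (Matrix.toLin' (g : Matrix ι ι F)) ≤ W := by
      rw [Submodule.map_iSup]
      refine iSup_le fun l => ?_
      rw [Submodule.map_iSup]
      refine iSup_le fun hl => ?_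
      obtain ⟨h, hh, hl⟩ := hl
      obtain ⟨σ, hσ⟩ := hle hg
      have hmem : σ l ∈ S := ⟨g * h, H.mul_mem hg hh, by
        rw [Units.val_mul, Matrix.toLin'_mul, Submodule.map_comp, hl, hσ]⟩
      rw [hσ]
      exact le_biSup V hmem
    exact h1 ⟨v, hv, rfl⟩
  have hne : ∀ l, V l ≠ ⊥ := fun l e => by
    have := hV.finrank_eq l
    rw [e, finrank_bot] at this
    exact hV.pos.ne this
  rcases actsIrreducibly_iff.1 hirr W hinv with h0 | h0
  · have hi : i ∈ S := ⟨1, H.one_mem, by simp⟩
    exact hne i (le_bot_iff.1 (h0 ▸ le_biSup V hi))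
  · have h2 : W ≤ ⨆ l ≠ j, V l := iSup₂_le fun l hl => le_biSup (fun l => V l)
      (show l ∈ {x | x ≠ j} from fun e => by obtain ⟨h, hh, hl⟩ := hl; exact hno h hh (e ▸ hl))
    have h3 := (hV.indep j).mono_right h2
    rw [h0, disjoint_top] at h3
    exact hne j h3

/-- The members of a decomposition permuted transitively by isometries are isometric. -/
lemma orthogonalMDecomposition_of {t k : ℕ} {V : Fin t → Submodule F (OddIdx m → F)}
    (hV : IsNondegenerateMDecomposition (QuadraticMap.polar (Cfsg.quadFormOdd m F)) k V)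
    (hH : H ≤ Cfsg.isometryGroup F (Cfsg.quadFormOdd m F)) (hirr : ActsIrreducibly (matrixSet H))
    (hle : H ≤ decompositionStabilizer V) : IsOrthogonalMDecomposition (Cfsg.quadFormOdd m F) k V := by
  refine ⟨hV, fun i j => ?_⟩
  obtain ⟨h, hh, hij⟩ := decomposition_transitive hV.decomp hirr hle i j
  refine ⟨((V i).equivMapOfInjective _
    (Matrix.mulVec_injective_of_isUnit (Units.isUnit h))).trans (LinearEquiv.ofEq _ _ hij), fun w => ?_⟩
  exact H5.mem_isometryGroup.1 (hH hh) w

/-- Lines through the vectors of an orthogonal frame permuted up to scalars. -/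
theorem frame_case (h2 : (2 : F) ≠ 0) (hm : 0 < m) (P : GL (OddIdx m) F) {c : F}
    (hc : c ≠ 0) (hgram : (orthData m h2).gramAt P = c • 1)
    (hcol : ∀ h ∈ H, ∀ x, ∃ y a, ((P⁻¹ * h * P : GL (OddIdx m) F) : Matrix (OddIdx m) (OddIdx m) F) *ᵥ Pi.single x 1 =
      Pi.single y a) :
    ∃ V : Fin (2 * m + 1) → Submodule F (OddIdx m → F),
      IsOrthogonalMDecomposition (Cfsg.quadFormOdd m F) 1 V ∧ H ≤ decompositionStabilizer V := by
  classical
  let ε : Fin (2 * m + 1) ≃ OddIdx m := Fintype.equivOfCardEq (by simp; omega)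
  let v : Fin (2 * m + 1) → (OddIdx m → F) := fun i => (P : Matrix (OddIdx m) (OddIdx m) F) *ᵥ Pi.single (ε i) 1
  have hpol : ∀ i j, QuadraticMap.polar (Cfsg.quadFormOdd m F) (v i) (v j) = if i = j then c else 0 := by
    intro i j
    rw [← orthData_form h2, FormData.form_gramAt, hgram]
    show (Pi.single (ε i) 1 : OddIdx m → F) ⬝ᵥ ((c • (1 : Matrix _ _ F)) *ᵥ (RingHom.id F ∘ Pi.single (ε j) 1)) = _
    rw [RingHom.coe_id, Function.id_comp, Matrix.smul_mulVec, Matrix.one_mulVec, dotProduct_smul,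
      single_one_dotProduct, Pi.single_apply, smul_eq_mul]
    simp
  have hQv : ∀ i, Cfsg.quadFormOdd m F (v i) = (2 : F)⁻¹ * c := fun i => by
    rw [quadFormOdd_eq h2, ← polar_quadFormOdd, hpol, if_pos rfl]
  have hv0 : ∀ i, v i ≠ 0 := fun i e => by
    have := hpol i i
    rw [if_pos rfl, e, polar_quadFormOdd, gramForm, zero_dotProduct] at this
    exact hc this.symm
  have hli : LinearIndependent F v := by
    have h1 : LinearIndependent F fun i => (Pi.single (ε i) (1 : F) : OddIdx m → F) := by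
      have := (Pi.basisFun F (OddIdx m)).linearIndependent.comp ε ε.injective
      rw [show (fun i => (Pi.single (ε i) (1 : F) : OddIdx m → F)) = (Pi.basisFun F (OddIdx m)) ∘ ε from
        funext fun i => (Pi.basisFun_apply F (OddIdx m) (ε i)).symm]
      exact this
    exact h1.map' (Matrix.toLin' (P : Matrix (OddIdx m) (OddIdx m) F))
      (LinearMap.ker_eq_bot.2 (Matrix.mulVec_injective_of_isUnit (Units.isUnit P)))
  let V : Fin (2 * m + 1) → Submodule F (OddIdx m → F) := fun i => F ∙ v i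
  have hdec : IsMDecomposition 1 V := by
    refine ⟨by omega, one_pos, fun i => finrank_span_singleton (hv0 i), hli.iSupIndep_span_singleton, ?_⟩
    show ⨆ i, F ∙ v i = ⊤
    rw [← Submodule.span_range_eq_iSup]
    exact hli.span_eq_top_of_card_eq_finrank' (by simp; omega)
  refine ⟨V, ⟨⟨hdec, fun i => ?_, fun i j hij => ?_⟩, fun i j => ?_⟩, fun h hh => ?_⟩
  · intro w hw hw0
    obtain ⟨a, rfl⟩ := Submodule.mem_span_singleton.1 hw
    have ha : a ≠ 0 := fun e => hw0 (by rw [e, zero_smul])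
    have hne : QuadraticMap.polar (Cfsg.quadFormOdd m F) (a • v i) (v i) ≠ 0 := by
      rw [← orthData_form h2, FormData.form_smul_left, orthData_form, hpol, if_pos rfl]
      exact mul_ne_zero ha hc
    exact ⟨⟨v i, Submodule.mem_span_singleton_self _, by rw [QuadraticMap.polar_comm]; exact hne⟩,
      v i, Submodule.mem_span_singleton_self _, hne⟩
  · intro u hu w hw
    obtain ⟨a, rfl⟩ := Submodule.mem_span_singleton.1 hu
    obtain ⟨b, rfl⟩ := Submodule.mem_span_singleton.1 hw
    rw [← orthData_form h2, FormData.form_smul_left, FormData.form_smul_right, orthData_form, hpol,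
      if_neg hij, mul_zero, mul_zero]
  · refine ⟨(LinearEquiv.toSpanNonzeroSingleton F _ _ (hv0 i)).symm.trans
      (LinearEquiv.toSpanNonzeroSingleton F _ _ (hv0 j)), fun w => ?_⟩
    obtain ⟨a, ha⟩ := (LinearEquiv.toSpanNonzeroSingleton F _ _ (hv0 i)).surjective w
    subst ha
    rw [LinearEquiv.trans_apply, LinearEquiv.symm_apply_apply]
    show Cfsg.quadFormOdd m F (a • v j) = Cfsg.quadFormOdd m F (a • v i)
    rw [← H5.coe_qOdd, QuadraticMap.map_smul, QuadraticMap.map_smul, H5.coe_qOdd, hQv, hQv]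
  · have hmap : ∀ i, ∃ j, (V i).map (Matrix.toLin' (h : Matrix (OddIdx m) (OddIdx m) F)) = V j := by
      intro i
      obtain ⟨y, a, hy⟩ := hcol h hh (ε i)
      have e1 : (h : Matrix (OddIdx m) (OddIdx m) F) *ᵥ v i = a • v (ε.symm y) := by
        have e2 := congrArg (fun w => (P : Matrix (OddIdx m) (OddIdx m) F) *ᵥ w) hy
        simp only [Matrix.mulVec_mulVec, ← Units.val_mul] at e2
        rw [show P * (P⁻¹ * h * P) = h * P by simp [mul_assoc]] at e2
        simp only [v, Matrix.mulVec_mulVec, ← Units.val_mul, e2, Equiv.apply_symm_apply, ← Matrix.mulVec_smul]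
        congr 1
        rw [← Pi.single_smul, smul_eq_mul, mul_one]
      have ha : a ≠ 0 := fun e => hv0 i (Matrix.mulVec_injective_of_isUnit (Units.isUnit h)
        (by rw [e1, e, zero_smul, Matrix.mulVec_zero]))
      refine ⟨ε.symm y, ?_⟩
      show (F ∙ v i).map _ = F ∙ v (ε.symm y)
      rw [Submodule.map_span, Set.image_singleton, Matrix.toLin'_apply, e1,
        Submodule.span_singleton_smul_eq (IsUnit.mk0 a ha)]
    choose σ hσ using hmap
    have hinj : Function.Injective σ := by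
      intro i j e
      have e1 : V i = V j := Submodule.map_injective_of_injective
        (Matrix.mulVec_injective_of_isUnit (Units.isUnit h)) (by
          show (V i).map (Matrix.toLin' (h : Matrix (OddIdx m) (OddIdx m) F)) =
            (V j).map (Matrix.toLin' (h : Matrix (OddIdx m) (OddIdx m) F))
          rw [hσ, hσ, e])
      by_contra hne
      have := hdec.indep.pairwiseDisjoint hne
      rw [Function.onFun, e1, disjoint_self] at this
      exact hv0 j (Submodule.span_singleton_eq_bot.1 this)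
    exact ⟨Equiv.ofBijective σ (Finite.injective_iff_bijective.1 hinj), hσ⟩

/-- A decomposition into isometric orthogonal lines. -/
theorem lines_case (h2 : (2 : F) ≠ 0) (hH : H ≤ Cfsg.isometryGroup F (Cfsg.quadFormOdd m F))
    (hirr : ActsIrreducibly (matrixSet H)) {t : ℕ} {V : Fin t → Submodule F (OddIdx m → F)}
    (hV : IsOrthogonalMDecomposition (Cfsg.quadFormOdd m F) 1 V) (hle : H ≤ decompositionStabilizer V) :
    OddOrthCase m H := by
  classical
  have ht : t = 2 * m + 1 := by
    have := mDecomposition_card hV.decomp.decomp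
    simp at this
    omega
  subst ht
  by_cases hp : (Fintype.card F).Prime
  · exact .frame V hp hV hle
  obtain ⟨p, hc⟩ := CharP.exists F
  obtain ⟨e, hpp, he⟩ := FiniteField.card F p
  have : Fact p.Prime := ⟨hpp⟩
  have he1 : (e : ℕ) ≠ 1 := fun h => hp (by rw [he, h, pow_one]; exact hpp)
  obtain ⟨r, hr, ⟨d, hd⟩⟩ := Nat.exists_prime_and_dvd he1
  obtain ⟨F₁, hF₁⟩ := exists_subfield (F := F) (p := p) (d := d) he ⟨r, by rw [hd, mul_comm]⟩
  have hcard : Fintype.card F = Nat.card F₁ ^ r := by rw [he, hF₁, ← pow_mul, hd, mul_comm]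
  let ε : Fin (2 * m + 1) ≃ OddIdx m := Fintype.equivOfCardEq (by simp; omega)
  obtain ⟨v₀, hv₀, hv₀0⟩ := Submodule.exists_mem_ne_zero_of_ne_bot (show V 0 ≠ ⊥ from fun e => by
    have := hV.decomp.decomp.finrank_eq 0
    rw [e, finrank_bot] at this
    exact zero_ne_one this)
  choose g hg using fun i => hV.isometric 0 i
  let v : Fin (2 * m + 1) → (OddIdx m → F) := fun i => (g i ⟨v₀, hv₀⟩ : OddIdx m → F)
  have hvmem : ∀ i, v i ∈ V i := fun i => (g i ⟨v₀, hv₀⟩).2
  have hv0 : ∀ i, v i ≠ 0 := fun i e => hv₀0 (by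
    have : g i ⟨v₀, hv₀⟩ = 0 := Subtype.ext e
    exact congrArg Subtype.val ((LinearEquiv.map_eq_zero_iff _).1 this))
  have hspan : ∀ i, ∀ w ∈ V i, ∃ a : F, a • v i = w := by
    intro i w hw
    obtain ⟨a, ha⟩ := exists_smul_eq_of_finrank_eq_one (hV.decomp.decomp.finrank_eq i) (x := ⟨v i, hvmem i⟩)
      (fun e => hv0 i (congrArg Subtype.val e)) ⟨w, hw⟩
    exact ⟨a, congrArg Subtype.val ha⟩
  let lam := Cfsg.quadFormOdd m F v₀
  have hQv : ∀ i, Cfsg.quadFormOdd m F (v i) = lam := fun i => hg i ⟨v₀, hv₀⟩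
  have hli : LinearIndependent F v := hV.decomp.decomp.indep.linearIndependent V hvmem hv0
  let Pm : Matrix (OddIdx m) (OddIdx m) F := Matrix.of fun a b => v (ε.symm b) a
  have hPu : IsUnit Pm := by
    rw [← Matrix.linearIndependent_cols_iff_isUnit]
    exact hli.comp ε.symm ε.symm.injective
  let P : GL (OddIdx m) F := hPu.unit
  have hPc : ∀ b, (P : Matrix (OddIdx m) (OddIdx m) F) *ᵥ Pi.single b 1 = v (ε.symm b) := fun b => by
    rw [Matrix.mulVec_single_one]; rfl
  have hlam : lam ≠ 0 := by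
    intro e
    obtain ⟨⟨w, hw, hne⟩, -⟩ := hV.decomp.nondegenerate 0 v₀ hv₀ hv₀0
    apply hne
    obtain ⟨a, ha⟩ := exists_smul_eq_of_finrank_eq_one (hV.decomp.decomp.finrank_eq 0) (x := ⟨v₀, hv₀⟩)
      (fun e' => hv₀0 (congrArg Subtype.val e')) ⟨w, hw⟩
    rw [show w = a • v₀ from (congrArg Subtype.val ha).symm, ← H5.coe_qOdd, QuadraticMap.polar_smul_left,
      H5.polar_self', H5.coe_qOdd, show Cfsg.quadFormOdd m F v₀ = 0 from e, mul_zero, smul_zero]
  have hgram : (orthData m h2).gramAt P = (2 * lam) • 1 := by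
    ext a b
    have h1 := (orthData m h2).form_gramAt P (Pi.single a 1) (Pi.single b 1)
    rw [hPc, hPc, orthData_form] at h1
    have h3 : gramForm (orthData m h2).σ ((orthData m h2).gramAt P) (Pi.single a 1) (Pi.single b 1) =
        (orthData m h2).gramAt P a b := by
      rw [show (orthData m h2).σ = RingHom.id F from rfl, gramForm]
      simp
    rw [← h3, ← h1, Matrix.smul_apply, Matrix.one_apply]
    by_cases hab : a = b
    · subst hab
      rw [if_pos rfl, smul_eq_mul, mul_one, ← H5.coe_qOdd, H5.polar_self', H5.coe_qOdd, hQv]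
    · rw [if_neg hab, smul_zero]
      exact hV.decomp.orthogonal _ _ (fun e => hab (ε.symm.injective e)) _ (hvmem _) _ (hvmem _)
  obtain ⟨z, hz, hQ⟩ := exists_quad_rational h2 (F₁ := F₁) (P := P) (ζ := (2 * lam)⁻¹)
    (inv_ne_zero (mul_ne_zero h2 hlam)) (by
      rw [hgram, smul_smul, inv_mul_cancel₀ (mul_ne_zero h2 hlam), one_smul]
      intro a b
      rw [Matrix.one_apply]
      split_ifs
      · exact F₁.one_mem
      · exact F₁.zero_mem)
  refine .subfield F₁ r (P * z) hr hcard hQ hirr fun h hh => ?_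
  rw [subfieldSubgroup_scalar F₁ P hz]
  refine mem_subfieldSubgroup_of_entries F₁ P h (c := 1) one_ne_zero
    (M := ((P⁻¹ * h * P : GL (OddIdx m) F) : Matrix (OddIdx m) (OddIdx m) F)) (fun a b => ?_) (one_smul _ _).symm
  obtain ⟨σ, hσ⟩ := hle hh
  obtain ⟨x, hx⟩ := hspan (σ (ε.symm b)) ((h : Matrix (OddIdx m) (OddIdx m) F) *ᵥ v (ε.symm b))
    (by rw [← hσ]; exact ⟨_, hvmem _, rfl⟩)
  have hx2 : x = 1 ∨ x = -1 := by
    have h1 := H5.mem_isometryGroup.1 (hH hh) (v (ε.symm b))
    rw [← hx, ← H5.coe_qOdd, QuadraticMap.map_smul, H5.coe_qOdd, hQv, hQv, smul_eq_mul] at h1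
    exact mul_self_eq_one_iff.1 (mul_right_cancel₀ hlam (h1.trans (one_mul _).symm))
  have hcolb : ((P⁻¹ * h * P : GL (OddIdx m) F) : Matrix (OddIdx m) (OddIdx m) F) *ᵥ Pi.single b 1 =
      x • Pi.single (ε (σ (ε.symm b))) 1 := by
    refine Matrix.mulVec_injective_of_isUnit (Units.isUnit P) ?_
    show (P : Matrix (OddIdx m) (OddIdx m) F) *ᵥ _ = (P : Matrix (OddIdx m) (OddIdx m) F) *ᵥ _
    rw [Matrix.mulVec_mulVec, ← Units.val_mul, show P * (P⁻¹ * h * P) = h * P by simp [mul_assoc], Units.val_mul,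
      ← Matrix.mulVec_mulVec, hPc, Matrix.mulVec_smul, hPc, Equiv.symm_apply_apply]
    exact hx.symm
  have hab := congrFun hcolb a
  rw [Matrix.mulVec_single_one] at hab
  show ((P⁻¹ * h * P : GL (OddIdx m) F) : Matrix (OddIdx m) (OddIdx m) F) a b ∈ F₁
  rw [show ((P⁻¹ * h * P : GL (OddIdx m) F) : Matrix (OddIdx m) (OddIdx m) F) a b = _ from hab]
  simp only [Pi.smul_apply, smul_eq_mul, Pi.single_apply]
  rcases hx2 with rfl | rfl <;> split_ifs <;> simp [F₁.one_mem, F₁.zero_mem, F₁.neg_mem]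

/-- A group of isometries with an invariant subspace. -/
theorem oddOrth_reducible (h2 : (2 : F) ≠ 0) (hH : H ≤ Cfsg.isometryGroup F (Cfsg.quadFormOdd m F))
    (hirr : ¬ ActsIrreducibly (matrixSet H)) : OddOrthCase m H := by
  classical
  let D := orthData (F := F) m h2
  rw [actsIrreducibly_iff] at hirr
  push Not at hirr
  obtain ⟨W, hW, hW0, hW1⟩ := hirr
  have hWp : IsInv (matrixSet H) (D.perp W) := by
    rintro _ ⟨h, hh, rfl⟩ v hv w hw
    show D.form ((h : Matrix (OddIdx m) (OddIdx m) F) *ᵥ v) w = 0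
    rw [FormData.form_adj, FormData.mem_isom_iff_adj.1 (isometryGroup_le h2 (hH hh))]
    exact hv _ (hW _ (mem_matrixSet (inv_mem hh)) w hw)
  by_cases hd : Disjoint W (D.perp W)
  swap
  · refine .singular (W ⊓ D.perp W) (fun e => hd (disjoint_iff.2 e)) (fun w hw => ?_)
      (isInv_subgroup_of_le fun s hs v hv => ⟨hW s hs v hv.1, hWp s hs v hv.2⟩)
    rw [quadFormOdd_eq h2]
    show (2 : F)⁻¹ * D.form w w = 0
    rw [hw.2 w hw.1, mul_zero]
  have hc := D.isCompl_perp hd
  have hsum := Submodule.finrank_add_eq_of_isCompl hc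
  simp only [Module.finrank_fintype_fun_eq_card, Fintype.card_sum, Fintype.card_unit, Fintype.card_fin] at hsum
  rcases Nat.even_or_odd (Module.finrank F W) with he | ho
  · refine .nondeg W hW0 hW1 he ?_ (isInv_subgroup_of_le hW)
    rw [← orthData_form h2]
    exact D.isNondegenerateOn_of_disjoint hd
  · have hd' : Disjoint (D.perp W) (D.perp (D.perp W)) := by
      rw [Submodule.disjoint_def]
      intro v hv hv'
      by_contra hv0
      obtain ⟨-, ⟨x, hx⟩⟩ := D.nondegenerate v hv0
      obtain ⟨a', ha', b', hb', rfl⟩ :=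
        Submodule.mem_sup.1 (show x ∈ W ⊔ D.perp W by rw [hc.sup_eq_top]; trivial)
      exact hx (by rw [FormData.form_add_right, hv a' ha', hv' b' hb', add_zero])
    refine .nondeg (D.perp W) (fun e => hW1 (by simpa [e] using hc.sup_eq_top))
      (fun e => hW0 (by rw [e] at hd; exact disjoint_top.1 hd)) ?_ ?_ (isInv_subgroup_of_le hWp)
    · rw [Nat.even_iff]
      rw [Nat.odd_iff] at ho
      omega
    · rw [← orthData_form h2]
      exact D.isNondegenerateOn_of_disjoint hd'

/-- A self-adjoint field of degree equal to the dimension has no irreducible normalising group. -/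
lemma field_ne_card (h2 : (2 : F) ≠ 0) (hm : 0 < m) (hH : H ≤ Cfsg.isometryGroup F (Cfsg.quadFormOdd m F))
    (hirr : ActsIrreducibly (matrixSet H)) {r : ℕ} {L : Subalgebra F (Matrix (OddIdx m) (OddIdx m) F)}
    (hL : IsFieldSubalgebra r L) (hself : ∀ k ∈ L, (orthData m h2).adj k = k) (hLn : Normalises H L) :
    2 * m + 1 ≠ r := by
  classical
  intro hr
  let ι := OddIdx m
  have hcard : Fintype.card ι = 2 * m + 1 := by simp [ι]; omega
  have : Nontrivial L := ⟨⟨0, 1, fun e => zero_ne_one (congrArg Subtype.val e)⟩⟩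
  have hF : IsField L :=
    { exists_pair_ne := exists_pair_ne _
      mul_comm := fun a b => Subtype.ext (hL.comm a a.2 b b.2)
      mul_inv_cancel := fun {a} ha => by
        obtain ⟨y, hy, hxy⟩ := hL.inv a a.2 (fun e => ha (Subtype.ext e))
        exact ⟨⟨y, hy⟩, Subtype.ext hxy⟩ }
  let _ : Field L := hF.toField
  obtain ⟨v, hv⟩ : ∃ v : ι → F, v ≠ 0 := exists_ne 0
  let E : L →ₗ[F] (ι → F) :=
    { toFun := fun k => (k : Matrix ι ι F) *ᵥ v
      map_add' := fun a b => Matrix.add_mulVec _ _ _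
      map_smul' := fun c a => Matrix.smul_mulVec _ _ _ }
  have hEi : Function.Injective E := by
    rw [injective_iff_map_eq_zero]
    intro k hk
    by_contra hk0
    obtain ⟨y, hy, hxy⟩ := hL.inv (k : Matrix ι ι F) k.2 (fun e => hk0 (Subtype.ext e))
    apply hv
    rw [← Matrix.one_mulVec v, ← hxy, hL.comm _ k.2 _ hy, ← Matrix.mulVec_mulVec,
      show (k : Matrix ι ι F) *ᵥ v = 0 from hk, Matrix.mulVec_zero]
  have hEs : Function.Surjective E := (LinearMap.injective_iff_surjective_of_finrank_eq_finrank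
    (by rw [Module.finrank_fintype_fun_eq_card, hcard, hr]; exact hL.finrank_eq)).1 hEi
  have hcent : ∀ h ∈ H, (∀ k ∈ L, conjHom h k = k) → (h : Matrix ι ι F) = 1 ∨ (h : Matrix ι ι F) = -1 := by
    intro h hh hfix
    obtain ⟨a, ha⟩ := hEs ((h : Matrix ι ι F) *ᵥ v)
    have e : (h : Matrix ι ι F) = (a : Matrix ι ι F) := by
      refine Matrix.toLin'.injective (LinearMap.ext fun w => ?_)
      obtain ⟨l, rfl⟩ := hEs w
      rw [Matrix.toLin'_apply, Matrix.toLin'_apply]
      show (h : Matrix ι ι F) *ᵥ ((l : Matrix ι ι F) *ᵥ v) = (a : Matrix ι ι F) *ᵥ ((l : Matrix ι ι F) *ᵥ v)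
      have hl : (h : Matrix ι ι F) * (l : Matrix ι ι F) = (l : Matrix ι ι F) * (h : Matrix ι ι F) := by
        conv_rhs => rw [← hfix l l.2, conjHom_apply, mul_assoc, ← Units.val_mul, inv_mul_cancel, Units.val_one,
          mul_one]
      rw [Matrix.mulVec_mulVec, hl, ← Matrix.mulVec_mulVec,
        show (h : Matrix ι ι F) *ᵥ v = (a : Matrix ι ι F) *ᵥ v from ha.symm, Matrix.mulVec_mulVec,
        Matrix.mulVec_mulVec, hL.comm _ l.2 _ a.2]
    have h1 : (a : Matrix ι ι F) * (a : Matrix ι ι F) = 1 := by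
      have h3 := FormData.mem_isom_iff_adj.1 (isometryGroup_le h2 (hH hh))
      rw [e, hself _ a.2] at h3
      nth_rewrite 2 [← e]
      rw [h3]
      exact h.inv_mul
    rcases mul_self_eq_one_iff.1 (show a * a = 1 from Subtype.ext h1) with h3 | h3
    · exact Or.inl (e.trans (congrArg Subtype.val h3))
    · exact Or.inr (e.trans (congrArg Subtype.val h3))
  let ρ : ∀ h ∈ H, L ≃ₐ[F] L := fun h hh =>
    AlgEquiv.ofAlgHom
      (((conjHom h : Matrix ι ι F →ₐ[F] Matrix ι ι F).comp L.val).codRestrict L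
        fun k => hLn h hh _ k.2)
      (((conjHom h⁻¹ : Matrix ι ι F →ₐ[F] Matrix ι ι F).comp L.val).codRestrict L
        fun k => hLn h⁻¹ (inv_mem hh) _ k.2)
      (AlgHom.ext fun k => Subtype.ext (by
        show conjHom h (conjHom h⁻¹ (k : Matrix ι ι F)) = k
        simp [conjHom_apply, mul_assoc]))
      (AlgHom.ext fun k => Subtype.ext (by
        show conjHom h⁻¹ (conjHom h (k : Matrix ι ι F)) = k
        simp [conjHom_apply, mul_assoc]))
  have hρ : ∀ h (hh : h ∈ H) (k : L), ((ρ h hh k : L) : Matrix ι ι F) = conjHom h (k : Matrix ι ι F) :=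
    fun h hh k => rfl
  have : Finite L := inferInstance
  refine not_irreducible_of_commutative (orthData m h2) rfl (hcard.symm ▸ (by omega : 2 ≤ 2 * m + 1)) ⟨m, hcard⟩
    (hH.trans (isometryGroup_le h2)) (fun x hx y hy => ?_) hirr
  have hfix : ∀ k ∈ L, conjHom (x * y * (y * x)⁻¹) k = k := by
    intro k hk
    have hcomm : ρ x hx * ρ y hy = ρ y hy * ρ x hx := mul_comm' _ _
    have e1 : ∀ l ∈ L, conjHom x (conjHom y l) = conjHom y (conjHom x l) := fun l hl => by
      have := congrArg (fun f : L ≃ₐ[F] L => ((f ⟨l, hl⟩ : L) : Matrix ι ι F)) hcomm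
      simpa [AlgEquiv.mul_apply, hρ] using this
    have hk' : conjHom (y * x)⁻¹ k ∈ L := hLn _ (inv_mem (H.mul_mem hy hx)) k hk
    have e2 := e1 _ hk'
    simp only [conjHom_apply, mul_inv_rev, Units.val_mul, inv_inv, mul_assoc] at e2 ⊢
    rw [e2]
    simp [← mul_assoc]
  rcases hcent _ (H.mul_mem (H.mul_mem hx hy) (inv_mem (H.mul_mem hy hx))) hfix with h3 | h3
  · exact mul_inv_eq_one.1 (Units.ext h3)
  · exfalso
    have h4 := congrArg Matrix.det h3
    rw [Matrix.det_neg, Matrix.det_one, hcard, mul_one, (odd_two_mul_add_one m).neg_one_pow] at h4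
    simp only [Units.val_mul, Matrix.det_mul, mul_inv_rev] at h4
    apply h2
    have h5 : ∀ g : GL ι F, (g : Matrix ι ι F).det * ((g⁻¹ : GL ι F) : Matrix ι ι F).det = 1 := fun g => by
      rw [← Matrix.det_mul, ← Units.val_mul, mul_inv_cancel, Units.val_one, Matrix.det_one]
    have hX := h5 x
    have hY := h5 y
    linear_combination h4 - (y : Matrix ι ι F).det * ((y⁻¹ : GL ι F) : Matrix ι ι F).det * hX - hY

/-- Three coordinates with sum of squares one over the field of three elements. -/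
lemma exists_single_of_three (h3 : Fintype.card F = 3) (w : Fin 3 → F) (hw : w ⬝ᵥ w = 1) :
    ∃ i a, w = Pi.single i a := by
  have h30 : (3 : F) = 0 := by
    have := Nat.cast_card_eq_zero F
    rw [h3] at this
    exact_mod_cast this
  have hsq : ∀ x : F, x ≠ 0 → x * x = 1 := fun x hx => by
    have := FiniteField.pow_card_sub_one_eq_one x hx
    rw [h3] at this
    rwa [← sq]
  have h21 : (2 : F) ≠ 1 := fun e => one_ne_zero (show (1 : F) = 0 by linear_combination e)
  have hsum : w 0 * w 0 + w 1 * w 1 + w 2 * w 2 = 1 := by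
    rw [← hw, dotProduct, Fin.sum_univ_three]
  by_cases a0 : w 0 = 0 <;> by_cases a1 : w 1 = 0 <;> by_cases a2 : w 2 = 0
  · exfalso; simp [a0, a1, a2] at hsum
  · exact ⟨2, w 2, by funext k; fin_cases k <;> simp [a0, a1]⟩
  · exact ⟨1, w 1, by funext k; fin_cases k <;> simp [a0, a2]⟩
  · exfalso; rw [a0, hsq _ a1, hsq _ a2] at hsum; exact h21 (by linear_combination hsum)
  · exact ⟨0, w 0, by funext k; fin_cases k <;> simp [a1, a2]⟩
  · exfalso; rw [a1, hsq _ a0, hsq _ a2] at hsum; exact h21 (by linear_combination hsum)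
  · exfalso; rw [a2, hsq _ a0, hsq _ a1] at hsum; exact h21 (by linear_combination hsum)
  · exfalso
    rw [hsq _ a0, hsq _ a1, hsq _ a2] at hsum
    exact one_ne_zero (α := F) (by linear_combination h30 - hsum)

/-- An orthogonal similitude in three variables over three elements has monomial columns. -/
lemma monomial_of_three (h3 : Fintype.card F = 3) {a : Matrix (Fin 3) (Fin 3) F} {x : F} (hu : IsUnit a)
    (h : aᵀ * a = x • 1) (j : Fin 3) : ∃ i c, a *ᵥ Pi.single j 1 = Pi.single i c := by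
  have hsq : ∀ y : F, y ≠ 0 → y * y = 1 := fun y hy => by
    have := FiniteField.pow_card_sub_one_eq_one y hy
    rw [h3] at this
    rwa [← sq]
  have hd : a.det ≠ 0 := ((Matrix.isUnit_iff_isUnit_det a).1 hu).ne_zero
  have hx : x = 1 := by
    have h1 := congrArg Matrix.det h
    rw [Matrix.det_mul, Matrix.det_transpose, Matrix.det_smul, Matrix.det_one, mul_one, Fintype.card_fin,
      hsq _ hd] at h1
    have hx0 : x ≠ 0 := fun e => by rw [e] at h1; simp at h1
    have h4 := hsq x hx0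
    linear_combination -h1 - x * h4
  subst hx
  rw [one_smul] at h
  refine exists_single_of_three h3 _ ?_
  have := quad_mulVec (1 : Matrix (Fin 3) (Fin 3) F) a (Pi.single j 1)
  rw [mul_one, h, Matrix.one_mulVec, Matrix.one_mulVec, single_one_dotProduct, Pi.single_eq_same] at this
  exact this

/-- Perfect groups of isometries in three variables over three elements are trivial. -/
lemma no_perfect_three (h3 : Fintype.card F = 3) {Q : Subgroup (GL (Fin 3) F)}
    (hQ : ∀ x ∈ Q, (x : Matrix (Fin 3) (Fin 3) F)ᵀ * (x : Matrix (Fin 3) (Fin 3) F) = 1)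
    (hperf : ⁅Q, Q⁆ = Q) : Q = ⊥ := by
  classical
  have hmono : ∀ x : Q, ∀ j, ∃ i c, ((x : GL (Fin 3) F) : Matrix (Fin 3) (Fin 3) F) *ᵥ Pi.single j 1 =
      Pi.single i c := fun x j => monomial_of_three h3 (Units.isUnit _) (by rw [one_smul]; exact hQ x x.2) j
  choose f c hf using hmono
  have hc : ∀ x j, c x j ≠ 0 := fun x j e => by
    have h1 := hf x j
    rw [e, Pi.single_zero] at h1
    have := Matrix.mulVec_injective_of_isUnit (Units.isUnit (x : GL (Fin 3) F))
      (h1.trans (Matrix.mulVec_zero _).symm)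
    simp at this
  have hmul : ∀ x y j, f (x * y) j = f x (f y j) := by
    intro x y j
    by_contra hne
    have h1 : ((x * y : Q) : GL (Fin 3) F).1 *ᵥ Pi.single j 1 = c y j • (Pi.single (f x (f y j)) (c x (f y j))) := by
      rw [← hf, ← Matrix.mulVec_smul, ← Pi.single_smul, smul_eq_mul, mul_one, ← hf, Matrix.mulVec_mulVec]
      rfl
    have h4 := congrFun ((hf (x * y) j).symm.trans h1) (f (x * y) j)
    simp [hne] at h4
    exact hc _ _ h4
  have hinj : ∀ x, Function.Injective (f x) := fun x i j e => by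
    have h1 : f 1 i = f 1 j := by rw [← inv_mul_cancel x, hmul, hmul, e]
    have hone : ∀ k, f 1 k = k := fun k => by
      by_contra hne
      have h4 := congrFun (hf 1 k) (f 1 k)
      simp [hne] at h4
      exact hc _ _ h4.symm
    rwa [hone, hone] at h1
  let φ : Q →* Equiv.Perm (Fin 3) :=
    MonoidHom.mk' (fun x => Equiv.ofBijective (f x) (Finite.injective_iff_bijective.1 (hinj x)))
      fun x y => Equiv.ext fun j => hmul x y j
  have hsol : Group.IsSolvable (Equiv.Perm (Fin 3)) := by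
    refine H25.isSolvable_of_card_eq_mul_pow (a := 1) (b := 1) Nat.prime_two Nat.prime_three ?_
    rw [Nat.card_eq_fintype_card, Fintype.card_perm, Fintype.card_fin]
    rfl
  have hperf' : ⁅(⊤ : Subgroup ↥Q), (⊤ : Subgroup ↥Q)⁆ = (⊤ : Subgroup ↥Q) := by
    apply Subgroup.map_injective Q.subtype_injective
    rw [Subgroup.map_commutator, ← MonoidHom.range_eq_map, Subgroup.range_subtype, hperf]
  have hker : φ.range = ⊥ := by
    by_contra hne
    refine (Group.IsSolvable.commutator_lt_of_ne_bot hne).ne ?_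
    rw [MonoidHom.range_eq_map, ← Subgroup.map_commutator, hperf']
  have hdiag : ∀ x : Q, ∀ j, f x j = j := fun x j => by
    have : φ x ∈ φ.range := ⟨x, rfl⟩
    rw [hker, Subgroup.mem_bot] at this
    exact DFunLike.congr_fun this j
  have hab : ∀ x y : Q, x * y = y * x := by
    intro x y
    refine Subtype.ext (Units.ext (Matrix.ext_of_mulVec_single fun j => ?_))
    show (((x : GL (Fin 3) F) : Matrix (Fin 3) (Fin 3) F) * ((y : GL (Fin 3) F) : Matrix (Fin 3) (Fin 3) F)) *ᵥ _ =
      (((y : GL (Fin 3) F) : Matrix (Fin 3) (Fin 3) F) * ((x : GL (Fin 3) F) : Matrix (Fin 3) (Fin 3) F)) *ᵥ _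
    have e : ∀ (z : Q) (b : F), ((z : GL (Fin 3) F) : Matrix (Fin 3) (Fin 3) F) *ᵥ Pi.single j b =
        Pi.single j (b * c z j) := fun z b => by
      rw [show (Pi.single j b : Fin 3 → F) = b • Pi.single j 1 by rw [← Pi.single_smul, smul_eq_mul, mul_one],
        Matrix.mulVec_smul, hf, hdiag, ← Pi.single_smul, smul_eq_mul]
    rw [← Matrix.mulVec_mulVec, ← Matrix.mulVec_mulVec, e, e, e, e, mul_right_comm]
  refine eq_bot_iff.2 fun x hx => ?_
  rw [← hperf] at hx
  refine Subgroup.commutator_le.2 (fun a ha b hb => ?_) hx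
  rw [Subgroup.mem_bot, commutatorElement_eq_one_iff_mul_comm]
  exact congrArg Subtype.val (hab ⟨a, ha⟩ ⟨b, hb⟩)

/-- A tensor decomposition. -/
theorem oddOrth_tensor (h2 : (2 : F) ≠ 0) (hm : 0 < m) (hH : H ≤ Cfsg.isometryGroup F (Cfsg.quadFormOdd m F))
    (hirr : ActsIrreducibly (matrixSet H)) (h : InFormTensor (orthData m h2) H) : OddOrthCase m H := by
  classical
  let D := orthData (F := F) m h2
  obtain ⟨s, t, e, P, G₁, G₂, a₁, a₂, hs, ht, hgram, hG₁, hG₂, haa, hle⟩ := h
  replace hG₁ : (G₁ : Matrix (Fin s) (Fin s) F)ᵀ = a₁ • (G₁ : Matrix (Fin s) (Fin s) F) := hG₁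
  replace hG₂ : (G₂ : Matrix (Fin t) (Fin t) F)ᵀ = a₂ • (G₂ : Matrix (Fin t) (Fin t) F) := hG₂
  replace haa : a₁ * a₂ = 1 := haa
  have hn : s * t = 2 * m + 1 := by
    have := Fintype.card_congr e
    simp at this
    omega
  obtain ⟨hos, hot⟩ : Odd s ∧ Odd t := by
    rw [← Nat.odd_mul, hn]; exact odd_two_mul_add_one m
  have hsymm : ∀ {k : ℕ} (G : GL (Fin k) F) (a : F), Odd k →
      (G : Matrix (Fin k) (Fin k) F)ᵀ = a • (G : Matrix (Fin k) (Fin k) F) → a = 1 := by
    intro k G a hk hG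
    have : Nonempty (Fin k) := ⟨⟨0, hk.pos⟩⟩
    rcases mul_self_eq_one_iff.1 (sign_sq (Units.ne_zero G) hG) with h | h
    · exact h
    · exfalso
      rw [h, neg_one_smul] at hG
      have := symplectic_even (gramForm_symplectic h2 (Units.isUnit G) hG)
      rw [Fintype.card_fin] at this
      exact Nat.not_even_iff_odd.2 hk this
  obtain rfl := hsymm G₁ a₁ hos hG₁
  obtain rfl := hsymm G₂ a₂ hot hG₂
  rw [one_smul] at hG₁ hG₂
  have h3s : 3 ≤ s := by obtain ⟨j, rfl⟩ := hos; omega
  have h3t : 3 ≤ t := by obtain ⟨j, rfl⟩ := hot; omega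
  have hT : ∀ {a b : ℕ} (e : OddIdx m ≃ Fin a × Fin b) (A : GL (Fin a) F) (B : GL (Fin b) F),
      D.gramAt P = tens e (A : Matrix (Fin a) (Fin a) F) (B : Matrix (Fin b) (Fin b) F) →
      IsTensorFormStructure id (QuadraticMap.polar (Cfsg.quadFormOdd m F))
        (gramForm (RingHom.id F) (A : Matrix (Fin a) (Fin a) F))
        (gramForm (RingHom.id F) (B : Matrix (Fin b) (Fin b) F)) e P := by
    intro a b e A B hAB
    rw [← orthData_form h2]
    exact isTensorFormStructure_of D (σ' := id) (fun a => rfl) e P one_ne_zero (by rw [one_smul]; exact hAB)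
  rcases lt_trichotomy s t with hst | rfl | hst
  · exact .tensor s t e P _ _ h3s hst hos hot (gramForm_symmetric (Units.isUnit G₁) hG₁)
      (gramForm_symmetric (Units.isUnit G₂) hG₂) (hT e G₁ G₂ hgram) hirr hle
  swap
  · refine .tensor t s (e.trans (Equiv.prodComm (Fin s) (Fin t))) P _ _ h3t hst hot hos
      (gramForm_symmetric (Units.isUnit G₂) hG₂) (gramForm_symmetric (Units.isUnit G₁) hG₁)
      (hT _ G₂ G₁ ?_) hirr (hle.trans (tensorProductSubgroup_swap e P))
    rw [hgram]; ext u v; rw [tens_apply, tens_apply, mul_comm]; rfl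
  obtain ⟨S₁, c₁, hc₁, hS₁⟩ := exists_congr_symm h2 hos (Units.isUnit G₁) hG₁ isUnit_one Matrix.transpose_one
  obtain ⟨S₂, c₂, hc₂, hS₂⟩ := exists_congr_symm h2 hos (Units.isUnit G₂) hG₂ isUnit_one Matrix.transpose_one
  let P' := P * tensUnit e S₁ S₂
  have hle' : H ≤ tensorProductSubgroup s s e P' := hle.trans (tensorProductSubgroup_base e P S₁ S₂)
  have hgram1 : D.gramAt P' = (c₁ * c₂) • (1 : Matrix (OddIdx m) (OddIdx m) F) := by
    rw [FormData.gramAt_mul, hgram]
    show (tens e (S₁ : Matrix _ _ F) (S₂ : Matrix _ _ F))ᵀ * _ * (tens e (S₁ : Matrix _ _ F) (S₂ : Matrix _ _ F)) = _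
    rw [tens_transpose, tens_mul, tens_mul, hS₁, hS₂, tens_smul_left, tens_smul_right, tens_one, smul_smul]
  by_cases hsmall : Fintype.card F = 3 ∧ s = 3
  swap
  · have hform := isTensorPowerFormStructure_of D (σ' := id) (fun a => rfl)
      (e.trans (finTwoArrowEquiv (Fin s)).symm) P' (G := (1 : Matrix (Fin s) (Fin s) F))
      (mul_ne_zero hc₁ hc₂) (by
        rw [hgram1]
        congr 1
        exact (show (1 : Matrix (OddIdx m) (OddIdx m) F) = Matrix.reindexAlgEquiv F F _ (tpow 1) by rw [tpow_one, map_one]))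
    rw [orthData_form] at hform
    exact .tensorPower s 2 _ P' _ h3s hos le_rfl hsmall (gramForm_symmetric isUnit_one Matrix.transpose_one)
      hform hirr (hle'.trans (tensorProductSubgroup_le_wreath e P'))
  obtain ⟨h3, rfl⟩ := hsmall
  suffices hfr : ∀ h ∈ H, ∀ x, ∃ y a,
      ((P'⁻¹ * h * P' : GL (OddIdx m) F) : Matrix (OddIdx m) (OddIdx m) F) *ᵥ Pi.single x 1 = Pi.single y a by
    obtain ⟨V, hV, hVle⟩ := frame_case h2 hm P' (mul_ne_zero hc₁ hc₂) hgram1 hfr
    exact .frame V (by rw [h3]; exact Nat.prime_three) hV hVle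
  intro h hh x
  obtain ⟨a, b, hab⟩ := mem_tensorProductSubgroup_iff.1 (hle' hh)
  have e3 : ((P'⁻¹ * h * P' : GL (OddIdx m) F) : Matrix (OddIdx m) (OddIdx m) F) =
      tens e (a : Matrix (Fin 3) (Fin 3) F) (b : Matrix (Fin 3) (Fin 3) F) := by
    rw [Units.val_mul, Units.val_mul, hab]
    simp only [← mul_assoc]
    rw [← Units.val_mul, inv_mul_cancel, Units.val_one, one_mul, mul_assoc, ← Units.val_mul, inv_mul_cancel,
      Units.val_one, mul_one]
  have h1 : (tens e (a : Matrix (Fin 3) (Fin 3) F) (b : Matrix (Fin 3) (Fin 3) F))ᵀ *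
      (tens e (a : Matrix (Fin 3) (Fin 3) F) (b : Matrix (Fin 3) (Fin 3) F)) = tens e 1 1 := by
    have h4 := FormData.gramAt_mul D P' (P'⁻¹ * h * P')
    rw [show P' * (P'⁻¹ * h * P') = h * P' by simp [mul_assoc], e3] at h4
    have h5 : D.gramAt (h * P') = D.gramAt P' := by
      refine eq_of_gramForm_eq D.σ fun u v => ?_
      rw [← FormData.form_gramAt, ← FormData.form_gramAt, Units.val_mul, ← Matrix.mulVec_mulVec,
        ← Matrix.mulVec_mulVec]
      exact isometryGroup_le h2 (hH hh) _ _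
    rw [h5, hgram1, mul_smul_comm, mul_one, smul_mul_assoc] at h4
    rw [tens_one]
    exact (smul_right_injective _ (mul_ne_zero hc₁ hc₂) h4).symm
  rw [tens_transpose, tens_mul] at h1
  obtain ⟨y, hy, hay, hby⟩ := tens_eq_tens e one_ne_zero one_ne_zero h1
  obtain ⟨i₁, d₁, h₁⟩ := monomial_of_three h3 (Units.isUnit a) hay (e x).1
  obtain ⟨i₂, d₂, h₂⟩ := monomial_of_three h3 (Units.isUnit b) hby (e x).2
  refine ⟨e.symm (i₁, i₂), d₁ * d₂, ?_⟩
  rw [e3]
  funext u
  rw [Matrix.mulVec_single_one]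
  show tens e (a : Matrix (Fin 3) (Fin 3) F) (b : Matrix (Fin 3) (Fin 3) F) u x = _
  rw [Matrix.mulVec_single_one] at h₁ h₂
  rw [tens_apply, show (a : Matrix (Fin 3) (Fin 3) F) (e u).1 (e x).1 = _ from congrFun h₁ (e u).1,
    show (b : Matrix (Fin 3) (Fin 3) F) (e u).2 (e x).2 = _ from congrFun h₂ (e u).2]
  obtain ⟨⟨p, q⟩, rfl⟩ := e.symm.surjective u
  simp [Pi.single_apply, ite_and]
  split_ifs <;> rfl

/-- A tensor power. -/
theorem oddOrth_tensorPower (h2 : (2 : F) ≠ 0) (hirr : ActsIrreducibly (matrixSet H))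
    (h : InFormTensorPower (orthData m h2) H) : OddOrthCase m H := by
  classical
  let D := orthData (F := F) m h2
  obtain ⟨s, k, e, P, G, c, a, hs, hk, hc, hgram, hG, -, hle, -, Q, hQperf, hQ, hQfix⟩ := h
  replace hG : (G : Matrix (Fin s) (Fin s) F)ᵀ = a • (G : Matrix (Fin s) (Fin s) F) := hG
  have hos : Odd s := by
    have := Fintype.card_congr e
    simp only [Fintype.card_sum, Fintype.card_unit, Fintype.card_fin, Fintype.card_fun] at this
    exact Nat.Odd.of_mul_left (n := s ^ (k - 1)) (by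
      rw [← pow_succ', show k - 1 + 1 = k by omega, ← this, Nat.odd_iff]; omega)
  have : Nonempty (Fin s) := ⟨⟨0, by omega⟩⟩
  obtain rfl : a = 1 := by
    rcases mul_self_eq_one_iff.1 (sign_sq (Units.ne_zero G) hG) with h | h
    · exact h
    · exfalso
      rw [h, neg_one_smul] at hG
      have := symplectic_even (gramForm_symplectic h2 (Units.isUnit G) hG)
      rw [Fintype.card_fin] at this
      exact Nat.not_even_iff_odd.2 hos this
  rw [one_smul] at hG
  have hex : ¬ (Fintype.card F = 3 ∧ s = 3) := by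
    rintro ⟨h3, rfl⟩
    obtain ⟨S, d, hd, hS⟩ := exists_congr_symm h2 hos (Units.isUnit G) hG isUnit_one Matrix.transpose_one
    apply hQ
    refine (Subgroup.map_eq_bot_iff_of_injective Q
      (f := (MulAut.conj S⁻¹).toMonoidHom) (MulEquiv.injective (MulAut.conj S⁻¹))).1 (no_perfect_three h3 ?_ ?_)
    swap
    · rw [← Subgroup.map_commutator, hQperf]
    rintro _ ⟨x, hx, rfl⟩
    set y : Matrix (Fin 3) (Fin 3) F := ((MulAut.conj S⁻¹ x : GL (Fin 3) F) : Matrix (Fin 3) (Fin 3) F)
    have e1 : (S : Matrix (Fin 3) (Fin 3) F) * y = (x : Matrix (Fin 3) (Fin 3) F) * S := by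
      show (S : Matrix (Fin 3) (Fin 3) F) * ((MulAut.conj S⁻¹ x : GL (Fin 3) F) : Matrix _ _ F) = _
      rw [← Units.val_mul, ← Units.val_mul]
      simp [mul_assoc]
    refine smul_right_injective _ hd ?_
    show d • (yᵀ * y) = d • (1 : Matrix (Fin 3) (Fin 3) F)
    calc d • (yᵀ * y) = yᵀ * (d • 1) * y := by rw [mul_smul_comm, mul_one, smul_mul_assoc]
      _ = ((S : Matrix (Fin 3) (Fin 3) F) * y)ᵀ * (G : Matrix (Fin 3) (Fin 3) F) *
          ((S : Matrix (Fin 3) (Fin 3) F) * y) := by
        rw [← hS, Matrix.transpose_mul]; simp only [mul_assoc]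
      _ = (S : Matrix (Fin 3) (Fin 3) F)ᵀ * ((x : Matrix (Fin 3) (Fin 3) F)ᵀ * (G : Matrix (Fin 3) (Fin 3) F) *
          (x : Matrix (Fin 3) (Fin 3) F)) * (S : Matrix (Fin 3) (Fin 3) F) := by
        rw [e1, Matrix.transpose_mul]; simp only [mul_assoc]
      _ = d • 1 := by
        rw [show (x : Matrix (Fin 3) (Fin 3) F)ᵀ * (G : Matrix (Fin 3) (Fin 3) F) *
          (x : Matrix (Fin 3) (Fin 3) F) = (G : Matrix (Fin 3) (Fin 3) F) from hQfix x hx, hS]
  have hform := isTensorPowerFormStructure_of D (σ' := id) (fun a => rfl) e P hc hgram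
  rw [orthData_form] at hform
  have hs3 : 3 ≤ s := by obtain ⟨j, rfl⟩ := hos; omega
  exact .tensorPower s k e P _ hs3 hos hk hex (gramForm_symmetric (Units.isUnit G) hG) hform hirr hle

/-- Aschbacher's theorem for isometry groups of the standard odd form in odd characteristic. -/
theorem oddOrth_aschbacher (hq : Odd (Fintype.card F)) (hm : 1 ≤ m)
    (hH : H ≤ Cfsg.isometryGroup F (Cfsg.quadFormOdd m F)) : OddOrthCase m H := by
  classical
  have h2 := two_ne_zero_of_card_odd hq
  let D := orthData (F := F) m h2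
  have hcard : Fintype.card (OddIdx m) = 2 * m + 1 := by simp; omega
  by_cases hirr : ActsIrreducibly (matrixSet H)
  swap
  · exact oddOrth_reducible h2 hH hirr
  have hI := hH.trans (isometryGroup_le h2)
  rcases form_aschbacher D (by omega) hI with h | h | ⟨-, h⟩
  · exfalso
    obtain ⟨W, hW0, hW1, hle⟩ : ∃ W : Submodule F (OddIdx m → F), W ≠ ⊥ ∧ W ≠ ⊤ ∧ H ≤ subspaceStabilizer W := by
      rcases h with ⟨W, hW, hts, hle⟩ | ⟨W, hW, -, hdim, hle⟩
      · refine ⟨W, hW, fun e => ?_, hle⟩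
        obtain ⟨v, hv⟩ : ∃ v : OddIdx m → F, v ≠ 0 := exists_ne 0
        obtain ⟨-, u, hu⟩ := D.nondegenerate v hv
        exact hu (hts v (by rw [e]; trivial) u (by rw [e]; trivial))
      · refine ⟨W, hW, fun e => ?_, hle⟩
        rw [e, finrank_top, Module.finrank_fintype_fun_eq_card] at hdim
        omega
    rcases actsIrreducibly_iff.1 hirr W (by rintro _ ⟨g, hg, rfl⟩ v hv; exact (hle hg v).1 hv) with e | e
    · exact hW0 e
    · exact hW1 e
  · obtain ⟨t, k, V, hV, hle⟩ := h
    rw [orthData_form] at hV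
    have hV' := orthogonalMDecomposition_of hV hH hirr hle
    rcases eq_or_ne k 1 with rfl | hk
    · exact lines_case h2 hH hirr hV' hle
    · have := hV.decomp.pos
      exact .decomp t k V (by omega) ((mDecomposition_card hV.decomp).trans hcard) hV' hirr hle
  · rcases h with h | ⟨N, -, -, h⟩ | h | h | h | h | h
    · obtain ⟨k, V, hk, -⟩ := halves_decomposition D hirr h
      omega
    · obtain ⟨d, hd, hK, hKa, hKn⟩ := h
      obtain ⟨r, L, hr, -, hrn, hL, hLa, hLn⟩ := exists_prime_field_adj D hK hd hKa hKn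
      rw [hcard] at hrn
      have hodd : Odd r := (odd_two_mul_add_one m).of_dvd_nat hrn
      have hself := adj_eq_self_of_odd D rfl hodd hL hLa
      refine .field r L hr hrn (field_ne_card h2 hm hH hirr hL hself hLn) hL ?_ hirr (le_subalgebraNormalizer hLn)
      rw [← orthData_form h2]
      exact fun k hk u v => by rw [D.form_adj, hself k hk]
    · exact oddOrth_tensor h2 hm hH hirr h
    · obtain ⟨F₁, r, P, ζ, hr, hc, hζ, hent, hle⟩ := h
      obtain ⟨z, hz, hQ⟩ := exists_quad_rational h2 hζ hent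
      exact .subfield F₁ r (P * z) hr hc hQ hirr (by rw [subfieldSubgroup_scalar F₁ P hz]; exact hle)
    · exfalso
      obtain ⟨r, R, p, e, k, -, -, -, -, -, hn, hk, -, -, hcase⟩ := h
      rcases hcase with ⟨hσ, -⟩ | ⟨hσ, -⟩ | ⟨-, rfl, -⟩
      · exact hσ rfl
      · exact hσ rfl
      · rw [hcard, show k = k - 1 + 1 by omega, pow_succ] at hn
        omega
    · exact oddOrth_tensorPower h2 hirr h
    · obtain ⟨N, hcore, -, huniq⟩ := h
      refine .residual ⟨N, hcore, ?_⟩ hirr
      rintro ⟨σ, f, hf, hfix⟩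
      have hs : σ.toRingHom = RingHom.id F := by
        refine huniq σ.toRingHom (gramMatrix f)
          (fixesGram_of_fixesForm σ.toRingHom hf.add_left hf.smul_left ?_ ?_ hfix)
          (gram_ne_zero σ.toRingHom (eq_gramForm σ.toRingHom hf.add_left hf.smul_left ?_ ?_) hf.nondegenerate)
        all_goals first
          | exact fun v x y => by rw [hf.herm v (x + y), hf.add_left, map_add, ← hf.herm, ← hf.herm]
          | exact fun c v x => by rw [hf.herm v (c • x), hf.smul_left, map_mul, ← hf.herm]; rfl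
      exact hf.ne_refl (RingEquiv.ext fun x => RingHom.congr_fun hs x)

end Cfsg.Agent.H99.Asch
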