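import Cfsg.Agent.H99.Aschbacher.Symplectic
import Cfsg.Agent.H4.DiscClass
import Cfsg.Agent.H5.OmegaForms

/-!
The polar form of the standard quadratic form in odd dimension as form data, congruence of symmetric Gram matrices
in odd size, fields closed under adjoints in odd degree, abelian groups, rational structures.
-/

set_option autoImplicit false

open scoped MatrixGroups Matrix Kronecker

namespace Cfsg.Agent.H99.Asch

open Cfsg.Geo

/-- The index type of the odd-dimensional orthogonal group. -/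
abbrev OddIdx (m : ℕ) : Type := Unit ⊕ (Fin m ⊕ Fin m)

variable {F : Type*} [Field F] {m : ℕ}

/-- The Gram matrix of the polar form of the standard odd form. -/
def oddGram (m : ℕ) (F : Type*) [Field F] : Matrix (OddIdx m) (OddIdx m) F :=
  Matrix.of fun i j => QuadraticMap.polar (Cfsg.quadFormOdd m F) (Pi.single i 1) (Pi.single j 1)

lemma polar_quadFormOdd (x y : OddIdx m → F) :
    QuadraticMap.polar (Cfsg.quadFormOdd m F) x y = gramForm (RingHom.id F) (oddGram m F) x y := by
  rw [← H5.coe_qOdd]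
  have hbil : IsBilinearForm (QuadraticMap.polar (H5.qOdd m F)) :=
    ⟨fun a b c => QuadraticMap.polar_add_left (H5.qOdd m F) a b c,
     fun c a b => QuadraticMap.polar_smul_left (H5.qOdd m F) c a b,
     fun a b c => QuadraticMap.polar_add_right (H5.qOdd m F) a b c,
     fun c a b => QuadraticMap.polar_smul_right (H5.qOdd m F) c a b⟩
  have h := eq_gramForm (RingHom.id F) hbil.add_left hbil.smul_left hbil.add_right hbil.smul_right
  have e : gramMatrix (QuadraticMap.polar (H5.qOdd m F)) = oddGram m F := by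
    rw [oddGram, ← H5.coe_qOdd]
    rfl
  rw [h, e]

lemma polar_quadFormOdd_eq :
    QuadraticMap.polar (Cfsg.quadFormOdd m F) = gramForm (RingHom.id F) (oddGram m F) :=
  funext fun x => funext fun y => polar_quadFormOdd x y

lemma oddGram_transpose : (oddGram m F)ᵀ = oddGram m F := by
  ext i j
  exact QuadraticMap.polar_comm _ _ _

lemma quadFormOdd_eq (h2 : (2 : F) ≠ 0) (v : OddIdx m → F) :
    Cfsg.quadFormOdd m F v = (2 : F)⁻¹ * gramForm (RingHom.id F) (oddGram m F) v v := by
  rw [← polar_quadFormOdd, ← H5.coe_qOdd, H5.polar_self', ← mul_assoc, inv_mul_cancel₀ h2, one_mul]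

lemma isUnit_oddGram (h2 : (2 : F) ≠ 0) : IsUnit (oddGram m F) := by
  rw [← Matrix.mulVec_injective_iff_isUnit]
  intro v w h
  refine sub_eq_zero.1 (H5.qOdd_nondegenerate m h2 |>.1 _ fun y => ?_)
  show QuadraticMap.polar (H5.qOdd m F) (v - w) y = 0
  rw [H5.coe_qOdd, QuadraticMap.polar_comm, polar_quadFormOdd]
  show y ⬝ᵥ (oddGram m F *ᵥ (v - w)) = 0
  rw [Matrix.mulVec_sub, sub_eq_zero.2 h, dotProduct_zero]

/-- The polar form of the standard quadratic form in odd dimension as form data. -/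
noncomputable def orthData (m : ℕ) (h2 : (2 : F) ≠ 0) : FormData (OddIdx m) F where
  σ := RingHom.id F
  invol := fun _ => rfl
  U := (isUnit_oddGram h2).unit
  ε := 1
  eps_ne := one_ne_zero
  herm := by
    show ((oddGram m F).map (RingHom.id F))ᵀ = (1 : F) • oddGram m F
    rw [one_smul, RingHom.coe_id, Matrix.map_id, oddGram_transpose]

lemma orthData_form (h2 : (2 : F) ≠ 0) :
    (orthData m h2).form = QuadraticMap.polar (Cfsg.quadFormOdd m F) :=
  polar_quadFormOdd_eq.symm

lemma isometryGroup_le (h2 : (2 : F) ≠ 0) :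
    Cfsg.isometryGroup F (Cfsg.quadFormOdd m F) ≤ (orthData m h2).isom := by
  intro g hg u v
  rw [orthData_form]
  show QuadraticMap.polar _ ((g : Matrix (OddIdx m) (OddIdx m) F) *ᵥ u) ((g : Matrix (OddIdx m) (OddIdx m) F) *ᵥ v) = _
  have h := H5.mem_isometryGroup.1 hg
  simp only [QuadraticMap.polar, ← Matrix.mulVec_add, h]

/-- A finite field of odd degree closed under the adjoint of an isometric involution is fixed by it. -/
theorem adj_eq_self_of_odd {ι : Type} [Fintype ι] [DecidableEq ι] [Fintype F] [Nonempty ι] (D : FormData ι F)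
    (hσ : D.σ = RingHom.id F) {r : ℕ} (hr : Odd r) {L : Subalgebra F (Matrix ι ι F)} (hL : IsFieldSubalgebra r L)
    (hLa : ∀ k ∈ L, D.adj k ∈ L) : ∀ k ∈ L, D.adj k = k := by
  classical
  intro a haL
  by_contra ha
  have : Nontrivial L := ⟨⟨0, 1, fun e => zero_ne_one (congrArg Subtype.val e)⟩⟩
  have hF : IsField L :=
    { exists_pair_ne := exists_pair_ne _
      mul_comm := fun a b => Subtype.ext (hL.comm a a.2 b b.2)
      mul_inv_cancel := fun {a} ha => by
        obtain ⟨y, hy, hxy⟩ := hL.inv a a.2 (fun e => ha (Subtype.ext e))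
        exact ⟨⟨y, hy⟩, Subtype.ext hxy⟩ }
  let _ : Field L := hF.toField
  let _ : Fintype L := Fintype.ofFinite L
  let τ : L →+* L :=
    { toFun := fun x => ⟨D.adj x, hLa _ x.2⟩
      map_one' := Subtype.ext D.adj_one
      map_mul' := fun x y => Subtype.ext (by
        show D.adj ((x : Matrix ι ι F) * y) = D.adj x * D.adj y
        rw [hL.comm x x.2 y y.2, D.adj_mul])
      map_zero' := Subtype.ext D.adj_zero
      map_add' := fun x y => Subtype.ext (D.adj_add _ _) }
  have hne : τ ≠ RingHom.id L := fun e => ha (congrArg Subtype.val (RingHom.congr_fun e ⟨a, haL⟩))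
  obtain ⟨K', hK', hcard⟩ := card_eq_sq_fixed τ (fun x => Subtype.ext (D.adj_adj _)) hne
  let S : Submodule F L :=
    { carrier := {x | τ x = x}
      add_mem' := fun {x y} hx hy => by
        show τ (x + y) = x + y
        rw [map_add, hx, hy]
      zero_mem' := map_zero τ
      smul_mem' := fun c x hx => Subtype.ext (by
        show D.adj (c • (x : Matrix ι ι F)) = c • (x : Matrix ι ι F)
        rw [D.adj_smul, show D.adj x = x from congrArg Subtype.val hx, hσ]
        rfl) }
  have hKS : Nat.card K' = Nat.card S :=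
    Nat.card_congr
      { toFun := fun x => ⟨x.1, (hK' x.1).1 x.2⟩
        invFun := fun x => ⟨x.1, (hK' x.1).2 x.2⟩
        left_inv := fun _ => rfl
        right_inv := fun _ => rfl }
  rw [← Nat.card_eq_fintype_card, Module.natCard_eq_pow_finrank (K := F), hKS,
    Module.natCard_eq_pow_finrank (K := F) (V := S), hL.finrank_eq, ← pow_mul] at hcard
  have hj := Nat.pow_right_injective (Finite.one_lt_card (α := F)) hcard
  rw [hj, Nat.odd_iff] at hr
  omega

/-- An irreducible abelian group of isometries of a symmetric form does not exist in odd dimension above one. -/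
theorem not_irreducible_of_commutative {ι : Type} [Fintype ι] [DecidableEq ι] [Fintype F] (D : FormData ι F)
    (hσ : D.σ = RingHom.id F) (hn : 2 ≤ Fintype.card ι) (hodd : Odd (Fintype.card ι)) {H : Subgroup (GL ι F)}
    (hH : H ≤ D.isom) (hc : ∀ x ∈ H, ∀ y ∈ H, x * y = y * x) : ¬ ActsIrreducibly (matrixSet H) := by
  intro hirr
  classical
  have : Nonempty ι := Fintype.card_pos_iff.1 (by omega)
  have hcomm : ∀ a ∈ env H, ∀ g ∈ H, a * (g : Matrix ι ι F) = (g : Matrix ι ι F) * a := by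
    intro a ha
    induction ha using Algebra.adjoin_induction with
    | mem x hx =>
      obtain ⟨y, hy, rfl⟩ := hx
      intro g hg
      rw [← Units.val_mul, ← Units.val_mul, hc y hy g hg]
    | algebraMap c => exact fun g _ => Algebra.commutes c _
    | add x y _ _ hx hy => exact fun g hg => by rw [add_mul, mul_add, hx g hg, hy g hg]
    | mul x y _ _ hx hy => exact fun g hg => by rw [mul_assoc, hy g hg, ← mul_assoc, hx g hg, mul_assoc]
  have hunit : ∀ x ∈ env H, x ≠ 0 → IsUnit x := by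
    intro x hx hx0
    rw [← Matrix.mulVec_injective_iff_isUnit]
    have hker : IsInv (matrixSet H) (LinearMap.ker (Matrix.toLin' x)) := by
      rintro _ ⟨g, hg, rfl⟩ v hv
      rw [LinearMap.mem_ker, Matrix.toLin'_apply] at hv ⊢
      rw [Matrix.mulVec_mulVec, hcomm x hx g hg, ← Matrix.mulVec_mulVec, hv, Matrix.mulVec_zero]
    rcases actsIrreducibly_iff.1 hirr _ hker with h | h
    · intro v w e
      exact LinearMap.ker_eq_bot.1 h (by simpa using e)
    · exact absurd (Matrix.toLin'.injective (by rw [LinearMap.ker_eq_top.1 h, map_zero])) hx0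
  have hE := isFieldSubalgebra_of (env H) hunit
  have hdvd := fieldSubalgebra_dvd hE
  have hself := adj_eq_self_of_odd D hσ (hodd.of_dvd_nat hdvd) hE fun k hk => D.adj_mem_env hH hk
  refine not_le_scalars_of_irreducible hn hirr fun g hg => (mem_scalars_iff g).2 ?_
  have h1 : D.adj (g : Matrix ι ι F) = (g : Matrix ι ι F) := hself _ (coe_mem_env hg)
  rw [FormData.mem_isom_iff_adj.1 (hH hg)] at h1
  have h2 : (g : Matrix ι ι F) * (g : Matrix ι ι F) = 1 := by
    nth_rewrite 1 [← h1]
    exact g.inv_mul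
  have h3 : ((g : Matrix ι ι F) - 1) * ((g : Matrix ι ι F) + 1) = 0 := by
    rw [mul_add, sub_mul, mul_one, one_mul, h2]; abel
  by_cases hz : (g : Matrix ι ι F) - 1 = 0
  · exact ⟨1, by rw [Units.val_one, one_smul]; exact sub_eq_zero.1 hz⟩
  · refine ⟨-1, ?_⟩
    have hu := hunit _ ((env H).sub_mem (coe_mem_env hg) (env H).one_mem) hz
    have h4 : (g : Matrix ι ι F) + 1 = 0 := hu.mul_left_cancel (h3.trans (mul_zero _).symm)
    rw [Units.val_neg, Units.val_one, neg_one_smul]
    exact eq_neg_of_add_eq_zero_left h4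

/-- A symmetric invertible Gram matrix as a quadratic form. -/
lemma toQuadraticMap_spec [Fintype F] {s : ℕ} (h2 : (2 : F) ≠ 0) {G : Matrix (Fin s) (Fin s) F} (hu : IsUnit G) (hs : Gᵀ = G) :
    ∃ Q : QuadraticForm F (Fin s → F), (∀ v, Q v = v ⬝ᵥ (G *ᵥ v)) ∧
      (∀ u v, QuadraticMap.polar Q u v = 2 * (u ⬝ᵥ (G *ᵥ v))) ∧ (QuadraticMap.polarBilin Q).Nondegenerate := by
  refine ⟨(Matrix.toBilin' G).toQuadraticMap, fun v => Matrix.toBilin'_apply' G v v, ?_, ?_⟩
  · intro u v
    have e : ∀ w, (Matrix.toBilin' G).toQuadraticMap w = w ⬝ᵥ (G *ᵥ w) := fun w => Matrix.toBilin'_apply' G w w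
    have e1 : v ⬝ᵥ (G *ᵥ u) = u ⬝ᵥ (G *ᵥ v) := by rw [← transpose_dot G u v, hs]
    simp only [QuadraticMap.polar, e, Matrix.mulVec_add, dotProduct_add, add_dotProduct, e1]
    ring
  · have hp : ∀ u v, QuadraticMap.polar (Matrix.toBilin' G).toQuadraticMap u v = 2 * (u ⬝ᵥ (G *ᵥ v)) := by
      intro u v
      have e : ∀ w, (Matrix.toBilin' G).toQuadraticMap w = w ⬝ᵥ (G *ᵥ w) := fun w => Matrix.toBilin'_apply' G w w
      have e1 : v ⬝ᵥ (G *ᵥ u) = u ⬝ᵥ (G *ᵥ v) := by rw [← transpose_dot G u v, hs]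
      simp only [QuadraticMap.polar, e, Matrix.mulVec_add, dotProduct_add, add_dotProduct, e1]
      ring
    have key : ∀ u, (∀ v, QuadraticMap.polar (Matrix.toBilin' G).toQuadraticMap v u = 0) → u = 0 := by
      intro u hu0
      refine Matrix.mulVec_injective_of_isUnit hu ?_
      rw [Matrix.mulVec_zero]
      funext i
      have := hu0 (Pi.single i 1)
      rw [hp, single_one_dotProduct] at this
      exact (mul_eq_zero.1 this).resolve_left h2
    exact ⟨fun u hu0 => key u fun v => by rw [QuadraticMap.polar_comm]; exact hu0 v, fun u hu0 => key u hu0⟩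

/-- Two symmetric invertible Gram matrices of the same odd size are congruent up to a scalar. -/
theorem exists_congr_symm [Fintype F] {s : ℕ} (h2 : (2 : F) ≠ 0) (hs : Odd s) {G G' : Matrix (Fin s) (Fin s) F}
    (hu : IsUnit G) (hG : Gᵀ = G) (hu' : IsUnit G') (hG' : G'ᵀ = G') :
    ∃ (S : GL (Fin s) F) (c : F), c ≠ 0 ∧
      (S : Matrix (Fin s) (Fin s) F)ᵀ * G * (S : Matrix (Fin s) (Fin s) F) = c • G' := by
  classical
  obtain ⟨j, rfl⟩ := hs
  have hd : G.det ≠ 0 := ((Matrix.isUnit_iff_isUnit_det G).1 hu).ne_zero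
  have hd' : G'.det ≠ 0 := ((Matrix.isUnit_iff_isUnit_det G').1 hu').ne_zero
  set c := G.det / G'.det with hc
  have hc0 : c ≠ 0 := div_ne_zero hd hd'
  have hu'' : IsUnit (c • G') := by
    rw [Matrix.isUnit_iff_isUnit_det, Matrix.det_smul]
    exact isUnit_iff_ne_zero.2 (mul_ne_zero (pow_ne_zero _ hc0) hd')
  obtain ⟨Q, hQ, hQp, hQn⟩ := toQuadraticMap_spec h2 hu hG
  obtain ⟨Q', hQ', hQp', hQn'⟩ := toQuadraticMap_spec h2 hu'' (by rw [Matrix.transpose_smul, hG'])
  have hgr : ∀ (P : QuadraticForm F (Fin (2 * j + 1) → F)) (M : Matrix (Fin (2 * j + 1)) (Fin (2 * j + 1)) F),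
      (∀ u v, QuadraticMap.polar P u v = 2 * (u ⬝ᵥ (M *ᵥ v))) →
      H4.gram P (Pi.basisFun F (Fin (2 * j + 1))) = (2 : F) • M := by
    intro P M hP
    ext a b
    show QuadraticMap.polar P _ _ = _
    rw [hP, Pi.basisFun_apply, Pi.basisFun_apply, single_one_dotProduct, Matrix.smul_apply, smul_eq_mul]
    simp
  obtain ⟨g, hg⟩ := H4.isom_of_disc h2 hQn' hQn rfl (Pi.basisFun F (Fin (2 * j + 1))) (Pi.basisFun F (Fin (2 * j + 1))) (by
    rw [hgr _ _ hQp, hgr _ _ hQp', Matrix.det_smul, Matrix.det_smul, Matrix.det_smul]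
    refine ⟨2 ^ (2 * j + 1) * c ^ j * G.det, ?_⟩
    simp only [Fintype.card_fin]
    have e : c * G'.det = G.det := div_mul_cancel₀ _ hd'
    linear_combination (2 ^ (2 * j + 1) * 2 ^ (2 * j + 1) * c ^ (2 * j) * G.det) * e)
  let S : Matrix (Fin (2 * j + 1)) (Fin (2 * j + 1)) F := LinearMap.toMatrix' g.toLinearMap
  have hS : ∀ v, S *ᵥ v = g v := fun v => by
    show LinearMap.toMatrix' g.toLinearMap *ᵥ v = _
    rw [LinearMap.toMatrix'_mulVec]
    rfl
  have hSu : IsUnit S := by
    rw [← Matrix.mulVec_injective_iff_isUnit]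
    intro u v e
    exact g.injective (by rw [← hS, ← hS]; exact e)
  refine ⟨hSu.unit, c, hc0, eq_of_gramForm_eq (RingHom.id F) fun u v => ?_⟩
  show gramForm (RingHom.id F) (Sᵀ * G * S.map (RingHom.id F)) u v = _
  rw [← gramForm_mulVec]
  refine mul_left_cancel₀ h2 ?_
  show (2 : F) * ((S *ᵥ u) ⬝ᵥ (G *ᵥ (S *ᵥ v))) = 2 * (u ⬝ᵥ ((c • G') *ᵥ v))
  rw [← hQp, ← hQp', hS, hS]
  simp only [QuadraticMap.polar, ← map_add, hg]

/-- A Gram matrix rational up to a factor gives a rational structure of the quadratic form. -/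
theorem exists_quad_rational (h2 : (2 : F) ≠ 0) {F₁ : Subfield F} {P : GL (OddIdx m) F} {ζ : F} (hζ : ζ ≠ 0)
    (hent : EntriesIn F₁ (ζ • (orthData m h2).gramAt P)) :
    ∃ z : GL (OddIdx m) F, z ∈ scalars (OddIdx m) F ∧
      IsQuadFormRationalStructure (Cfsg.quadFormOdd m F) F₁ (P * z) := by
  classical
  let G := (orthData m h2).gramAt P
  let d := (ζ • G).det
  let δ := (oddGram m F).det
  have hdF : d ∈ F₁ := by
    show (ζ • G).det ∈ F₁
    rw [Matrix.det_apply]
    refine sum_mem fun σ _ => ?_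
    rw [Units.smul_def, zsmul_eq_mul]
    exact mul_mem (intCast_mem _ _) (prod_mem fun i _ => hent _ _)
  have hδF : δ ∈ F₁ := by
    show (oddGram m F).det ∈ F₁
    rw [Matrix.det_apply]
    refine sum_mem fun σ _ => ?_
    rw [Units.smul_def, zsmul_eq_mul]
    refine mul_mem (intCast_mem _ _) (prod_mem fun i _ => ?_)
    show QuadraticMap.polar _ _ _ ∈ F₁
    have hQ : ∀ v : OddIdx m → F, (∀ k, v k ∈ F₁) → Cfsg.quadFormOdd m F v ∈ F₁ := fun v hv =>
      add_mem (pow_mem (hv _) 2) (sum_mem fun k _ => mul_mem (hv _) (hv _))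
    have hsingle : ∀ a k : OddIdx m, (Pi.single a (1 : F) : OddIdx m → F) k ∈ F₁ := fun a k => by
      rw [Pi.single_apply]; split_ifs
      · exact one_mem _
      · exact zero_mem _
    exact sub_mem (sub_mem (hQ _ fun k => add_mem (hsingle _ k) (hsingle _ k)) (hQ _ (hsingle _))) (hQ _ (hsingle _))
  have hδ0 : δ ≠ 0 := ((Matrix.isUnit_iff_isUnit_det _).1 (isUnit_oddGram h2)).ne_zero
  have hP0 : (P : Matrix (OddIdx m) (OddIdx m) F).det ≠ 0 := Matrix.GeneralLinearGroup.det_ne_zero P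
  have hd : d = ζ ^ (2 * m + 1) * ((P : Matrix (OddIdx m) (OddIdx m) F).det ^ 2 * δ) := by
    show (ζ • G).det = _
    rw [Matrix.det_smul]
    congr 1
    · simp only [Fintype.card_sum, Fintype.card_unit, Fintype.card_fin]
      congr 1; omega
    · show ((P : Matrix (OddIdx m) (OddIdx m) F)ᵀ * oddGram m F * (P : Matrix (OddIdx m) (OddIdx m) F)).det = _
      rw [Matrix.det_mul, Matrix.det_mul, Matrix.det_transpose]
      ring
  have hd0 : d ≠ 0 := by
    rw [hd]
    exact mul_ne_zero (pow_ne_zero _ hζ) (mul_ne_zero (pow_ne_zero _ hP0) hδ0)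
  set c := (ζ ^ m * (P : Matrix (OddIdx m) (OddIdx m) F).det)⁻¹ with hc
  have hc0 : c ≠ 0 := inv_ne_zero (mul_ne_zero (pow_ne_zero _ hζ) hP0)
  have hcc : c * c = δ / d * ζ := by
    rw [hc, hd]
    field_simp
    ring
  let z : GL (OddIdx m) F := Units.map (Matrix.scalar (OddIdx m) : F →+* Matrix (OddIdx m) (OddIdx m) F).toMonoidHom
    (Units.mk0 c hc0)
  refine ⟨z, ⟨_, rfl⟩, fun u hu => ?_⟩
  have e : ((P * z : GL (OddIdx m) F) : Matrix (OddIdx m) (OddIdx m) F) *ᵥ u =
      c • ((P : Matrix (OddIdx m) (OddIdx m) F) *ᵥ u) := by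
    rw [Units.val_mul, show (z : Matrix (OddIdx m) (OddIdx m) F) = c • 1 from by simp [z, Matrix.smul_one_eq_diagonal],
      ← Matrix.mulVec_mulVec, Matrix.smul_mulVec, Matrix.one_mulVec,
      Matrix.mulVec_smul]
  rw [e, quadFormOdd_eq h2]
  show (2 : F)⁻¹ * (orthData m h2).form (c • ((P : Matrix (OddIdx m) (OddIdx m) F) *ᵥ u))
    (c • ((P : Matrix (OddIdx m) (OddIdx m) F) *ᵥ u)) ∈ F₁
  rw [FormData.form_smul_left, FormData.form_smul_right, FormData.form_gramAt]
  show (2 : F)⁻¹ * (c * (c * gramForm (RingHom.id F) G u u)) ∈ F₁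
  rw [← mul_assoc c c, hcc, mul_assoc (δ / d), ← gramForm_smul_gram]
  refine mul_mem (inv_mem (ofNat_mem _ 2)) (mul_mem (div_mem hδF hdF) ?_)
  show ∑ i, u i * ∑ j, (ζ • G) i j * u j ∈ F₁
  exact sum_mem fun i _ => mul_mem (hu i) (sum_mem fun j _ => mul_mem (hent i j) (hu j))

end Cfsg.Agent.H99.Asch
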