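import Cfsg.Agent.H99.Aschbacher.OmegaOdd
import Cfsg.Agent.H5.PlanePlus

/-!
Maximal subgroups of the commutator subgroup of the odd-dimensional orthogonal group: the tools for the lists.
-/

set_option autoImplicit false

open scoped MatrixGroups Matrix Kronecker

namespace Cfsg.Agent.H99.Asch

open Cfsg.Geo

variable {F : Type*} [Field F] [Fintype F] {m : ℕ} {H : Subgroup (GL (OddIdx m) F)}

/-- A maximal subgroup inside a subgroup not containing everything is the intersection. -/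
lemma eq_inf_of_maximalIn {G : Type*} [Group G] {K H S : Subgroup G} (hH : IsMaximalIn K H) (hS : ¬ K ≤ S)
    (hle : H ≤ S) : H = S ⊓ K := by
  rcases hH.2 (S ⊓ K) (le_inf hle hH.1.le) inf_le_right with h | h
  · exact h.symm
  · exact absurd (inf_eq_right.1 h) hS

/-- The stabiliser of a hyperbolic plane over three elements is not maximal. -/
lemma plane_three (h2 : (2 : F) ≠ 0) (hm : 2 ≤ m) (hH : IsMaximalIn (omOdd m F) H)
    {W : Submodule F (OddIdx m → F)}
    (hnd : IsNondegenerateOn (QuadraticMap.polar (Cfsg.quadFormOdd m F)) W)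
    (heq : H = subspaceStabilizer W ⊓ omOdd m F) :
    ¬ (Fintype.card F = 3 ∧ Module.finrank F W = 2 ∧ IsPlusTypeOn (Cfsg.quadFormOdd m F) W) := by
  rintro ⟨h3, hdim, hplus⟩
  obtain ⟨K, hK1, hK2⟩ := H5.not_maximal_stab_plane (H5.qOdd m F) (H5.coe_qOdd m)
    (H5.qOdd_nondegenerate m h2) (by simp; omega) (by omega) W hdim
    (H5.inf_perp_of_isNondegenerateOn (H5.qOdd m F) (H5.coe_qOdd m) hnd) hplus
  rw [← heq] at hK1
  rcases hH.2 K hK1.le hK2.le with h | h
  · exact hK1.ne h.symm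
  · exact hK2.ne h

/-- Blocks of dimension three over three elements are refined by a frame of lines. -/
theorem blocks_three (h2 : (2 : F) ≠ 0) (hm : 0 < m) (h3 : Fintype.card F = 3)
    (hH : H ≤ Cfsg.isometryGroup F (Cfsg.quadFormOdd m F)) {t : ℕ}
    {V : Fin t → Submodule F (OddIdx m → F)} (hV : IsOrthogonalMDecomposition (Cfsg.quadFormOdd m F) 3 V)
    (hle : H ≤ decompositionStabilizer V) :
    ∃ W : Fin (2 * m + 1) → Submodule F (OddIdx m → F),
      IsOrthogonalMDecomposition (Cfsg.quadFormOdd m F) 1 W ∧ H ≤ decompositionStabilizer W := by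
  classical
  let D := orthData (F := F) m h2
  have hDf : D.form = QuadraticMap.polar (Cfsg.quadFormOdd m F) := orthData_form h2
  have : NeZero t := ⟨by have := hV.decomp.decomp.two_le; omega⟩
  let b := Module.finBasisOfFinrankEq F (V 0) (hV.decomp.decomp.finrank_eq 0)
  let B : Matrix (OddIdx m) (Fin 3) F := Matrix.of fun a i => (b i : OddIdx m → F) a
  have hB : ∀ y, B *ᵥ y = ((∑ i, y i • b i : V 0) : OddIdx m → F) := by
    intro y
    funext a
    simp [B, Matrix.mulVec, dotProduct, mul_comm]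
  let M : Matrix (Fin 3) (Fin 3) F := Bᵀ * oddGram m F * B
  have hMs : Mᵀ = M := by
    show (Bᵀ * oddGram m F * B)ᵀ = _
    rw [Matrix.transpose_mul, Matrix.transpose_mul, Matrix.transpose_transpose, oddGram_transpose]
    exact (Matrix.mul_assoc _ _ _).symm
  have hpolM : ∀ y z, QuadraticMap.polar (Cfsg.quadFormOdd m F) (B *ᵥ y) (B *ᵥ z) = y ⬝ᵥ (M *ᵥ z) := by
    intro y z
    rw [polar_quadFormOdd]
    show (B *ᵥ y) ⬝ᵥ (oddGram m F *ᵥ (B *ᵥ z)) = _
    rw [← Matrix.mulVec_mulVec, ← Matrix.mulVec_mulVec, Matrix.dotProduct_mulVec y Bᵀ, Matrix.vecMul_transpose]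
  have hMu : IsUnit M := by
    rw [← Matrix.mulVec_injective_iff_isUnit]
    intro y z e
    have h0 : M *ᵥ (y - z) = 0 := by rw [Matrix.mulVec_sub, e, sub_self]
    by_contra hne
    have hv : B *ᵥ (y - z) ≠ 0 := by
      intro e0
      rw [hB] at e0
      have h5 := Fintype.linearIndependent_iff.1 b.linearIndependent (y - z) (Subtype.ext e0)
      exact hne (sub_eq_zero.1 (funext h5))
    obtain ⟨⟨x, hx, hxy⟩, -⟩ := hV.decomp.nondegenerate 0 _ (by rw [hB]; exact Subtype.mem _) hv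
    apply hxy
    obtain ⟨w, hw⟩ : ∃ w, B *ᵥ w = x := ⟨fun i => b.repr ⟨x, hx⟩ i, by
      rw [hB]; exact congrArg Subtype.val (b.sum_repr ⟨x, hx⟩)⟩
    rw [← hw, hpolM, h0, dotProduct_zero]
  obtain ⟨S, c, hc, hS⟩ := exists_congr_symm h2 (by decide) hMu hMs isUnit_one Matrix.transpose_one
  let u : Fin 3 → (OddIdx m → F) := fun j => B *ᵥ ((S : Matrix (Fin 3) (Fin 3) F) *ᵥ Pi.single j 1)
  have hu : ∀ j, u j ∈ V 0 := fun j => by
    show B *ᵥ _ ∈ V 0
    rw [hB]; exact Subtype.mem _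
  have hup : ∀ j l, QuadraticMap.polar (Cfsg.quadFormOdd m F) (u j) (u l) = if j = l then c else 0 := by
    intro j l
    show QuadraticMap.polar _ (B *ᵥ _) (B *ᵥ _) = _
    rw [hpolM, ← Matrix.vecMul_transpose, ← Matrix.dotProduct_mulVec, Matrix.mulVec_mulVec, Matrix.mulVec_mulVec,
      hS, Matrix.smul_mulVec, Matrix.one_mulVec, dotProduct_smul, single_one_dotProduct, Pi.single_apply,
      smul_eq_mul]
    simp
  choose g hg using fun i => hV.isometric 0 i
  let col : Fin t × Fin 3 → (OddIdx m → F) := fun p => (g p.1 ⟨u p.2, hu p.2⟩ : OddIdx m → F)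
  have hcolV : ∀ p, col p ∈ V p.1 := fun p => (g p.1 ⟨u p.2, hu p.2⟩).2
  have hcp : ∀ p p', QuadraticMap.polar (Cfsg.quadFormOdd m F) (col p) (col p') = if p = p' then c else 0 := by
    intro p p'
    by_cases h : p.1 = p'.1
    · obtain ⟨i, j⟩ := p
      obtain ⟨i', l⟩ := p'
      dsimp at h
      subst h
      have e : ∀ w : V 0, Cfsg.quadFormOdd m F (g i w : OddIdx m → F) = Cfsg.quadFormOdd m F (w : OddIdx m → F) :=
        hg i
      show QuadraticMap.polar _ (g i ⟨u j, hu j⟩ : OddIdx m → F) (g i ⟨u l, hu l⟩ : OddIdx m → F) = _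
      rw [QuadraticMap.polar, ← Submodule.coe_add, ← map_add, e, e, e]
      show QuadraticMap.polar (Cfsg.quadFormOdd m F) (u j) (u l) = _
      rw [hup]
      simp
    · rw [hV.decomp.orthogonal _ _ h _ (hcolV p) _ (hcolV p'), if_neg (fun e => h (congrArg Prod.fst e))]
  have htn : t * 3 = 2 * m + 1 := by
    have := mDecomposition_card hV.decomp.decomp
    simp at this
    omega
  let ε : OddIdx m ≃ Fin t × Fin 3 := Fintype.equivOfCardEq (by simp; omega)
  let Pm : Matrix (OddIdx m) (OddIdx m) F := Matrix.of fun a x => col (ε x) a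
  have hgram : Pmᵀ * oddGram m F * Pm = c • 1 := by
    ext x y
    have h4 := hcp (ε x) (ε y)
    rw [polar_quadFormOdd] at h4
    rw [Matrix.smul_apply, Matrix.one_apply, smul_eq_mul, mul_ite, mul_one, mul_zero]
    rw [show (Pmᵀ * oddGram m F * Pm) x y = gramForm (RingHom.id F) (oddGram m F) (col (ε x)) (col (ε y)) by
      rw [mul_assoc, Matrix.mul_apply]
      show _ = ∑ k, col (ε x) k * _
      refine Finset.sum_congr rfl fun k _ => ?_
      rfl, h4]
    simp
  have hPu : IsUnit Pm := by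
    rw [Matrix.isUnit_iff_isUnit_det, isUnit_iff_ne_zero]
    intro e
    have h5 := congrArg Matrix.det hgram
    rw [Matrix.det_mul, e, mul_zero, Matrix.det_smul, Matrix.det_one, mul_one] at h5
    exact pow_ne_zero _ hc h5.symm
  let P : GL (OddIdx m) F := hPu.unit
  have hgP : D.gramAt P = c • 1 := hgram
  refine frame_case h2 hm P hc hgP fun h hh x => ?_
  set w : OddIdx m → F := ((P⁻¹ * h * P : GL (OddIdx m) F) : Matrix (OddIdx m) (OddIdx m) F) *ᵥ Pi.single x 1
  have hPw : (P : Matrix (OddIdx m) (OddIdx m) F) *ᵥ w = (h : Matrix (OddIdx m) (OddIdx m) F) *ᵥ col (ε x) := by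
    show _ *ᵥ (_ *ᵥ _) = _
    rw [Matrix.mulVec_mulVec, ← Units.val_mul, show P * (P⁻¹ * h * P) = h * P by simp [mul_assoc], Units.val_mul,
      ← Matrix.mulVec_mulVec, Matrix.mulVec_single_one]
    rfl
  obtain ⟨σ, hσ⟩ := hle hh
  set l := σ (ε x).1
  have hmem : (P : Matrix (OddIdx m) (OddIdx m) F) *ᵥ w ∈ V l := by
    rw [hPw, ← hσ]
    exact ⟨col (ε x), hcolV _, rfl⟩
  have hz : ∀ y, (ε y).1 ≠ l → w y = 0 := by
    intro y hy
    have h4 := hV.decomp.orthogonal l (ε y).1 (Ne.symm hy) _ hmem _ (hcolV (ε y))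
    rw [show col (ε y) = (P : Matrix (OddIdx m) (OddIdx m) F) *ᵥ Pi.single y 1 by
      rw [Matrix.mulVec_single_one]; rfl, ← hDf, FormData.form_gramAt, hgP] at h4
    have h6 : c * w y = 0 := by
      rw [← h4, gramForm]
      show c * w y = w ⬝ᵥ ((c • (1 : Matrix (OddIdx m) (OddIdx m) F)) *ᵥ Pi.single y 1)
      rw [Matrix.smul_mulVec, Matrix.one_mulVec, dotProduct_smul, dotProduct_single_one, smul_eq_mul]
    exact (mul_eq_zero.1 h6).resolve_left hc
  have hww : w ⬝ᵥ w = 1 := by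
    have h4 : D.form ((P : Matrix (OddIdx m) (OddIdx m) F) *ᵥ w) ((P : Matrix (OddIdx m) (OddIdx m) F) *ᵥ w) = c := by
      rw [hPw]
      refine (isometryGroup_le h2 (hH hh) _ _).trans ?_
      show D.form _ _ = c
      rw [hDf, hcp, if_pos rfl]
    rw [FormData.form_gramAt, hgP] at h4
    have h7 : c * (w ⬝ᵥ w) = c := by
      refine Eq.trans ?_ h4
      show c * (w ⬝ᵥ w) = w ⬝ᵥ ((c • (1 : Matrix (OddIdx m) (OddIdx m) F)) *ᵥ w)
      rw [Matrix.smul_mulVec, Matrix.one_mulVec, dotProduct_smul, smul_eq_mul]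
    exact mul_left_cancel₀ hc (h7.trans (mul_one c).symm)
  let z : Fin 3 → F := fun j => w (ε.symm (l, j))
  have hzz : z ⬝ᵥ z = 1 := by
    rw [← hww, dotProduct, dotProduct, ← ε.symm.sum_comp, Fintype.sum_prod_type, Finset.sum_eq_single l]
    · exact fun i _ hi => Finset.sum_eq_zero fun j _ => by
        rw [hz _ (by rw [ε.apply_symm_apply]; exact hi), mul_zero]
    · exact fun h' => absurd (Finset.mem_univ l) h'
  obtain ⟨i, a, hia⟩ := exists_single_of_three h3 z hzz
  refine ⟨ε.symm (l, i), a, funext fun y => ?_⟩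
  obtain ⟨⟨p, q⟩, rfl⟩ := ε.symm.surjective y
  by_cases hp : p = l
  · subst hp
    rw [show w (ε.symm (l, q)) = z q from rfl, hia]
    simp [Pi.single_apply]
  · rw [hz _ (by rw [ε.apply_symm_apply]; exact hp)]
    simp [hp]

end Cfsg.Agent.H99.Asch
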