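import Cfsg.Agent.H99.Aschbacher.OddOrth
import Cfsg.Agent.H5.OmegaGL
import Cfsg.Agent.H5.OmegaSimple
import Cfsg.Agent.H5.StabNondegGL
import Cfsg.Agent.H5.DecGL

/-!
The commutator subgroup of the odd-dimensional orthogonal group lies in no member of the classes.
-/

set_option autoImplicit false

open scoped MatrixGroups Matrix Kronecker commutatorElement

namespace Cfsg.Agent.H99.Asch

open Cfsg.Geo

variable {F : Type*} [Field F] [Fintype F] {m : ℕ}

/-- The subgroup Ω of the standard odd form inside the general linear group. -/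
abbrev omOdd (m : ℕ) (F : Type*) [Field F] : Subgroup (GL (OddIdx m) F) :=
  Cfsg.Geo.omegaGL (Cfsg.quadFormOdd m F)

lemma omOdd_le : omOdd m F ≤ Cfsg.isometryGroup F (Cfsg.quadFormOdd m F) :=
  Subgroup.map_subtype_le _

lemma finrank_oddIdx : Module.finrank F (OddIdx m → F) = 2 * m + 1 := by
  simp; omega

lemma mem_omOdd {g : H5.orth (H5.qOdd m F)} (hg : g ∈ commutator (H5.orth (H5.qOdd m F))) :
    H5.toGLHom (H5.qOdd m F) (H5.coe_qOdd m) g ∈ omOdd m F := by
  rw [omOdd, H5.omegaGL_eq_map (H5.qOdd m F) (H5.coe_qOdd m)]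
  exact Subgroup.mem_map_of_mem _ hg

lemma eich_mem_omOdd (h2 : (2 : F) ≠ 0) (hm : 2 ≤ m) (e a : OddIdx m → F) :
    H5.toGLHom (H5.qOdd m F) (H5.coe_qOdd m) (H5.eich (H5.qOdd m F) e a) ∈ omOdd m F :=
  mem_omOdd (H5.eich_mem_commutator (H5.qOdd_nondegenerate m h2) (by rw [finrank_oddIdx]; omega) e a)

lemma omOdd_perfect (h2 : (2 : F) ≠ 0) (hm : 2 ≤ m) : ⁅omOdd m F, omOdd m F⁆ = omOdd m F := by
  have : Finite (OddIdx m → F) := Pi.finite
  rw [omOdd, H5.omegaGL_eq_map (H5.qOdd m F) (H5.coe_qOdd m), ← Subgroup.map_commutator,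
    H5.commutator_perfect (H5.qOdd_nondegenerate m h2) (by rw [finrank_oddIdx]; omega)]

/-- A long root element: identity plus a map of rank two. -/
lemma exists_long_root (h2 : (2 : F) ≠ 0) (hm : 2 ≤ m) :
    ∃ u v : OddIdx m → F, LinearIndependent F ![u, v] ∧
      ∀ c : F, ∃ g ∈ omOdd m F, ∀ x, (g : Matrix (OddIdx m) (OddIdx m) F) *ᵥ x =
        x + c • (QuadraticMap.polar (Cfsg.quadFormOdd m F) u x • v - QuadraticMap.polar (Cfsg.quadFormOdd m F) v x • u) := by
  have hQ := H5.qOdd_nondegenerate (F := F) m h2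
  obtain ⟨e, he0, he⟩ := H5.exists_singular hQ (by rw [finrank_oddIdx]; omega)
  obtain ⟨f, hp⟩ := H5.exists_hypPair hQ he0 he
  obtain ⟨a, ha, b, -, hab⟩ := H5.exists_pair_of_three (hp.inf_perp hQ) (by
    have := hp.finrank_pperp hQ
    rw [finrank_oddIdx] at this
    omega)
  obtain ⟨hea, hfa⟩ := H5.mem_pperp.1 ha
  refine ⟨e, a, LinearIndependent.pair_iff.2 fun s t hst => ?_, fun c =>
    ⟨_, eich_mem_omOdd h2 hm e (c • a), fun x => ?_⟩⟩
  · have hs : s = 0 := by
      have := congrArg (QuadraticMap.polar (H5.qOdd m F) f) hst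
      simpa [QuadraticMap.polar_add_right, QuadraticMap.polar_smul_right, hfa,
        QuadraticMap.polar_comm (H5.qOdd m F) f e, hp.pair] using this
    rw [hs, zero_smul, zero_add] at hst
    exact ⟨hs, (smul_eq_zero.1 hst).resolve_right hab.ne_zero⟩
  · rw [H5.toGLHom_mulVec, H5.eich_apply hp.left (by simp [QuadraticMap.polar_smul_right, hea]),
      QuadraticMap.map_smul, hab.left, QuadraticMap.polar_smul_left, ← H5.coe_qOdd]
    simp only [smul_eq_mul, mul_zero, zero_mul, zero_smul, sub_zero, smul_smul, mul_comm c]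
    module

/-- Ω fixes no proper non-zero subspace that is totally singular or non-degenerate. -/
theorem omOdd_not_le_singular (h2 : (2 : F) ≠ 0) (hm : 2 ≤ m) {W : Submodule F (OddIdx m → F)} (hW : W ≠ ⊥)
    (hts : IsTotallySingularQuad (Cfsg.quadFormOdd m F) W) : ¬ omOdd m F ≤ subspaceStabilizer W := by
  intro h
  obtain ⟨g, hg, hgW⟩ := H5.exists_not_preserves_singular (H5.qOdd_nondegenerate (F := F) m h2)
    (by rw [finrank_oddIdx]; omega) hW (fun w hw => by rw [H5.coe_qOdd]; exact hts w hw)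
  exact hgW ((H5.toGLHom_mem_stab_iff (H5.qOdd m F) (H5.coe_qOdd m) W g).1 (h (mem_omOdd hg)))

theorem omOdd_not_le_nondeg (h2 : (2 : F) ≠ 0) (hm : 2 ≤ m) {W : Submodule F (OddIdx m → F)} (hW : W ≠ ⊥)
    (hW' : W ≠ ⊤) (hnd : IsNondegenerateOn (QuadraticMap.polar (Cfsg.quadFormOdd m F)) W) :
    ¬ omOdd m F ≤ subspaceStabilizer W := by
  intro h
  have : Finite (OddIdx m → F) := Pi.finite
  have hQ := H5.qOdd_nondegenerate (F := F) m h2
  have hWU := H5.inf_perp_of_isNondegenerateOn (H5.qOdd m F) (H5.coe_qOdd m) hnd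
  have hsum := H5.finrank_perp_add hQ W
  rw [finrank_oddIdx] at hsum
  have hp0 : H5.perp (H5.qOdd m F) W ≠ ⊥ := fun e => hW' (Submodule.eq_top_of_finrank_eq (by
    rw [finrank_oddIdx]; rw [e, finrank_bot, zero_add] at hsum; exact hsum))
  have hmem : ∀ g ∈ commutator (H5.orth (H5.qOdd m F)), H5.Preserves W g := fun g hg =>
    (H5.toGLHom_mem_stab_iff (H5.qOdd m F) (H5.coe_qOdd m) W g).1 (h (mem_omOdd hg))
  by_cases h3 : 3 ≤ Module.finrank F W
  · obtain ⟨g, hg, hgW⟩ := H5.exists_not_preserves_nondeg hQ hWU (by rw [finrank_oddIdx]; omega) h3 hp0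
    exact hgW (hmem g hg)
  · obtain ⟨g, hg, hgW⟩ := H5.exists_not_preserves_nondeg (W := H5.perp (H5.qOdd m F) W) hQ
      (by rw [H5.perp_perp hQ, inf_comm]; exact hWU) (by rw [finrank_oddIdx]; omega)
      ((Nat.eq_sub_of_add_eq hsum).symm ▸ (by omega : 3 ≤ 2 * m + 1 - Module.finrank F W))
      (by rw [H5.perp_perp hQ]; exact hW)
    exact hgW (hmem g hg).perp

/-- Ω acts irreducibly. -/
theorem omOdd_irreducible (h2 : (2 : F) ≠ 0) (hm : 2 ≤ m) : ActsIrreducibly (matrixSet (omOdd m F)) := by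
  rw [actsIrreducibly_iff]
  intro W hW
  by_contra hne
  push Not at hne
  obtain ⟨hW0, hW1⟩ := hne
  let D := orthData (F := F) m h2
  have hWp : IsInv (matrixSet (omOdd m F)) (D.perp W) := by
    rintro _ ⟨h, hh, rfl⟩ v hv w hw
    show D.form ((h : Matrix (OddIdx m) (OddIdx m) F) *ᵥ v) w = 0
    rw [FormData.form_adj, FormData.mem_isom_iff_adj.1 (isometryGroup_le h2 (omOdd_le hh))]
    exact hv _ (hW _ (mem_matrixSet (inv_mem hh)) w hw)
  by_cases hd : Disjoint W (D.perp W)
  · refine omOdd_not_le_nondeg h2 hm hW0 hW1 ?_ (isInv_subgroup_of_le hW)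
    rw [← orthData_form h2]
    exact D.isNondegenerateOn_of_disjoint hd
  · refine omOdd_not_le_singular h2 hm (W := W ⊓ D.perp W) (fun e => hd (disjoint_iff.2 e)) (fun w hw => ?_)
      (isInv_subgroup_of_le fun s hs v hv => ⟨hW s hs v hv.1, hWp s hs v hv.2⟩)
    rw [quadFormOdd_eq h2]
    show (2 : F)⁻¹ * D.form w w = 0
    rw [hw.2 w hw.1, mul_zero]

/-- Ω permutes the members of no decomposition into pieces of dimension at least three. -/
theorem omOdd_not_le_blocks (h2 : (2 : F) ≠ 0) (hm : 2 ≤ m) {t k : ℕ} (hk : 3 ≤ k)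
    {V : Fin t → Submodule F (OddIdx m → F)} (hV : IsOrthogonalMDecomposition (Cfsg.quadFormOdd m F) k V) :
    ¬ omOdd m F ≤ decompositionStabilizer V := by
  intro h
  have hD := H5.orthDec_of_geo (H5.coe_qOdd m) (H5.qOdd_nondegenerate m h2) hV
  obtain ⟨g, hg, hgD⟩ := H5.exists_commutator_not_presD hD (by rw [finrank_oddIdx]; omega) hk hV.decomp.decomp.two_le
  exact hgD ((H5.toGLHom_mem_dec_iff (H5.coe_qOdd m) hD (by omega) g).1 (h (mem_omOdd hg)))

/-- Ω permutes the lines of no orthogonal frame. -/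
theorem omOdd_not_le_frame (h2 : (2 : F) ≠ 0) (hm : 3 ≤ m) {t : ℕ}
    {V : Fin t → Submodule F (OddIdx m → F)} (hV : IsOrthogonalMDecomposition (Cfsg.quadFormOdd m F) 1 V) :
    ¬ omOdd m F ≤ decompositionStabilizer V := by
  intro h
  have hQ := H5.qOdd_nondegenerate (F := F) m h2
  have hD := H5.orthDec_of_geo (H5.coe_qOdd m) hQ hV
  have : NeZero t := ⟨by have := hV.decomp.decomp.two_le; omega⟩
  obtain ⟨v, hv, hqv⟩ := H5.exists_anisotropic (hD.inf_perp 0) (by rw [hD.finrank_eq])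
  set S := Submodule.span F {v} with hS
  have hv0 : v ≠ 0 := fun e => hqv (by rw [e, QuadraticMap.map_zero])
  have hSV : S = V 0 := Submodule.eq_of_le_of_finrank_eq ((Submodule.span_singleton_le_iff_mem _ _).2 hv)
    (by rw [hS, finrank_span_singleton hv0, hD.finrank_eq])
  have hW : H5.perp (H5.qOdd m F) S ⊓ H5.perp (H5.qOdd m F) (H5.perp (H5.qOdd m F) S) = ⊥ := by
    rw [H5.perp_perp hQ, inf_comm, hSV]; exact hD.inf_perp 0
  have hWd := H5.finrank_perp_add hQ S
  rw [finrank_oddIdx, hS, finrank_span_singleton hv0] at hWd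
  obtain ⟨e, he, f, hf, hp⟩ := H5.exists_pair_of_three hW (by rw [hS]; omega)
  have hve : QuadraticMap.polar (H5.qOdd m F) v e = 0 := H5.mem_perp_span.1 he
  have hvf : QuadraticMap.polar (H5.qOdd m F) v f = 0 := H5.mem_perp_span.1 hf
  have hvP : v ∈ H5.pperp (H5.qOdd m F) e f := H5.mem_pperp.2
    ⟨by rw [QuadraticMap.polar_comm]; exact hve, by rw [QuadraticMap.polar_comm]; exact hvf⟩
  obtain ⟨e', he', hqe', hve'⟩ : ∃ e' ∈ H5.pperp (H5.qOdd m F) e f,
      H5.qOdd m F e' = 0 ∧ QuadraticMap.polar (H5.qOdd m F) e' v ≠ 0 := by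
    obtain ⟨e0, he0, f0, hf0, hp0⟩ := H5.exists_pair_of_three (hp.inf_perp hQ) (by
      have := hp.finrank_pperp hQ
      rw [finrank_oddIdx] at this
      omega)
    by_cases h1 : QuadraticMap.polar (H5.qOdd m F) e0 v = 0
    swap
    · exact ⟨e0, he0, hp0.left, h1⟩
    by_cases h1' : QuadraticMap.polar (H5.qOdd m F) f0 v = 0
    swap
    · exact ⟨f0, hf0, hp0.right, h1'⟩
    refine ⟨(e0 + v) + (-H5.qOdd m F v) • f0,
      Submodule.add_mem _ (Submodule.add_mem _ he0 hvP) (Submodule.smul_mem _ _ hf0), ?_, ?_⟩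
    · rw [H5.map_add_smul, QuadraticMap.map_add (⇑(H5.qOdd m F)), hp0.left, hp0.right, h1,
        QuadraticMap.polar_add_left, hp0.pair, QuadraticMap.polar_comm (⇑(H5.qOdd m F)) v f0, h1']
      ring
    · rw [QuadraticMap.polar_add_left, QuadraticMap.polar_add_left, QuadraticMap.polar_smul_left, h1, h1',
        H5.polar_self']
      simpa using mul_ne_zero h2 hqv
  have hee' : QuadraticMap.polar (H5.qOdd m F) e' e = 0 := by
    rw [QuadraticMap.polar_comm]; exact (H5.mem_pperp.1 he').1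
  set g := H5.eich (H5.qOdd m F) e' e with hg
  have hgv : (g : (OddIdx m → F) ≃ₗ[F] (OddIdx m → F)) v = v + QuadraticMap.polar (H5.qOdd m F) e' v • e := by
    rw [hg, H5.eich_apply hqe' hee', hp.left, QuadraticMap.polar_comm (⇑(H5.qOdd m F)) e v, hve]
    simp
  obtain ⟨j, hj⟩ := (H5.toGLHom_mem_dec_iff (H5.coe_qOdd m) hD le_rfl g).1 (h (eich_mem_omOdd h2 (by omega) e' e)) 0
  have hmem : v + QuadraticMap.polar (H5.qOdd m F) e' v • e ∈ V j := hgv ▸ hj v hv
  rcases eq_or_ne (0 : Fin t) j with rfl | hne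
  · rw [← hSV, hS, Submodule.mem_span_singleton] at hmem
    obtain ⟨a, ha⟩ := hmem
    have hew : QuadraticMap.polar (H5.qOdd m F) f (a • v) =
        QuadraticMap.polar (H5.qOdd m F) f (v + QuadraticMap.polar (H5.qOdd m F) e' v • e) := by rw [ha]
    rw [QuadraticMap.polar_smul_right, QuadraticMap.polar_add_right, QuadraticMap.polar_smul_right,
      QuadraticMap.polar_comm (⇑(H5.qOdd m F)) f v, hvf, QuadraticMap.polar_comm (⇑(H5.qOdd m F)) f e, hp.pair] at hew
    simp only [smul_eq_mul, mul_zero, mul_one, zero_add] at hew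
    exact hve' hew.symm
  · have h1 := hD.polar_zero hne hv hmem
    rw [QuadraticMap.polar_add_right, QuadraticMap.polar_smul_right, H5.polar_self', hve, smul_zero, add_zero] at h1
    exact mul_ne_zero h2 hqv h1

/-- An invariant subspace of a field subalgebra has dimension divisible by the degree. -/
lemma dvd_finrank_of_invariant {ι : Type} [Fintype ι] [DecidableEq ι] [Nonempty ι] {r : ℕ}
    {L : Subalgebra F (Matrix ι ι F)} (hL : IsFieldSubalgebra r L) {W : Submodule F (ι → F)}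
    (hW : ∀ k ∈ L, ∀ w ∈ W, k *ᵥ w ∈ W) : r ∣ Module.finrank F W := by
  classical
  have : Nontrivial L := ⟨⟨0, 1, fun e => zero_ne_one (congrArg Subtype.val e)⟩⟩
  have hF : IsField L :=
    { exists_pair_ne := exists_pair_ne _
      mul_comm := fun a b => Subtype.ext (hL.comm a a.2 b b.2)
      mul_inv_cancel := fun {a} ha => by
        obtain ⟨y, hy, hxy⟩ := hL.inv a a.2 (fun e => ha (Subtype.ext e))
        exact ⟨⟨y, hy⟩, Subtype.ext hxy⟩ }
  let _ : Field L := hF.toField
  let _ : Module L (ι → F) :=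
    Module.compHom _ ((Matrix.toLinAlgEquiv' : Matrix ι ι F ≃ₐ[F] _).toAlgHom.comp L.val).toRingHom
  have hST : IsScalarTower F L (ι → F) := ⟨fun c k v => by
    show Matrix.toLin' ((c • k : L) : Matrix ι ι F) v = c • Matrix.toLin' (k : Matrix ι ι F) v
    rw [Subalgebra.coe_smul, map_smul, LinearMap.smul_apply]⟩
  let W' : Submodule L (ι → F) := { W.toAddSubmonoid with smul_mem' := fun k w hw => hW k.1 k.2 w hw }
  have e' : Module.finrank F W' = Module.finrank F W := LinearEquiv.finrank_eq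
    { toFun := fun x => ⟨x.1, x.2⟩
      invFun := fun x => ⟨x.1, x.2⟩
      map_add' := fun _ _ => rfl
      map_smul' := fun _ _ => rfl
      left_inv := fun _ => rfl
      right_inv := fun _ => rfl }
  have : IsScalarTower F L W' := ⟨fun c k w => Subtype.ext (smul_assoc c k (w : ι → F))⟩
  have h5 := Module.finrank_mul_finrank F L W'
  rw [hL.finrank_eq, e'] at h5
  exact ⟨_, h5.symm⟩

/-- Ω normalises no field of odd degree above one. -/
theorem omOdd_not_le_field (h2 : (2 : F) ≠ 0) (hm : 3 ≤ m) {r : ℕ} (hr3 : 3 ≤ r) (hr : r.Prime)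
    {K : Subalgebra F (Matrix (OddIdx m) (OddIdx m) F)} (hK : IsFieldSubalgebra r K) :
    ¬ omOdd m F ≤ subalgebraNormalizer K := by
  classical
  intro h
  obtain ⟨u, v, hli, hroot⟩ := exists_long_root (F := F) h2 (by omega : 2 ≤ m)
  obtain ⟨g, hg, hgx⟩ := hroot 1
  let gm : Matrix (OddIdx m) (OddIdx m) F := (g : Matrix (OddIdx m) (OddIdx m) F)
  let gi : Matrix (OddIdx m) (OddIdx m) F := ((g⁻¹ : GL (OddIdx m) F) : Matrix (OddIdx m) (OddIdx m) F)
  set S := Submodule.span F (Set.range ![u, v]) with hS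
  have hu : u ∈ S := Submodule.subset_span ⟨0, rfl⟩
  have hv : v ∈ S := Submodule.subset_span ⟨1, rfl⟩
  have hgS : ∀ x, gm *ᵥ x - x ∈ S := fun x => by
    rw [show gm *ᵥ x = _ from hgx x, add_sub_cancel_left]
    exact S.smul_mem _ (S.sub_mem (S.smul_mem _ hv) (S.smul_mem _ hu))
  -- conjugation by g moves every element of K by a map of rank at most four
  have hfix : ∀ k ∈ K, gm * k * gi = k := by
    intro k hk
    by_contra hne
    have hd : gm * k * gi - k ∈ K := K.sub_mem ((h hg k).1 hk) hk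
    obtain ⟨y, -, hy⟩ := hK.inv _ hd (sub_ne_zero.2 hne)
    let T := S ⊔ S.map (Matrix.toLin' k)
    have hran : ∀ x, (gm * k * gi - k) *ᵥ x ∈ T := by
      intro x
      obtain ⟨z, rfl⟩ : ∃ z, gm *ᵥ z = x := ⟨gi *ᵥ x, by
        rw [Matrix.mulVec_mulVec, ← Units.val_mul, mul_inv_cancel, Units.val_one, Matrix.one_mulVec]⟩
      have e : (gm * k * gi - k) *ᵥ (gm *ᵥ z) = (gm *ᵥ (k *ᵥ z) - k *ᵥ z) - k *ᵥ (gm *ᵥ z - z) := by
        have e1 : (gm * k * gi) *ᵥ (gm *ᵥ z) = gm *ᵥ (k *ᵥ z) := by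
          rw [Matrix.mulVec_mulVec, Matrix.mulVec_mulVec, mul_assoc, mul_assoc, ← Units.val_mul, inv_mul_cancel,
            Units.val_one, mul_one]
        rw [Matrix.sub_mulVec, e1, Matrix.mulVec_sub]
        abel
      rw [e]
      exact T.sub_mem (Submodule.mem_sup_left (hgS _)) (Submodule.mem_sup_right ⟨_, hgS z, rfl⟩)
    have htop : (⊤ : Submodule F (OddIdx m → F)) ≤ T := fun x _ => by
      have := hran (y *ᵥ x)
      rwa [Matrix.mulVec_mulVec, hy, Matrix.one_mulVec] at this
    have h1 := Submodule.finrank_mono htop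
    have h3 : Module.finrank F T ≤ 4 := by
      refine (Submodule.finrank_add_le_finrank_add_finrank _ _).trans ?_
      have h4 : Module.finrank F S = 2 := by rw [hS, finrank_span_eq_card hli, Fintype.card_fin]
      have h5 := Submodule.finrank_map_le (Matrix.toLin' k) S
      omega
    rw [finrank_top, finrank_oddIdx] at h1
    omega
  -- so the rank two subspace is invariant under K
  have hrange : ∀ k ∈ K, ∀ w ∈ LinearMap.range (Matrix.toLin' (gm - 1)),
      k *ᵥ w ∈ LinearMap.range (Matrix.toLin' (gm - 1)) := by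
    rintro k hk _ ⟨z, rfl⟩
    refine ⟨k *ᵥ z, ?_⟩
    have hc : gm * k = k * gm := by
      conv_rhs => rw [← hfix k hk]
      rw [mul_assoc, ← Units.val_mul, inv_mul_cancel, Units.val_one, mul_one]
    rw [Matrix.toLin'_apply, Matrix.toLin'_apply, Matrix.mulVec_mulVec, Matrix.mulVec_mulVec, sub_mul, one_mul,
      mul_sub, mul_one, hc]
  have : Nonempty (OddIdx m) := ⟨Sum.inl ()⟩
  have hdvd := dvd_finrank_of_invariant hK hrange
  have hle : Module.finrank F (LinearMap.range (Matrix.toLin' (gm - 1))) ≤ 2 := by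
    have h4 : Module.finrank F S = 2 := by rw [hS, finrank_span_eq_card hli, Fintype.card_fin]
    rw [← h4]
    refine Submodule.finrank_mono ?_
    rintro _ ⟨z, rfl⟩
    rw [Matrix.toLin'_apply, Matrix.sub_mulVec, Matrix.one_mulVec]
    exact hgS z
  have hpos : 0 < Module.finrank F (LinearMap.range (Matrix.toLin' (gm - 1))) := by
    rw [Nat.pos_iff_ne_zero, ne_eq, Submodule.finrank_eq_zero, LinearMap.range_eq_bot]
    intro e
    have hQ := H5.qOdd_nondegenerate (F := F) m h2
    obtain ⟨x, hx⟩ := H5.exists_polar_eq_one hQ (x := u) (fun e0 => hli.ne_zero 0 e0)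
    have h6 := LinearMap.congr_fun e x
    rw [LinearMap.zero_apply, Matrix.toLin'_apply, Matrix.sub_mulVec, Matrix.one_mulVec,
      show gm *ᵥ x = _ from hgx x, add_sub_cancel_left, one_smul, ← H5.coe_qOdd, hx, one_smul] at h6
    have h7 := (LinearIndependent.pair_iff.1 hli (-QuadraticMap.polar (H5.qOdd m F) v x) 1
      (by rw [one_smul, neg_smul, neg_add_eq_sub]; exact h6)).2
    exact one_ne_zero h7
  have := Nat.le_of_dvd hpos hdvd
  omega

/-- Ω is not defined over a proper subfield in any basis. -/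
theorem omOdd_not_le_subfield (h2 : (2 : F) ≠ 0) (hm : 2 ≤ m) {F₀ : Subfield F} {r : ℕ} (hr : r.Prime)
    (hc : Fintype.card F = Nat.card F₀ ^ r) (P : GL (OddIdx m) F) : ¬ omOdd m F ≤ subfieldSubgroup F₀ P := by
  classical
  intro h
  let ι := OddIdx m
  let φ : GL ι F₀ →* GL ι F := Matrix.GeneralLinearGroup.map F₀.subtype
  let S₀ : Subgroup (GL ι F) := φ.range.map (MulAut.conj P).toMonoidHom
  have hcomm : ⁅subfieldSubgroup F₀ P, subfieldSubgroup F₀ P⁆ ≤ S₀ := by
    rw [Subgroup.commutator_le]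
    rintro _ ⟨x, hx, rfl⟩ _ ⟨y, hy, rfl⟩
    rw [commutatorElement_def]
    refine ⟨x * y * x⁻¹ * y⁻¹, ?_, by simp [mul_assoc]⟩
    let T : Subgroup (GL ι F) :=
      { carrier := {z | ∃ a ∈ φ.range, ∃ c ∈ scalars ι F, z = a * c}
        one_mem' := ⟨1, φ.range.one_mem, 1, (scalars ι F).one_mem, (one_mul 1).symm⟩
        mul_mem' := by
          rintro _ _ ⟨a, ha, c, hc, rfl⟩ ⟨b, hb, d, hd, rfl⟩
          refine ⟨a * b, mul_mem ha hb, c * d, mul_mem hc hd, ?_⟩
          rw [mul_assoc, ← mul_assoc c b d, scalars_commute hc b, mul_assoc b c d, ← mul_assoc]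
        inv_mem' := by
          rintro _ ⟨a, ha, c, hc, rfl⟩
          exact ⟨a⁻¹, inv_mem ha, c⁻¹, inv_mem hc, by rw [mul_inv_rev, scalars_commute (inv_mem hc) a⁻¹]⟩ }
    have key : ∀ z ∈ φ.range ⊔ scalars ι F, ∃ a ∈ φ.range, ∃ c ∈ scalars ι F, z = a * c := by
      intro z hz
      have hT : φ.range ⊔ scalars ι F ≤ T := sup_le
        (fun a ha => ⟨a, ha, 1, (scalars ι F).one_mem, (mul_one a).symm⟩)
        (fun c hc => ⟨1, φ.range.one_mem, c, hc, (one_mul c).symm⟩)
      exact hT hz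
    obtain ⟨a, ha, c, hc', rfl⟩ := key x hx
    obtain ⟨b, hb, d, hd, rfl⟩ := key y hy
    have e : a * c * (b * d) * (a * c)⁻¹ * (b * d)⁻¹ = a * b * a⁻¹ * b⁻¹ := by
      have c1 := fun z => scalars_commute hc' z
      have d1 := fun z => scalars_commute hd z
      calc a * c * (b * d) * (a * c)⁻¹ * (b * d)⁻¹
          = a * (c * b) * (d * c⁻¹) * (a⁻¹ * d⁻¹) * b⁻¹ := by group
        _ = a * (b * c) * (c⁻¹ * d) * (d⁻¹ * a⁻¹) * b⁻¹ := by
          rw [c1 b, d1 c⁻¹, ← scalars_commute (inv_mem hd) a⁻¹]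
        _ = a * b * a⁻¹ * b⁻¹ := by group
    rw [e]
    exact φ.range.mul_mem (φ.range.mul_mem (φ.range.mul_mem ha hb) (inv_mem ha)) (inv_mem hb)
  have hS : omOdd m F ≤ S₀ := (omOdd_perfect h2 hm).ge.trans ((Subgroup.commutator_mono h h).trans hcomm)
  obtain ⟨u, v, hli, hroot⟩ := exists_long_root (F := F) h2 hm
  let Pi' : Matrix ι ι F := ((P⁻¹ : GL ι F) : Matrix ι ι F)
  choose g hg hgx using hroot
  have hent : ∀ c i j, (Pi' * ((g c : GL ι F) : Matrix ι ι F) * (P : Matrix ι ι F)) i j ∈ F₀ := by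
    intro c i j
    obtain ⟨_, ⟨a, rfl⟩, ha⟩ := hS (hg c)
    have e : Pi' * ((g c : GL ι F) : Matrix ι ι F) * (P : Matrix ι ι F) = ((φ a : GL ι F) : Matrix ι ι F) := by
      rw [← ha, ← Units.val_mul, ← Units.val_mul]
      simp [mul_assoc]
    rw [e]
    exact ((a : Matrix ι ι F₀) i j).2
  let N : Matrix ι ι F := Pi' * (((g 1 : GL ι F) : Matrix ι ι F) - 1) * (P : Matrix ι ι F)
  have hN : ∀ c, Pi' * (((g c : GL ι F) : Matrix ι ι F) - 1) * (P : Matrix ι ι F) = c • N := by
    intro c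
    have e : ((g c : GL ι F) : Matrix ι ι F) - 1 = c • (((g 1 : GL ι F) : Matrix ι ι F) - 1) := by
      refine Matrix.toLin'.injective (LinearMap.ext fun x => ?_)
      simp only [Matrix.toLin'_apply, Matrix.sub_mulVec, Matrix.smul_mulVec, Matrix.one_mulVec, hgx,
        add_sub_cancel_left, one_smul]
    rw [e, mul_smul_comm, smul_mul_assoc]
  have hN0 : N ≠ 0 := by
    intro e
    have h1 : ((g 1 : GL ι F) : Matrix ι ι F) - 1 = 0 := by
      have := congrArg (fun M => (P : Matrix ι ι F) * M * Pi') e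
      simp only [N, Pi', ← mul_assoc, ← Units.val_mul, mul_inv_cancel, Units.val_one, one_mul, mul_zero,
        zero_mul] at this
      rwa [mul_assoc, ← Units.val_mul, mul_inv_cancel, Units.val_one, mul_one] at this
    obtain ⟨x, hx⟩ := H5.exists_polar_eq_one (H5.qOdd_nondegenerate (F := F) m h2) (x := u) (fun e0 => hli.ne_zero 0 e0)
    have h6 := congrArg (fun M => M *ᵥ x) h1
    simp only [Matrix.sub_mulVec, Matrix.one_mulVec, Matrix.zero_mulVec, hgx, add_sub_cancel_left, one_smul,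
      ← H5.coe_qOdd, hx] at h6
    exact one_ne_zero (LinearIndependent.pair_iff.1 hli (-QuadraticMap.polar (H5.qOdd m F) v x) 1
      (by rw [one_smul, neg_smul, neg_add_eq_sub]; exact h6)).2
  obtain ⟨i, hi⟩ := Function.ne_iff.1 hN0
  obtain ⟨j, hj⟩ := Function.ne_iff.1 hi
  have hmem : ∀ c : F, c * N i j ∈ F₀ := by
    intro c
    have e : c * N i j = (Pi' * ((g c : GL ι F) : Matrix ι ι F) * (P : Matrix ι ι F)) i j - (1 : Matrix ι ι F) i j := by
      have h1 := congrFun (congrFun (hN c) i) j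
      rw [Matrix.smul_apply, smul_eq_mul] at h1
      rw [← h1, mul_sub, sub_mul, mul_one, show Pi' * (P : Matrix ι ι F) = 1 from P.inv_mul, Matrix.sub_apply]
    rw [e]
    refine F₀.sub_mem (hent c i j) ?_
    rw [Matrix.one_apply]
    split_ifs
    · exact F₀.one_mem
    · exact F₀.zero_mem
  have hcard := Nat.card_le_card_of_injective (fun c : F => (⟨c * N i j, hmem c⟩ : F₀))
    fun a b e => mul_right_cancel₀ hj (congrArg Subtype.val e)
  rw [Nat.card_eq_fintype_card, hc] at hcard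
  have h1 : 1 < Nat.card F₀ := Finite.one_lt_card
  have h4 := Nat.pow_lt_pow_right h1 hr.one_lt
  rw [pow_one] at h4
  omega

/-- A tensor product of two matrices moving little is trivial. -/
lemma rank_tensor_sub_one {ι : Type} [Fintype ι] [DecidableEq ι] {n₁ n₂ : ℕ} (e : ι ≃ Fin n₁ × Fin n₂)
    (a : GL (Fin n₁) F) (b : GL (Fin n₂) F)
    (hne : tens e (a : Matrix (Fin n₁) (Fin n₁) F) (b : Matrix (Fin n₂) (Fin n₂) F) ≠ 1) :
    min n₁ n₂ ≤ Module.finrank F
      (LinearMap.range (Matrix.toLin' (tens e (a : Matrix (Fin n₁) (Fin n₁) F) (b : Matrix (Fin n₂) (Fin n₂) F) - 1))) := by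
  classical
  let am : Matrix (Fin n₁) (Fin n₁) F := (a : Matrix (Fin n₁) (Fin n₁) F)
  let bm : Matrix (Fin n₂) (Fin n₂) F := (b : Matrix (Fin n₂) (Fin n₂) F)
  let T := Matrix.toLin' (tens e am bm - 1)
  let pt : (Fin n₁ → F) → (Fin n₂ → F) → (ι → F) := fun x y i => x (e i).1 * y (e i).2
  have hpt : ∀ x y, T (pt x y) = pt (am *ᵥ x) (bm *ᵥ y) - pt x y := by
    intro x y
    show (tens e am bm - 1) *ᵥ pt x y = _
    rw [Matrix.sub_mulVec, Matrix.one_mulVec]
    congr 1
    funext i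
    simp only [Matrix.mulVec, dotProduct, pt, tens_apply]
    rw [← e.symm.sum_comp, Fintype.sum_prod_type, Finset.sum_mul_sum]
    refine Finset.sum_congr rfl fun k _ => Finset.sum_congr rfl fun l _ => ?_
    rw [e.apply_symm_apply]
    ring
  by_cases hsc : ∃ α : F, am = α • 1
  · obtain ⟨α, hα⟩ := hsc
    obtain ⟨y, hy⟩ : ∃ y, (α • bm - 1) *ᵥ y ≠ 0 := by
      by_contra hno
      push Not at hno
      apply hne
      have e1 : α • bm = 1 := sub_eq_zero.1 (Matrix.toLin'.injective (LinearMap.ext fun y => by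
        rw [map_zero, LinearMap.zero_apply, Matrix.toLin'_apply]; exact hno y))
      show tens e am bm = 1
      rw [hα, tens_smul_left, ← tens_smul_right, e1, tens_one]
    let L : (Fin n₁ → F) →ₗ[F] LinearMap.range T :=
      { toFun := fun x => ⟨T (pt x y), LinearMap.mem_range_self _ _⟩
        map_add' := fun x x' => Subtype.ext (by
          show T (pt (x + x') y) = T (pt x y) + T (pt x' y)
          rw [← map_add]; congr 1; funext i; simp [pt, add_mul])
        map_smul' := fun c x => Subtype.ext (by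
          show T (pt (c • x) y) = c • T (pt x y)
          rw [← map_smul]; congr 1; funext i; simp [pt, mul_assoc]) }
    have hL : Function.Injective L := by
      rw [injective_iff_map_eq_zero]
      intro x hx
      have h1 : T (pt x y) = 0 := congrArg Subtype.val hx
      rw [hpt, hα, Matrix.smul_mulVec, Matrix.one_mulVec] at h1
      funext k
      by_contra hk
      apply hy
      funext l
      have h3 := congrFun h1 (e.symm (k, l))
      simp only [pt, Pi.sub_apply, Pi.smul_apply, smul_eq_mul, e.apply_symm_apply, Pi.zero_apply] at h3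
      rw [Matrix.sub_mulVec, Matrix.smul_mulVec, Matrix.one_mulVec, Pi.sub_apply, Pi.smul_apply, smul_eq_mul]
      exact mul_left_cancel₀ hk (by rw [Pi.zero_apply, mul_zero]; linear_combination h3)
    have := LinearMap.finrank_le_finrank_of_injective hL
    rw [Module.finrank_fintype_fun_eq_card, Fintype.card_fin] at this
    exact (min_le_left _ _).trans this
  · obtain ⟨x, hx⟩ : ∃ x, LinearIndependent F ![x, am *ᵥ x] := by
      by_contra hno
      push Not at hno
      obtain ⟨α, hα⟩ := LinearMap.exists_eq_smul_id_of_forall_notLinearIndependent (f := Matrix.toLin' am)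
        (fun x => by simpa using hno x)
      refine hsc ⟨α, Matrix.toLin'.injective ?_⟩
      rw [hα, map_smul, Matrix.toLin'_one]
      rfl
    let L : (Fin n₂ → F) →ₗ[F] LinearMap.range T :=
      { toFun := fun y => ⟨T (pt x y), LinearMap.mem_range_self _ _⟩
        map_add' := fun y y' => Subtype.ext (by
          show T (pt x (y + y')) = T (pt x y) + T (pt x y')
          rw [← map_add]; congr 1; funext i; simp [pt, mul_add])
        map_smul' := fun c y => Subtype.ext (by
          show T (pt x (c • y)) = c • T (pt x y)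
          rw [← map_smul]; congr 1; funext i; simp [pt]; ring) }
    have hL : Function.Injective L := by
      rw [injective_iff_map_eq_zero]
      intro y hy
      have h1 : T (pt x y) = 0 := congrArg Subtype.val hy
      rw [hpt] at h1
      funext l
      have h2 : (-(y l)) • x + ((bm *ᵥ y) l) • (am *ᵥ x) = 0 := by
        funext k
        have h3 := congrFun h1 (e.symm (k, l))
        simp only [pt, Pi.sub_apply, e.apply_symm_apply, Pi.zero_apply] at h3
        simp only [Pi.add_apply, Pi.smul_apply, smul_eq_mul, Pi.zero_apply]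
        linear_combination h3
      exact neg_eq_zero.1 (LinearIndependent.pair_iff.1 hx _ _ h2).1
    have := LinearMap.finrank_le_finrank_of_injective hL
    rw [Module.finrank_fintype_fun_eq_card, Fintype.card_fin] at this
    exact (min_le_right _ _).trans this

/-- Ω stabilises no tensor product of two spaces of dimension at least three. -/
theorem omOdd_not_le_tensor (h2 : (2 : F) ≠ 0) (hm : 2 ≤ m) {n₁ n₂ : ℕ} (h1 : 3 ≤ n₁) (h3 : 3 ≤ n₂)
    (e : OddIdx m ≃ Fin n₁ × Fin n₂) (P : GL (OddIdx m) F) : ¬ omOdd m F ≤ tensorProductSubgroup n₁ n₂ e P := by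
  classical
  intro h
  obtain ⟨u, v, hli, hroot⟩ := exists_long_root (F := F) h2 hm
  obtain ⟨g, hg, hgx⟩ := hroot 1
  obtain ⟨a, b, hab⟩ := mem_tensorProductSubgroup_iff.1 (h hg)
  let ι := OddIdx m
  set gm : Matrix ι ι F := (g : Matrix ι ι F)
  set S := Submodule.span F (Set.range ![u, v]) with hS
  have hgS : ∀ x, gm *ᵥ x - x ∈ S := fun x => by
    rw [show gm *ᵥ x = _ from hgx x, add_sub_cancel_left]
    exact S.smul_mem _ (S.sub_mem (S.smul_mem _ (Submodule.subset_span ⟨1, rfl⟩))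
      (S.smul_mem _ (Submodule.subset_span ⟨0, rfl⟩)))
  let Pi' : Matrix ι ι F := ((P⁻¹ : GL ι F) : Matrix ι ι F)
  have hconj : tens e (a : Matrix (Fin n₁) (Fin n₁) F) (b : Matrix (Fin n₂) (Fin n₂) F) - 1 =
      Pi' * (gm - 1) * (P : Matrix ι ι F) := by
    rw [mul_sub, sub_mul, mul_one, show Pi' * (P : Matrix ι ι F) = 1 from P.inv_mul]
    congr 1
    rw [show gm = _ from hab]
    simp only [Pi', ← mul_assoc, ← Units.val_mul, inv_mul_cancel, Units.val_one, one_mul]
    rw [mul_assoc, ← Units.val_mul, inv_mul_cancel, Units.val_one, mul_one]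
  have hne : tens e (a : Matrix (Fin n₁) (Fin n₁) F) (b : Matrix (Fin n₂) (Fin n₂) F) ≠ 1 := by
    intro e0
    rw [e0, mul_one, ← Units.val_mul, mul_inv_cancel, Units.val_one] at hab
    obtain ⟨x, hx⟩ := H5.exists_polar_eq_one (H5.qOdd_nondegenerate (F := F) m h2) (x := u) (fun e0 => hli.ne_zero 0 e0)
    have h6 := hgx x
    rw [hab, Matrix.one_mulVec, left_eq_add, one_smul, ← H5.coe_qOdd, hx, one_smul] at h6
    exact one_ne_zero (LinearIndependent.pair_iff.1 hli (-QuadraticMap.polar (H5.qOdd m F) v x) 1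
      (by rw [one_smul, neg_smul, neg_add_eq_sub]; exact h6)).2
  have hr := rank_tensor_sub_one e a b hne
  have h4 : Module.finrank F S = 2 := by rw [hS, finrank_span_eq_card hli, Fintype.card_fin]
  have hle : LinearMap.range (Matrix.toLin' (Pi' * (gm - 1) * (P : Matrix ι ι F))) ≤ S.map (Matrix.toLin' Pi') := by
    rintro _ ⟨z, rfl⟩
    refine ⟨gm *ᵥ ((P : Matrix ι ι F) *ᵥ z) - (P : Matrix ι ι F) *ᵥ z, hgS _, ?_⟩
    simp only [Matrix.toLin'_apply, ← Matrix.mulVec_mulVec, Matrix.sub_mulVec, Matrix.one_mulVec, Matrix.mulVec_sub]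
  rw [hconj] at hr
  have h5 := Submodule.finrank_mono hle
  have h6 := Submodule.finrank_map_le (Matrix.toLin' Pi') S
  have h7 := (hr.trans h5).trans (h6.trans_eq h4)
  omega

/-- Ω stabilises no tensor square of a space of dimension at least three. -/
theorem omOdd_not_le_wreath (h2 : (2 : F) ≠ 0) (hm : 2 ≤ m) {k : ℕ} (hk : 3 ≤ k)
    (e : OddIdx m ≃ (Fin 2 → Fin k)) (P : GL (OddIdx m) F) : ¬ omOdd m F ≤ tensorWreathSubgroup k 2 e P :=
  fun h => omOdd_not_le_tensor h2 hm hk hk (e.trans (finTwoArrowEquiv (Fin k))) P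
    ((omOdd_perfect h2 hm).ge.trans ((Subgroup.commutator_mono h h).trans (wreath_commutator_le_tensor e P)))

end Cfsg.Agent.H99.Asch
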