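import Cfsg.Agent.H99.Aschbacher.Dims

/-!
Over the field of five elements the monomial subgroup of SL(4, 5) normalises a group of symplectic type of
order 64.
-/

set_option autoImplicit false

open scoped MatrixGroups Matrix

namespace Cfsg.Agent.H99.Asch

open Cfsg.Geo

/-- The index set of the basis: the vectors of a plane over the field of two elements. -/
abbrev PV : Type := ZMod 2 × ZMod 2

/-- The pairing of the plane. -/
abbrev pdot (a i : PV) : ZMod 2 := a.1 * i.1 + a.2 * i.2

/-- Permutations of the plane carry translations to translations. -/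
lemma perm_translation : ∀ (σ : Equiv.Perm PV) (v : PV), ∃ v', ∀ j, σ (j + v) = σ j + v' := by
  decide +kernel

/-- Permutations of the plane carry characters to characters up to sign. -/
lemma perm_character : ∀ (σ : Equiv.Perm PV) (a : PV), ∃ (b : PV) (s : ZMod 2), ∀ j, pdot a j = pdot b (σ j) + s := by
  decide +kernel

/-- An element conjugating a finite subgroup into itself normalises it. -/
lemma mem_normalizer_of_conj_mem {G : Type*} [Group G] [Finite G] {R : Subgroup G} {g : G}
    (h : ∀ x ∈ R, g * x * g⁻¹ ∈ R) : g ∈ Subgroup.normalizer (R : Set G) := by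
  rw [Subgroup.mem_normalizer_iff]
  intro x
  refine ⟨h x, fun hx => ?_⟩
  let f : R → R := fun y => ⟨g * y * g⁻¹, h y y.2⟩
  have hinj : Function.Injective f := fun y z e =>
    Subtype.ext (mul_left_cancel (mul_right_cancel (congrArg Subtype.val e)))
  obtain ⟨y, hy⟩ := (Finite.injective_iff_surjective.1 hinj) ⟨_, hx⟩
  rw [← mul_left_cancel (mul_right_cancel (congrArg Subtype.val hy))]
  exact y.2

/-- An automorphism of a group preserves its characteristic subgroups. -/
lemma mem_of_characteristic {G : Type*} [Group G] {R : Subgroup G} {A : Subgroup R} [A.Characteristic] {g : G}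
    (hg : g ∈ Subgroup.normalizer (R : Set G)) {x : R} (hx : x ∈ A) :
    ∃ y ∈ A, (y : G) = g * x * g⁻¹ := by
  have hiff := Subgroup.mem_normalizer_iff.1 hg
  let φ : R ≃* R :=
    { toFun := fun y => ⟨g * y * g⁻¹, (hiff y).1 y.2⟩
      invFun := fun y => ⟨g⁻¹ * y * g, (hiff _).2 (by simp [mul_assoc])⟩
      left_inv := fun y => Subtype.ext (by simp [mul_assoc])
      right_inv := fun y => Subtype.ext (by simp [mul_assoc])
      map_mul' := fun y z => Subtype.ext (by simp [mul_assoc]) }
  refine ⟨φ x, ?_, rfl⟩
  have h := (Subgroup.characteristic_iff_comap_eq.1 ‹A.Characteristic› φ)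
  exact Subgroup.mem_comap.1 (h.symm ▸ hx)

variable {F : Type*} [Field F]

/-- The character of the plane attached to a. -/
def pchi (F : Type*) [Field F] (a i : PV) : F := if pdot a i = 0 then 1 else -1

lemma pchi_mul (a b i : PV) : pchi F (a + b) i = pchi F a i * pchi F b i := by
  have : pdot (a + b) i = pdot a i + pdot b i := by simp only [pdot, Prod.fst_add, Prod.snd_add]; ring
  have h01 : ∀ x : ZMod 2, x = 0 ∨ x = 1 := by decide
  rcases h01 (pdot a i) with h | h <;> rcases h01 (pdot b i) with h' | h' <;>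
    simp [pchi, this, h, h', show (1 : ZMod 2) + 1 = 0 from by decide]

lemma pchi_comm (a i : PV) : pchi F a i = pchi F i a := by simp only [pchi, pdot, mul_comm]

lemma pchi_add (a i j : PV) : pchi F a (i + j) = pchi F a i * pchi F a j := by
  rw [pchi_comm, pchi_mul, pchi_comm i, pchi_comm j]

lemma pchi_zero (i : PV) : pchi F 0 i = 1 := by simp [pchi, pdot]

lemma pchi_sq (a i : PV) : pchi F a i * pchi F a i = 1 := by rw [pchi]; split_ifs <;> simp

lemma pchi_ne (a i : PV) : pchi F a i ≠ 0 := by rw [pchi]; split_ifs <;> simp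

/-- The monomial matrix with entry c χ_a at the places (j + v, j). -/
def pauliMat (c : F) (a v : PV) : Matrix PV PV F :=
  Matrix.of fun i j => if i = j + v then c * pchi F a i else 0

lemma pauliMat_mul (c d : F) (a b v w : PV) :
    pauliMat c a v * pauliMat d b w = pauliMat (c * d * pchi F b v) (a + b) (v + w) := by
  ext i j
  simp only [pauliMat, Matrix.mul_apply, Matrix.of_apply, mul_ite, mul_zero, Finset.sum_ite_eq', Finset.mem_univ,
    if_true]
  rw [add_assoc, add_comm w v]
  by_cases h : i = j + (v + w)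
  · subst h
    rw [if_pos (by abel), if_pos rfl, pchi_mul]
    have e : j + w = j + (v + w) + v := by
      have h2 : ∀ x : PV, x + x = 0 := by decide
      rw [show j + (v + w) + v = j + w + (v + v) by abel, h2, add_zero]
    rw [e, pchi_add b (j + (v + w)) v]
    ring
  · rw [if_neg h, if_neg h, zero_mul]

lemma pauliMat_one : pauliMat (1 : F) 0 0 = 1 := by
  ext i j; simp [pauliMat, pchi_zero, Matrix.one_apply]

/-- The Pauli matrices as units. -/
def pauli (c : Fˣ) (a v : PV) : GL PV F where
  val := pauliMat c a v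
  inv := pauliMat (((c⁻¹ : Fˣ) : F) * pchi F a v) a v
  val_inv := by
    have h2 : ∀ x : PV, x + x = 0 := by decide
    rw [pauliMat_mul, h2, h2, ← pauliMat_one]
    congr 1
    rw [← mul_assoc, Units.mul_inv, one_mul, pchi_sq]
  inv_val := by
    have h2 : ∀ x : PV, x + x = 0 := by decide
    rw [pauliMat_mul, h2, h2, ← pauliMat_one]
    congr 1
    rw [mul_right_comm _ (pchi F a v), mul_assoc, pchi_sq, mul_one, Units.inv_mul]

/-- The sign of the character as a unit. -/
def pchiU (F : Type*) [Field F] (a i : PV) : Fˣ := Units.mk0 (pchi F a i) (pchi_ne a i)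

lemma pauli_mul (c d : Fˣ) (a b v w : PV) :
    pauli c a v * pauli d b w = pauli (c * d * pchiU F b v) (a + b) (v + w) := Units.ext (pauliMat_mul _ _ _ _ _ _)

lemma pauli_one : pauli (1 : Fˣ) 0 0 = (1 : GL PV F) := Units.ext pauliMat_one

/-- The group of Pauli matrices. -/
def pauliGroup (F : Type*) [Field F] : Subgroup (GL PV F) where
  carrier := {g | ∃ c a v, g = pauli c a v}
  mul_mem' := by rintro _ _ ⟨c, a, v, rfl⟩ ⟨d, b, w, rfl⟩; exact ⟨_, _, _, pauli_mul c d a b v w⟩
  one_mem' := ⟨1, 0, 0, pauli_one.symm⟩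
  inv_mem' := by
    rintro _ ⟨c, a, v, rfl⟩
    exact ⟨c⁻¹ * pchiU F a v, a, v, Units.ext rfl⟩

lemma pauli_inj {c d : Fˣ} {a b v w : PV} (h2 : (2 : F) ≠ 0) (h : pauli c a v = pauli d b w) :
    c = d ∧ a = b ∧ v = w := by
  have h' : pauliMat (c : F) a v = pauliMat (d : F) b w := congrArg Units.val h
  have hvw : v = w := by
    by_contra hne
    have := congrFun (congrFun h' v) 0
    simp [pauliMat, hne, pchi_ne] at this
  subst hvw
  have hi : ∀ i, (c : F) * pchi F a i = (d : F) * pchi F b i := fun i => by
    simpa [pauliMat, add_assoc, show v + v = 0 from (by decide : ∀ x : PV, x + x = 0) v] using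
      congrFun (congrFun h' i) (i + v)
  have hcd : c = d := Units.ext (by simpa [pchi, pdot] using hi 0)
  subst hcd
  refine ⟨rfl, ?_, rfl⟩
  by_contra hne
  obtain ⟨i, hi'⟩ := (by decide : ∀ a b : PV, a ≠ b → ∃ i, pdot a i ≠ pdot b i) a b hne
  have := mul_left_cancel₀ c.ne_zero (hi i)
  have h01 : ∀ x : ZMod 2, x = 0 ∨ x = 1 := by decide
  rcases h01 (pdot a i) with h | h <;> rcases h01 (pdot b i) with h'' | h'' <;> simp [h, h''] at hi' <;>
    simp [pchi, h, h''] at this
  · exact h2 (by linear_combination this)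
  · exact h2 (by linear_combination -this)

/-- The commutation sign of two Pauli matrices is the symplectic pairing of their indices. -/
lemma pauli_commute_iff (h2 : (2 : F) ≠ 0) (c d : Fˣ) (a b v w : PV) :
    pauli c a v * pauli d b w = pauli d b w * pauli c a v ↔ pdot b v = pdot a w := by
  rw [pauli_mul, pauli_mul]
  constructor
  · intro h
    have := congrArg Units.val (pauli_inj h2 h).1
    simp only [Units.val_mul, pchiU, Units.val_mk0] at this
    rw [mul_comm (c : F) d] at this
    have := mul_left_cancel₀ (mul_ne_zero d.ne_zero c.ne_zero) this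
    have h01 : ∀ x : ZMod 2, x = 0 ∨ x = 1 := by decide
    rcases h01 (pdot b v) with h' | h' <;> rcases h01 (pdot a w) with h'' | h'' <;> rw [h', h''] <;>
      simp [pchi, h', h''] at this
    · exact absurd (by linear_combination this) h2
    · exact absurd (by linear_combination -this) h2
  · intro h
    rw [add_comm a b, add_comm v w]
    congr 1
    apply Units.ext
    simp only [Units.val_mul, pchiU, Units.val_mk0, pchi, h]
    ring

section five

variable [Fintype F] (hq : Fintype.card F = 5)

include hq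

lemma charP_five : CharP F 5 := by
  obtain ⟨p, hp⟩ := CharP.exists F
  obtain ⟨⟨n, hn0⟩, hpp, hn⟩ := FiniteField.card F p
  rw [hq] at hn
  change 5 = p ^ n at hn
  obtain rfl : p = 5 := (Nat.prime_dvd_prime_iff_eq hpp (by norm_num)).1 (hn ▸ dvd_pow_self p hn0.ne')
  exact hp

lemma two_ne_five : (2 : F) ≠ 0 := by
  intro h
  have := charP_five hq
  have := (CharP.cast_eq_zero_iff F 5 2).1 (by exact_mod_cast h)
  omega

lemma five_eq_zero : (5 : F) = 0 := by
  have := charP_five hq
  exact_mod_cast CharP.cast_eq_zero F 5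

lemma exists_iso_five : ∃ f : ZMod 5 →+* F, Function.Bijective f := by
  have := charP_five hq
  refine ⟨ZMod.castHom dvd_rfl F, ?_⟩
  rw [Fintype.bijective_iff_injective_and_card]
  exact ⟨ZMod.castHom_injective F, by rw [ZMod.card, hq]⟩

set_option synthInstance.maxSize 4096 in
set_option synthInstance.maxHeartbeats 400000 in
/-- A conjugate of a translation by a diagonal matrix of square-one determinant is a Pauli matrix. -/
lemma ratio_char (lam : PV → F) (h0 : ∀ i, lam i ≠ 0) (hprod : (∏ i, lam i) ^ 2 = 1) (v : PV) :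
    ∃ (c : F) (a : PV), ∀ j, lam (j + v) = c * pchi F a j * lam j := by
  obtain ⟨f, hf⟩ := exists_iso_five hq
  choose l hl using fun i => hf.2 (lam i)
  have key : ∀ x₀ x₁ x₂ x₃ : ZMod 5, x₀ ≠ 0 → x₁ ≠ 0 → x₂ ≠ 0 → x₃ ≠ 0 → (x₀ * x₁ * x₂ * x₃) ^ 2 = 1 → ∀ v : PV,
      ∃ (c : ZMod 5) (a : PV), ∀ j : PV,
        (if j + v = (0, 0) then x₀ else if j + v = (0, 1) then x₁ else if j + v = (1, 0) then x₂ else x₃) =
          c * (if pdot a j = 0 then 1 else -1) *
            (if j = (0, 0) then x₀ else if j = (0, 1) then x₁ else if j = (1, 0) then x₂ else x₃) := by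
    decide +kernel
  have hlne : ∀ i, l i ≠ 0 := fun i e => h0 i (by rw [← hl, e, map_zero])
  have hl' : ∀ j : PV,
      (if j = (0, 0) then l (0, 0) else if j = (0, 1) then l (0, 1) else if j = (1, 0) then l (1, 0) else l (1, 1)) =
        l j := by
    intro j
    rcases (by decide : ∀ j : PV, j = (0, 0) ∨ j = (0, 1) ∨ j = (1, 0) ∨ j = (1, 1)) j with rfl | rfl | rfl | rfl <;>
      simp
  have hp : (l (0, 0) * l (0, 1) * l (1, 0) * l (1, 1)) ^ 2 = 1 := by
    apply hf.1
    rw [map_one, ← hprod, map_pow, map_mul, map_mul, map_mul, hl, hl, hl, hl]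
    congr 1
    rw [show (Finset.univ : Finset PV) = {(0, 0), (0, 1), (1, 0), (1, 1)} from by decide,
      Finset.prod_insert (by decide), Finset.prod_insert (by decide), Finset.prod_insert (by decide),
      Finset.prod_singleton]
    ring
  obtain ⟨c, a, h⟩ := key _ _ _ _ (hlne _) (hlne _) (hlne _) (hlne _) hp v
  refine ⟨f c, a, fun j => ?_⟩
  have := congrArg f (h j)
  rw [hl', hl', map_mul, map_mul, hl, hl] at this
  rw [this, pchi]
  split_ifs <;> simp

/-- The determinant-one monomial matrices normalise the Pauli group. -/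
lemma monomial_normalises (g : GL PV F) (σ : Equiv.Perm PV) (lam : PV → F)
    (hg : ∀ i j, (g : Matrix PV PV F) i j = if i = σ j then lam j else 0)
    (hprod : (∏ i, lam i) ^ 2 = 1) : g ∈ Subgroup.normalizer (pauliGroup F : Set (GL PV F)) := by
  have hl0 : ∀ i, lam i ≠ 0 := fun i e => by
    rw [Finset.prod_eq_zero (Finset.mem_univ i) e, zero_pow two_ne_zero] at hprod
    exact zero_ne_one hprod
  refine mem_normalizer_of_conj_mem fun x hx => ?_
  obtain ⟨c, a, v, rfl⟩ := hx
  obtain ⟨v', hv'⟩ := perm_translation σ v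
  obtain ⟨c1, a1, h1⟩ := ratio_char hq lam hl0 hprod v
  obtain ⟨b, s, hb⟩ := perm_character σ (a + a1)
  obtain ⟨c', hc'⟩ : ∃ c' : F, ∀ j, (c : F) * pchi F a (j + v) * lam (j + v) = c' * pchi F b (σ j + v') * lam j := by
    refine ⟨(c : F) * c1 * pchi F a v * (if s = 0 then 1 else -1) * pchi F b v', fun j => ?_⟩
    rw [h1, pchi_add, pchi_add b]
    have e : pchi F a j * pchi F a1 j = (if s = 0 then 1 else -1) * pchi F b (σ j) := by
      rw [← pchi_mul, pchi, pchi, hb j]
      have h01 : ∀ x : ZMod 2, x = 0 ∨ x = 1 := by decide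
      rcases h01 (pdot b (σ j)) with h | h <;> rcases h01 s with h' | h' <;>
        simp [h, h', show (1 : ZMod 2) + 1 = 0 from by decide]
    linear_combination ((c : F) * c1 * pchi F a v * lam j) * e -
      ((c : F) * c1 * pchi F a v * (if s = 0 then 1 else -1) * pchi F b (σ j) * lam j) * pchi_sq (F := F) b v'
  have hc0 : c' ≠ 0 := fun e => by
    have := hc' 0
    rw [e, zero_mul, zero_mul] at this
    exact mul_ne_zero (mul_ne_zero c.ne_zero (pchi_ne _ _)) (hl0 _) this
  refine ⟨Units.mk0 c' hc0, b, v', ?_⟩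
  rw [mul_inv_eq_iff_eq_mul]
  apply Units.ext
  ext i j
  show ((g : Matrix PV PV F) * pauliMat (c : F) a v) i j = (pauliMat c' b v' * (g : Matrix PV PV F)) i j
  have h2 : ∀ x : PV, x + x = 0 := by decide
  simp only [pauliMat, Matrix.mul_apply, hg, Matrix.of_apply, mul_ite, mul_zero, Finset.sum_ite_eq',
    Finset.mem_univ, if_true, ite_mul, zero_mul]
  rw [hv']
  by_cases h : i = σ j + v'
  · subst h
    rw [if_pos rfl, if_pos rfl]
    linear_combination hc' j
  · rw [if_neg h, if_neg h]

/-- The product of the entries of a monomial matrix of determinant one squares to one. -/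
lemma monomial_prod (g : GL PV F) (σ : Equiv.Perm PV) (lam : PV → F)
    (hg : ∀ i j, (g : Matrix PV PV F) i j = if i = σ j then lam j else 0)
    (hdet : (g : Matrix PV PV F).det = 1) : (∏ i, lam i) ^ 2 = 1 := by
  have hM : (g : Matrix PV PV F) = (1 : Matrix PV PV F).submatrix σ.symm id * Matrix.diagonal lam := by
    ext i j
    simp only [hg, Matrix.mul_diagonal, Matrix.submatrix_apply, id, Matrix.one_apply, Equiv.symm_apply_eq, ite_mul,
      one_mul, zero_mul]
  rw [hM, Matrix.det_mul, Matrix.det_permute, Matrix.det_one, mul_one, Matrix.det_diagonal] at hdet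
  rcases Int.units_eq_one_or (Equiv.Perm.sign σ.symm) with e | e <;> rw [e] at hdet <;> simp at hdet
  · rw [hdet, one_pow]
  · rw [show (∏ i, lam i) = -1 by linear_combination -hdet, neg_one_sq]

/-- The abelian characteristic subgroups of an isomorphic copy of the Pauli group are cyclic, and the copy has
the data of class six. -/
theorem pauli_data (Φ : GL PV F ≃* GL (Fin 4) F)
    (L : Matrix PV PV F ≃ₐ[F] Matrix (Fin 4) (Fin 4) F) (hL : ∀ x : GL PV F, (Φ x : Matrix _ _ F) = L x) :
    IsLinearSymplecticTypeData 2 ((pauliGroup F).map Φ.toMonoidHom) := by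
  classical
  set R := (pauliGroup F).map Φ.toMonoidHom with hRdef
  have h2 := two_ne_five hq
  have h5 := five_eq_zero hq
  have hp2 : ∀ x : PV, x + x = 0 := by decide
  have hmem : ∀ c a v, Φ (pauli c a v) ∈ R := fun c a v => ⟨_, ⟨c, a, v, rfl⟩, rfl⟩
  have hrep : ∀ x : R, ∃ c a v, (x : GL (Fin 4) F) = Φ (pauli c a v) := by
    rintro ⟨_, y, ⟨c, a, v, rfl⟩, rfl⟩
    exact ⟨c, a, v, rfl⟩
  have hU4 : Nat.card Fˣ = 4 := by rw [Nat.card_eq_fintype_card, Fintype.card_units, hq]
  have hc4 : ∀ c : Fˣ, c ^ 4 = 1 := fun c => by rw [← hU4]; exact pow_card_eq_one'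
  have hcardR : Nat.card R = 64 := by
    let f : Fˣ × PV × PV → R := fun p => ⟨Φ (pauli p.1 p.2.1 p.2.2), hmem _ _ _⟩
    have hf : Function.Bijective f := by
      refine ⟨fun p q h => ?_, fun x => ?_⟩
      · obtain ⟨e1, e2, e3⟩ := pauli_inj h2 (Φ.injective (congrArg Subtype.val h))
        exact Prod.ext e1 (Prod.ext e2 e3)
      · obtain ⟨c, a, v, h⟩ := hrep x
        exact ⟨(c, a, v), Subtype.ext h.symm⟩
    rw [← Nat.card_eq_of_bijective f hf, Nat.card_prod, Nat.card_prod, hU4]
    simp
  have hcentre : ∀ x : R, x ∈ Subgroup.center R ↔ ∃ c, (x : GL (Fin 4) F) = Φ (pauli c 0 0) := by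
    intro x
    obtain ⟨c, a, v, hx⟩ := hrep x
    rw [Subgroup.mem_center_iff]
    constructor
    · intro h
      have hall : ∀ b w, pdot b v = pdot a w := fun b w => by
        rw [← pauli_commute_iff h2 c 1 a b v w]
        have := congrArg Subtype.val (h ⟨_, hmem 1 b w⟩)
        simp only [Subgroup.coe_mul, hx, ← map_mul] at this
        exact (Φ.injective this).symm
      obtain ⟨rfl, rfl⟩ : a = 0 ∧ v = 0 := (by decide : ∀ a v : PV, (∀ b w, pdot b v = pdot a w) → a = 0 ∧ v = 0) a v hall
      exact ⟨c, hx⟩
    · rintro ⟨d, hd⟩ y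
      obtain ⟨c', b, w, hy⟩ := hrep y
      apply Subtype.ext
      simp only [Subgroup.coe_mul, hd, hy, ← map_mul]
      exact congrArg Φ ((pauli_commute_iff h2 _ _ _ _ _ _).2 (by simp [pdot]))
  have hcardZ : Nat.card (Subgroup.center R) = 4 := by
    let f : Fˣ → Subgroup.center R := fun c => ⟨⟨_, hmem c 0 0⟩, (hcentre _).2 ⟨c, rfl⟩⟩
    have hf : Function.Bijective f := by
      refine ⟨fun c d h => (pauli_inj h2 (Φ.injective (congrArg (fun z : Subgroup.center R => ((z : R) : GL (Fin 4) F)) h))).1, fun x => ?_⟩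
      obtain ⟨c, hc⟩ := (hcentre x.1).1 x.2
      exact ⟨c, Subtype.ext (Subtype.ext hc.symm)⟩
    rw [← Nat.card_eq_of_bijective f hf, hU4]
  have hpow4 : ∀ x : R, x ^ 4 = 1 := by
    intro x
    obtain ⟨c, a, v, hx⟩ := hrep x
    apply Subtype.ext
    rw [Subgroup.coe_pow, Subgroup.coe_one, hx, ← map_pow, ← map_one Φ]
    congr 1
    have hs : ∀ c d : Fˣ, pauli c 0 0 * pauli d 0 0 = (pauli (c * d) 0 0 : GL PV F) := fun c d => by
      rw [pauli_mul, add_zero, show pchiU F 0 0 = 1 from Units.ext (pchi_zero 0), mul_one]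
    have hsq : pauli c a v * pauli c a v = pauli (c * c * pchiU F a v) 0 0 := by rw [pauli_mul, hp2, hp2]
    rw [show (4 : ℕ) = 2 + 2 from rfl, pow_add, sq, hsq, hs, ← pauli_one]
    congr 1
    have hchi : pchiU F a v * pchiU F a v = 1 := Units.ext (pchi_sq a v)
    calc (c * c * pchiU F a v) * (c * c * pchiU F a v) = c ^ 4 * (pchiU F a v * pchiU F a v) := by
          rw [show c ^ 4 = c * c * (c * c) by simp [pow_succ, mul_assoc], mul_mul_mul_comm]
      _ = 1 := by rw [hc4, hchi, one_mul]
  have henv : Algebra.adjoin F (matrixSet R) = ⊤ := by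
    have h0 : Algebra.adjoin F (matrixSet (pauliGroup F)) = ⊤ := by
      rw [eq_top_iff]
      intro M _
      rw [Matrix.matrix_eq_sum_single M]
      refine Subalgebra.sum_mem _ fun i _ => Subalgebra.sum_mem _ fun j _ => ?_
      have hgen : ∀ c a v, pauliMat ((c : Fˣ) : F) a v ∈ Algebra.adjoin F (matrixSet (pauliGroup F)) := fun c a v =>
        Algebra.subset_adjoin ⟨pauli c a v, ⟨c, a, v, rfl⟩, rfl⟩
      have e : Matrix.single i j (M i j) = (M i j * (2 * 2)⁻¹) •
          ∑ a : PV, pchi F a i • pauliMat ((1 : Fˣ) : F) a (i + j) := by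
        ext p q
        simp only [Matrix.smul_apply, Matrix.sum_apply, smul_eq_mul, Units.val_one, pauliMat, Matrix.of_apply, one_mul,
          mul_ite, mul_zero]
        by_cases hpq : p = q + (i + j)
        · simp only [if_pos hpq, ← pchi_add]
          by_cases hip : i = p
          · subst hip
            have hjq : j = q := by
              have := congrArg (fun x => x + (q + j)) hpq
              calc j = i + (q + j) + (i + q) := by
                    rw [show i + (q + j) + (i + q) = (i + i) + (q + q) + j by abel, hp2, hp2, zero_add, zero_add]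
                _ = q := by
                  rw [this, show q + (i + j) + (q + j) + (i + q) = (i + i) + (q + q) + (j + j) + q by abel]
                  simp [hp2]
            subst hjq
            rw [Matrix.single_apply, if_pos ⟨rfl, rfl⟩, hp2]
            simp only [pchi, pdot, Prod.fst_zero, Prod.snd_zero, mul_zero, add_zero, if_true, Finset.sum_const,
              Finset.card_univ, Fintype.card_prod, ZMod.card, nsmul_eq_mul, mul_one]
            rw [mul_assoc, show ((2 * 2 : ℕ) : F) = 2 * 2 by norm_num, inv_mul_cancel₀ (mul_ne_zero h2 h2), mul_one]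
          · rw [Matrix.single_apply, if_neg fun h => hip h.1]
            have hne : i + p ≠ 0 := fun h => hip (by
              calc i = i + (p + p) := by rw [hp2, add_zero]
                _ = p := by rw [← add_assoc, h, zero_add])
            have hsum : ∀ z : PV, z ≠ 0 → ∑ a : PV, pchi F a z = 0 := by
              intro z hz
              rw [show (Finset.univ : Finset PV) = {(0, 0), (0, 1), (1, 0), (1, 1)} from by decide,
                Finset.sum_insert (by decide), Finset.sum_insert (by decide), Finset.sum_insert (by decide),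
                Finset.sum_singleton]
              rcases (by decide : ∀ j : PV, j = (0, 0) ∨ j = (0, 1) ∨ j = (1, 0) ∨ j = (1, 1)) z with
                rfl | rfl | rfl | rfl
              · exact absurd rfl hz
              all_goals simp [pchi, pdot, show (1 : ZMod 2) + 1 = 0 from by decide]
            rw [hsum _ hne, mul_zero]
        · simp only [if_neg hpq, Finset.sum_const_zero, mul_zero]
          rw [Matrix.single_apply, if_neg]
          rintro ⟨rfl, rfl⟩
          exact hpq (by rw [show j + (i + j) = i + (j + j) by abel, hp2, add_zero])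
      rw [e]
      exact Subalgebra.smul_mem _ (Subalgebra.sum_mem _ fun a _ => Subalgebra.smul_mem _ (hgen 1 a _) _) _
    have himg : matrixSet R = L.toAlgHom '' matrixSet (pauliGroup F) := by
      ext M
      constructor
      · rintro ⟨_, ⟨y, hy, rfl⟩, rfl⟩
        exact ⟨_, ⟨y, hy, rfl⟩, (hL y).symm⟩
      · rintro ⟨_, ⟨y, hy, rfl⟩, rfl⟩
        exact ⟨_, ⟨y, hy, rfl⟩, hL y⟩
    rw [himg, Algebra.adjoin_image, h0, Algebra.map_top, AlgHom.range_eq_top]
    exact L.surjective
  refine ⟨⟨Nat.prime_two, fun x => ⟨2, hpow4 x⟩, ?_, ?_⟩, absIrred_of_adjoin henv, 5, 1, by norm_num,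
    ⟨by norm_num, charP_five hq, by simp [hq], ?_, fun d h1 h2' => by omega⟩,
    Or.inr (Or.inl ⟨rfl, rfl, hcardZ, by simp, 2, by rw [hcardR]; norm_num⟩)⟩
  · intro A hA hAcomm
    have hcomm : ∀ x ∈ A, ∀ y ∈ A, x * y = y * x := fun x hx y hy =>
      congrArg Subtype.val (hAcomm.is_comm.comm ⟨x, hx⟩ ⟨y, hy⟩)
    have hnorm : ∀ g ∈ Subgroup.normalizer (pauliGroup F : Set (GL PV F)), ∀ c a v,
        (∃ x ∈ A, (x : GL (Fin 4) F) = Φ (pauli c a v)) → ∃ y ∈ A, (y : GL (Fin 4) F) = Φ (g * pauli c a v * g⁻¹) := by
      rintro g hg c a v ⟨x, hx, hxe⟩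
      have hg' : Φ g ∈ Subgroup.normalizer (R : Set (GL (Fin 4) F)) :=
        Subgroup.le_normalizer_map Φ.toMonoidHom ⟨g, hg, rfl⟩
      obtain ⟨y, hy, hye⟩ := mem_of_characteristic hg' hx
      exact ⟨y, hy, by rw [hye, hxe, map_mul, map_mul, map_inv]⟩
    have hcase : ∀ c a v, v ≠ 0 → ¬ ∃ x ∈ A, (x : GL (Fin 4) F) = Φ (pauli c a v) := by
      intro c a v hv hx
      obtain ⟨u, hu, hpd⟩ : ∃ u : PV, pdot u v = 1 ∧ (u = (1, 0) ∨ u = (0, 1)) :=
        (by decide : ∀ v : PV, v ≠ 0 → ∃ u : PV, pdot u v = 1 ∧ (u = (1, 0) ∨ u = (0, 1))) v hv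
      let d : PV → F := fun i => if pdot u i = 0 then 1 else 2
      have hd0 : ∀ i, d i ≠ 0 := fun i => by simp only [d]; split_ifs <;> simp [h2]
      let g : GL PV F :=
        { val := Matrix.diagonal d, inv := Matrix.diagonal fun i => (d i)⁻¹
          val_inv := by rw [Matrix.diagonal_mul_diagonal, ← Matrix.diagonal_one]; congr 1; funext i; exact mul_inv_cancel₀ (hd0 i)
          inv_val := by rw [Matrix.diagonal_mul_diagonal, ← Matrix.diagonal_one]; congr 1; funext i; exact inv_mul_cancel₀ (hd0 i) }
      have hg : g ∈ Subgroup.normalizer (pauliGroup F : Set (GL PV F)) := by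
        refine monomial_normalises hq g 1 d (fun i j => by simp [g, Matrix.diagonal_apply]; split_ifs with h <;> simp [h]) ?_
        rw [show (Finset.univ : Finset PV) = {(0, 0), (0, 1), (1, 0), (1, 1)} from by decide,
          Finset.prod_insert (by decide), Finset.prod_insert (by decide), Finset.prod_insert (by decide),
          Finset.prod_singleton]
        rcases hpd with rfl | rfl <;> simp [d, pdot, sq_eq_one_iff] <;> exact Or.inr (by linear_combination h5)
      obtain ⟨y, hy, hye⟩ := hnorm g hg c a v hx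
      obtain ⟨x, hxA, hxe⟩ := hx
      have hconj : g * pauli c a v * g⁻¹ = pauli (c * pchiU F u v * Units.mk0 2 h2) (a + u) v := by
        rw [mul_inv_eq_iff_eq_mul]
        apply Units.ext
        ext i j
        show (Matrix.diagonal d * pauliMat (c : F) a v) i j =
          (pauliMat ((c : F) * pchi F u v * 2) (a + u) v * Matrix.diagonal d) i j
        rw [Matrix.diagonal_mul, Matrix.mul_diagonal]
        simp only [pauliMat, Matrix.of_apply]
        split_ifs with hij
        · subst hij
          have hadd : pdot u (j + v) = pdot u j + 1 := by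
            rw [← hu]; simp only [pdot, Prod.fst_add, Prod.snd_add]; ring
          have huv : pchi F u v = -1 := by simp [pchi, hu]
          rw [pchi_mul, pchi_add a, pchi_add u]
          rcases (by decide : ∀ x : ZMod 2, x = 0 ∨ x = 1) (pdot u j) with h | h
          · have huj : pchi F u j = 1 := by simp [pchi, h]
            have e1 : d (j + v) = 2 := by simp [d, hadd, h]
            have e2 : d j = 1 := by simp [d, h]
            rw [huv, huj, e1, e2]; ring
          · have huj : pchi F u j = -1 := by simp [pchi, h]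
            have e1 : d (j + v) = 1 := by simp [d, hadd, h, show (1 : ZMod 2) + 1 = 0 from by decide]
            have e2 : d j = 2 := by simp [d, h]
            rw [huv, huj, e1, e2]
            linear_combination (pchi F a j * pchi F a v * (c : F)) * h5
        · ring
      have := congrArg Subtype.val (hcomm x hxA y hy)
      simp only [Subgroup.coe_mul, hxe, hye, hconj, ← map_mul] at this
      have := (pauli_commute_iff h2 _ _ _ _ _ _).1 (Φ.injective this)
      rw [show pdot (a + u) v = pdot a v + pdot u v from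
        by simp only [pdot, Prod.fst_add, Prod.snd_add]; ring, hu] at this
      revert this
      rcases (by decide : ∀ x : ZMod 2, x = 0 ∨ x = 1) (pdot a v) with h | h <;> rw [h] <;> decide
    let W : GL PV F :=
      { val := Matrix.of fun i j => pchi F i j
        inv := (4 : F) • Matrix.of fun i j => pchi F i j
        val_inv := by
          ext i j
          rw [Matrix.mul_smul, Matrix.smul_apply, Matrix.mul_apply, smul_eq_mul]
          simp only [Matrix.of_apply, pchi_comm _ j, ← pchi_mul]
          have hs : ∀ z : PV, ∑ k, pchi F z k = if z = 0 then (4 : F) else 0 := by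
            intro z
            rw [show (Finset.univ : Finset PV) = {(0, 0), (0, 1), (1, 0), (1, 1)} from by decide,
              Finset.sum_insert (by decide), Finset.sum_insert (by decide), Finset.sum_insert (by decide),
              Finset.sum_singleton]
            rcases (by decide : ∀ j : PV, j = (0, 0) ∨ j = (0, 1) ∨ j = (1, 0) ∨ j = (1, 1)) z with
                rfl | rfl | rfl | rfl <;> simp [pchi, pdot, show (1 : ZMod 2) + 1 = 0 from by decide] <;> ring
          rw [hs]
          by_cases hij : i = j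
          · subst hij
            rw [if_pos (hp2 i), Matrix.one_apply_eq]
            linear_combination (3 : F) * h5
          · rw [if_neg fun h => hij (by
              calc i = i + (j + j) := by rw [hp2, add_zero]
                _ = j := by rw [← add_assoc, h, zero_add]), Matrix.one_apply_ne hij, mul_zero]
        inv_val := by
          ext i j
          rw [Matrix.smul_mul, Matrix.smul_apply, Matrix.mul_apply, smul_eq_mul]
          simp only [Matrix.of_apply, pchi_comm _ j, ← pchi_mul]
          have hs : ∀ z : PV, ∑ k, pchi F z k = if z = 0 then (4 : F) else 0 := by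
            intro z
            rw [show (Finset.univ : Finset PV) = {(0, 0), (0, 1), (1, 0), (1, 1)} from by decide,
              Finset.sum_insert (by decide), Finset.sum_insert (by decide), Finset.sum_insert (by decide),
              Finset.sum_singleton]
            rcases (by decide : ∀ j : PV, j = (0, 0) ∨ j = (0, 1) ∨ j = (1, 0) ∨ j = (1, 1)) z with
                rfl | rfl | rfl | rfl <;> simp [pchi, pdot, show (1 : ZMod 2) + 1 = 0 from by decide] <;> ring
          rw [hs]
          by_cases hij : i = j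
          · subst hij
            rw [if_pos (hp2 i), Matrix.one_apply_eq]
            linear_combination (3 : F) * h5
          · rw [if_neg fun h => hij (by
              calc i = i + (j + j) := by rw [hp2, add_zero]
                _ = j := by rw [← add_assoc, h, zero_add]), Matrix.one_apply_ne hij, mul_zero] }
    have hWz : ∀ c a, W * pauli c a 0 = pauli c 0 a * W := by
      intro c a
      apply Units.ext
      ext i j
      show (Matrix.of (fun i j => pchi F i j) * pauliMat (c : F) a 0) i j =
        (pauliMat (c : F) 0 a * Matrix.of (fun i j => pchi F i j)) i j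
      have e : ∀ k : PV, (i = k + a) ↔ (k = i + a) := fun k =>
        (by decide : ∀ i k a : PV, i = k + a ↔ k = i + a) i k a
      simp only [pauliMat, Matrix.mul_apply, Matrix.of_apply, mul_ite, mul_zero, add_zero, Finset.sum_ite_eq',
        Finset.mem_univ, if_true, pchi_zero, ite_mul, zero_mul, mul_one, e]
      rw [pchi_mul]; ring
    have hWx : ∀ v, W * pauli 1 0 v = pauli 1 v 0 * W := by
      intro v
      apply Units.ext
      ext i j
      show (Matrix.of (fun i j => pchi F i j) * pauliMat ((1 : Fˣ) : F) 0 v) i j =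
        (pauliMat ((1 : Fˣ) : F) v 0 * Matrix.of (fun i j => pchi F i j)) i j
      simp only [pauliMat, Units.val_one, Matrix.mul_apply, Matrix.of_apply, mul_ite, mul_zero, Finset.sum_ite_eq',
        Finset.mem_univ, if_true, pchi_zero, ite_mul, zero_mul, mul_one, one_mul, add_zero, Finset.sum_ite_eq]
      rw [pchi_add, pchi_comm i v]; ring
    have hWn : W ∈ Subgroup.normalizer (pauliGroup F : Set (GL PV F)) := by
      refine mem_normalizer_of_conj_mem ?_
      rintro _ ⟨c, a, v, rfl⟩
      have e : pauli c a v = pauli c a 0 * (pauli 1 0 v : GL PV F) := by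
        rw [pauli_mul, add_zero, zero_add, mul_one, show pchiU F 0 0 = 1 from Units.ext (pchi_zero 0), mul_one]
      rw [e, show W * (pauli c a 0 * pauli 1 0 v) * W⁻¹ = pauli c 0 a * pauli 1 v 0 by
        rw [← mul_assoc, hWz, mul_assoc (pauli c 0 a), hWx, ← mul_assoc, mul_inv_cancel_right]]
      exact ⟨_, _, _, pauli_mul _ _ _ _ _ _⟩
    have hscalar : ∀ x ∈ A, ∃ c, (x : GL (Fin 4) F) = Φ (pauli c 0 0) := by
      intro x hx
      obtain ⟨c, a, v, hxe⟩ := hrep x
      have hv : v = 0 := by_contra fun hv => hcase c a v hv ⟨x, hx, hxe⟩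
      subst hv
      have ha : a = 0 := by
        by_contra ha
        obtain ⟨y, hy, hye⟩ := hnorm W hWn c a 0 ⟨x, hx, hxe⟩
        rw [hWz, mul_inv_cancel_right] at hye
        exact hcase c 0 a ha ⟨y, hy, hye⟩
      subst ha
      exact ⟨c, hxe⟩
    let f : A →* F :=
      { toFun := fun x => (Φ.symm ((x : R) : GL (Fin 4) F) : Matrix PV PV F) 0 0
        map_one' := by simp
        map_mul' := fun x y => by
          obtain ⟨c, hc⟩ := hscalar x x.2
          obtain ⟨d, hd⟩ := hscalar y y.2
          simp only [Subgroup.coe_mul, map_mul, hc, hd, MulEquiv.symm_apply_apply, pauli_mul]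
          simp [pauli, pauliMat, pchiU, pchi_zero] }
    refine isCyclic_of_subgroup_isDomain f fun x y hxy => ?_
    obtain ⟨c, hc⟩ := hscalar x x.2
    obtain ⟨d, hd⟩ := hscalar y y.2
    apply Subtype.ext; apply Subtype.ext
    rw [hc, hd]
    congr 2
    apply Units.ext
    simpa [f, hc, hd, pauli, pauliMat, pchi_zero] using hxy
  · rw [show 2 * Nat.gcd 2 2 = 4 from rfl]
    refine dvd_antisymm (Monoid.exponent_dvd_of_forall_pow_eq_one hpow4) ?_
    obtain ⟨ζ, hζ⟩ := IsCyclic.exists_ofOrder_eq_natCard (α := Fˣ)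
    rw [hU4] at hζ
    suffices h4 : orderOf ζ ∣ Monoid.exponent R by rwa [hζ] at h4
    refine orderOf_dvd_of_pow_eq_one ?_
    have hs : ∀ k : ℕ, (pauli ζ 0 0 : GL PV F) ^ k = pauli (ζ ^ k) 0 0 := by
      intro k
      induction k with
      | zero => rw [pow_zero, pow_zero, pauli_one]
      | succ k ih =>
        rw [pow_succ, ih, pauli_mul, add_zero, show pchiU F 0 0 = 1 from Units.ext (pchi_zero 0), mul_one, pow_succ]
    have := congrArg Subtype.val (Monoid.pow_exponent_eq_one (⟨_, hmem ζ 0 0⟩ : R))
    rw [Subgroup.coe_pow, ← map_pow, hs, Subgroup.coe_one, ← map_one Φ] at this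
    exact (pauli_inj h2 ((Φ.injective this).trans pauli_one.symm)).1
  · rw [hcardZ]; norm_num

/-- The monomial subgroup of SL(4, 5) normalises a group of symplectic type. -/
theorem monomial_five {D : Fin 4 → Submodule F (Fin 4 → F)} (hD : IsMDecomposition 1 D) :
    ∃ R : Subgroup (GL (Fin 4) F), IsLinearSymplecticTypeData 2 R ∧
      decompositionStabilizer D ⊓ specialLinear (Fin 4) F ≤ subgroupNormalizer R := by
  classical
  obtain ⟨b, -, hb⟩ := exists_decomp_basis hD
  let e : PV ≃ Fin 4 := Fintype.equivFinOfCardEq (by simp)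
  let Bm : Matrix (Fin 4) (Fin 4) F := Matrix.of fun r i => b ((0 : Fin 1), i) r
  have hBcol : ∀ c : Fin 4 → F, Bm *ᵥ c = ∑ i, c i • b ((0 : Fin 1), i) := by
    intro c; funext r; simp [Bm, Matrix.mulVec, dotProduct, mul_comm]
  have hBu : IsUnit Bm := by
    rw [← Matrix.mulVec_injective_iff_isUnit]
    intro x y hxy
    rw [hBcol, hBcol] at hxy
    funext i
    have := congrArg (fun w => b.repr w ((0 : Fin 1), i)) hxy
    simpa [Finsupp.single_apply] using this
  obtain ⟨B, hB⟩ := hBu
  let Φ : GL PV F ≃* GL (Fin 4) F := (glReindex e).trans (MulAut.conj B)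
  let Lc : Matrix (Fin 4) (Fin 4) F ≃ₐ[F] Matrix (Fin 4) (Fin 4) F :=
    { toFun := fun M => (B : Matrix (Fin 4) (Fin 4) F) * M * ((B⁻¹ : GL (Fin 4) F) : Matrix (Fin 4) (Fin 4) F)
      invFun := fun M => ((B⁻¹ : GL (Fin 4) F) : Matrix (Fin 4) (Fin 4) F) * M * (B : Matrix (Fin 4) (Fin 4) F)
      left_inv := fun M => by simp [mul_assoc]
      right_inv := fun M => by simp [mul_assoc]
      map_mul' := fun M N => by simp [mul_assoc]
      map_add' := fun M N => by simp [mul_add, add_mul]
      commutes' := fun c => by simp [Algebra.algebraMap_eq_smul_one] }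
  refine ⟨_, pauli_data hq Φ ((Matrix.reindexAlgEquiv F F e).trans Lc) (fun x => rfl), fun g hg => ?_⟩
  obtain ⟨σ, A, hA⟩ := hb g hg.1
  refine Subgroup.le_normalizer_map Φ.toMonoidHom ⟨Φ.symm g, ?_, MulEquiv.apply_symm_apply Φ g⟩
  let σ' : Equiv.Perm PV := (e.trans σ).trans e.symm
  have hent : ∀ i j, (Φ.symm g : Matrix PV PV F) i j = if i = σ' j then A (e j) 0 0 else 0 := by
    intro i j
    show ((B⁻¹ * g * B : GL (Fin 4) F) : Matrix (Fin 4) (Fin 4) F) (e i) (e j) = _
    have hcol : ((B⁻¹ * g * B : GL (Fin 4) F) : Matrix (Fin 4) (Fin 4) F) *ᵥ Pi.single (e j) 1 =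
        A (e j) 0 0 • (Pi.single (σ (e j)) 1 : Fin 4 → F) := by
      rw [Units.val_mul, Units.val_mul, ← Matrix.mulVec_mulVec, ← Matrix.mulVec_mulVec]
      have hB1 : ∀ k, (B : Matrix (Fin 4) (Fin 4) F) *ᵥ Pi.single k 1 = b ((0 : Fin 1), k) := fun k => by
        rw [hB]; funext r; simp [Bm]
      rw [hB1, hA, Fin.sum_univ_one, Matrix.mulVec_smul, ← hB1, H98.gl_inv_mulVec]
    have := congrFun hcol (e i)
    rw [Matrix.mulVec_single_one, Matrix.col_apply] at this
    rw [this]
    simp [σ', Pi.single_apply, ← Equiv.apply_eq_iff_eq_symm_apply]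
  refine monomial_normalises hq _ σ' _ hent (monomial_prod hq _ σ' _ hent ?_)
  have h1 : Matrix.GeneralLinearGroup.det g = 1 := hg.2
  have h2 := congrArg Units.val h1
  rw [Matrix.GeneralLinearGroup.val_det_apply, Units.val_one] at h2
  show (((glReindex e).symm (B⁻¹ * g * B) : GL PV F) : Matrix PV PV F).det = 1
  show ((Matrix.reindexAlgEquiv F F e).symm ((B⁻¹ * g * B : GL (Fin 4) F) : Matrix (Fin 4) (Fin 4) F)).det = 1
  rw [Matrix.reindexAlgEquiv_symm, Matrix.det_reindexAlgEquiv, Units.val_mul, Units.val_mul, Matrix.det_units_conj']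
  exact h2

end five

end Cfsg.Agent.H99.Asch
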