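import Cfsg.Agent.H99.Aschbacher.Maximal

/-!
Small fields: class members that are contained in members of other classes, and the arithmetic of class six.
-/

set_option autoImplicit false

open scoped MatrixGroups Matrix Kronecker

namespace Cfsg.Agent.H99.Asch

open Cfsg.Geo

variable {ι : Type} [Fintype ι] [DecidableEq ι] {F : Type*} [Field F]

/-- A basis adapted to a decomposition, indexed by position and part. -/
lemma exists_decomp_basis {t m : ℕ} {D : Fin t → Submodule F (ι → F)} (hD : IsMDecomposition m D) :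
    ∃ b : Module.Basis (Fin m × Fin t) F (ι → F), (∀ p, b p ∈ D p.2) ∧
      ∀ g ∈ decompositionStabilizer D, ∃ (σ : Equiv.Perm (Fin t)) (A : Fin t → Matrix (Fin m) (Fin m) F),
        ∀ p, (g : Matrix ι ι F) *ᵥ b p = ∑ l, A p.2 l p.1 • b (l, σ p.2) := by
  classical
  have hint : DirectSum.IsInternal D :=
    (DirectSum.isInternal_submodule_iff_iSupIndep_and_iSup_eq_top D).2 ⟨hD.indep, hD.iSup_eq_top⟩
  let B := fun i => Module.finBasisOfFinrankEq F (D i) (hD.finrank_eq i)
  let b : Module.Basis (Fin m × Fin t) F (ι → F) :=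
    (hint.collectedBasis B).reindex ((Equiv.sigmaEquivProd (Fin t) (Fin m)).trans (Equiv.prodComm _ _))
  have hb : ∀ p, b p = (B p.2 p.1 : ι → F) := fun p => by
    simp [b, DirectSum.IsInternal.collectedBasis_coe, Equiv.sigmaEquivProd]
  refine ⟨b, fun p => hb p ▸ SetLike.coe_mem _, fun g hg => ?_⟩
  obtain ⟨σ, hσ⟩ := hg
  have hmem : ∀ p, (g : Matrix ι ι F) *ᵥ b p ∈ D (σ p.2) := fun p => by
    rw [← hσ, hb]
    exact ⟨_, SetLike.coe_mem _, Matrix.toLin'_apply _ _⟩
  refine ⟨σ, fun i l k => (B (σ i)).repr ⟨_, hmem (k, i)⟩ l, fun p => ?_⟩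
  have h := congrArg Subtype.val ((B (σ p.2)).sum_repr ⟨_, hmem p⟩)
  rw [Submodule.coe_sum] at h
  refine h.symm.trans (Finset.sum_congr rfl fun l _ => ?_)
  rw [hb (l, σ p.2)]
  rfl

/-- The coordinates of the image of a vector in an adapted basis. -/
lemma repr_adapted {t m : ℕ} (b : Module.Basis (Fin m × Fin t) F (ι → F)) {g : Matrix ι ι F}
    {σ : Equiv.Perm (Fin t)} {A : Fin t → Matrix (Fin m) (Fin m) F}
    (h : ∀ p, g *ᵥ b p = ∑ l, A p.2 l p.1 • b (l, σ p.2)) (u : ι → F) (i : Fin t) (l : Fin m) :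
    b.repr (g *ᵥ u) (l, σ i) = ∑ k, A i l k * b.repr u (k, i) := by
  classical
  conv_lhs => rw [← b.sum_repr u]
  rw [← Matrix.mulVecLin_apply, map_sum, map_sum, Finsupp.finsetSum_apply]
  simp only [map_smul, Matrix.mulVecLin_apply, h, map_sum, Finsupp.smul_apply, Finsupp.finsetSum_apply,
    Module.Basis.repr_self, Finsupp.single_apply, smul_eq_mul, Prod.mk.injEq, mul_ite, mul_one, mul_zero]
  rw [Fintype.sum_prod_type]
  refine Finset.sum_congr rfl fun k _ => ?_
  rw [Finset.sum_eq_single i]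
  · rw [Finset.sum_eq_single l]
    · simp [mul_comm]
    · intro x _ hx; simp [hx]
    · simp
  · intro j _ hj
    rw [Finset.sum_eq_zero fun x _ => if_neg fun e => hj (σ.injective e.2), mul_zero]
  · simp

lemma adapted_det_ne_zero {t m : ℕ} (b : Module.Basis (Fin m × Fin t) F (ι → F)) {g : GL ι F}
    {σ : Equiv.Perm (Fin t)} {A : Fin t → Matrix (Fin m) (Fin m) F}
    (h : ∀ p, (g : Matrix ι ι F) *ᵥ b p = ∑ l, A p.2 l p.1 • b (l, σ p.2)) (i : Fin t) : (A i).det ≠ 0 := by
  classical
  intro hd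
  obtain ⟨v, hv, hAv⟩ := Matrix.exists_mulVec_eq_zero_iff.2 hd
  let u := ∑ k, v k • b (k, i)
  have hu : (g : Matrix ι ι F) *ᵥ u = 0 := by
    rw [← Matrix.mulVecLin_apply, map_sum]
    simp only [map_smul, Matrix.mulVecLin_apply, h, Finset.smul_sum, smul_smul]
    rw [Finset.sum_comm]
    refine Finset.sum_eq_zero fun l _ => ?_
    rw [← Finset.sum_smul]
    have := congrFun hAv l
    simp only [Matrix.mulVec, dotProduct, Pi.zero_apply] at this
    rw [show ∑ k, v k * A i l k = ∑ k, A i l k * v k from Finset.sum_congr rfl fun _ _ => mul_comm _ _, this,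
      zero_smul]
  have hu0 : u = 0 := Matrix.mulVec_injective_of_isUnit (Units.isUnit g) (hu.trans (Matrix.mulVec_zero _).symm)
  apply hv
  funext k
  have := congrArg (fun w => b.repr w (k, i)) hu0
  simpa [u, Finsupp.single_apply] using this

section

variable [Fintype F]

lemma monomial_two {n : ℕ} (hn : 2 ≤ Fintype.card ι) {D : Fin n → Submodule F (ι → F)} (hD : IsMDecomposition 1 D)
    (hq : Fintype.card F = 2) :
    ∃ W : Submodule F (ι → F), W ≠ ⊥ ∧ W ≠ ⊤ ∧ decompositionStabilizer D ≤ subspaceStabilizer W := by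
  classical
  obtain ⟨b, -, hb⟩ := exists_decomp_basis hD
  let s : ι → F := ∑ p, b p
  have hs0 : s ≠ 0 := fun e => by
    have := congrArg (fun w => b.repr w ((0 : Fin 1), ⟨0, by have := hD.two_le; omega⟩)) e
    simp [s, Finsupp.single_apply] at this
  refine ⟨Submodule.span F {s}, by rwa [ne_eq, Submodule.span_singleton_eq_bot], fun e => ?_, fun g hg => ?_⟩
  · have h1 := finrank_span_singleton (K := F) hs0
    rw [e, finrank_top, Module.finrank_fintype_fun_eq_card] at h1
    omega
  · obtain ⟨σ, A, hA⟩ := hb g hg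
    have hA1 : ∀ i, A i 0 0 = 1 := fun i => by
      have h := adapted_det_ne_zero b hA i
      rw [Matrix.det_unique] at h
      have := FiniteField.pow_card_sub_one_eq_one _ h
      rw [hq] at this
      simpa using this
    have hgs : (g : Matrix ι ι F) *ᵥ s = s := by
      rw [← Matrix.mulVecLin_apply, map_sum]
      simp only [Matrix.mulVecLin_apply, hA]
      refine Fintype.sum_equiv (Equiv.prodCongr (Equiv.refl _) σ) _ _ fun p => ?_
      rw [Fin.sum_univ_one, show p.1 = 0 from Subsingleton.elim _ _, hA1, one_smul]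
      rw [show (Equiv.prodCongr (Equiv.refl _) σ) p = (p.1, σ p.2) from rfl, show p.1 = 0 from Subsingleton.elim _ _]
    refine H98.stab_of_maps_into fun w hw => ?_
    obtain ⟨c, rfl⟩ := Submodule.mem_span_singleton.1 hw
    rw [Matrix.mulVec_smul, hgs]
    exact Submodule.mem_span_singleton.2 ⟨c, rfl⟩

lemma monomial_three {n : ℕ} {D : Fin n → Submodule F (ι → F)} (hD : IsMDecomposition 1 D)
    (hq : Fintype.card F = 3) : InForms (decompositionStabilizer D) := by
  classical
  obtain ⟨b, -, hb⟩ := exists_decomp_basis hD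
  have hodd : Odd (Fintype.card F) := ⟨1, by omega⟩
  have h2 : (2 : F) ≠ 0 := by
    intro h
    have : CharP F 2 := CharTwo.of_one_ne_zero_of_two_eq_zero one_ne_zero h
    exact (Nat.not_even_iff_odd.2 hodd) (Nat.even_iff.2
      ((FiniteField.even_card_iff_char_two).1 (ringChar.eq F 2)))
  refine Or.inr (Or.inr ⟨fun v => ∑ p, b.repr v p ^ 2, ⟨fun c v => ?_, ?_, ?_⟩, hodd, fun g hg => ?_⟩)
  · simp [mul_pow, Finset.mul_sum]
  · constructor <;> intros <;>
      simp only [QuadraticMap.polar, map_add, map_smul, Finsupp.add_apply, Finsupp.smul_apply, smul_eq_mul,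
        ← Finset.sum_sub_distrib, ← Finset.sum_add_distrib, Finset.mul_sum] <;>
      exact Finset.sum_congr rfl fun p _ => by ring
  · intro v hv
    have key : ∀ p, QuadraticMap.polar (fun v => ∑ p, b.repr v p ^ 2) (b p) v = 2 * b.repr v p ∧
        QuadraticMap.polar (fun v => ∑ p, b.repr v p ^ 2) v (b p) = 2 * b.repr v p := by
      intro p
      constructor <;>
      · simp only [QuadraticMap.polar, map_add, Finsupp.add_apply, ← Finset.sum_sub_distrib, Module.Basis.repr_self]
        rw [Finset.sum_eq_single p]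
        · simp; ring
        · intro q _ hq; simp [Finsupp.single_apply, hq.symm]
        · simp
    obtain ⟨p, hp⟩ : ∃ p, b.repr v p ≠ 0 := by
      by_contra h
      push Not at h
      exact hv (b.repr.map_eq_zero_iff.1 (Finsupp.ext h))
    exact ⟨⟨b p, by rw [(key p).1]; exact mul_ne_zero h2 hp⟩, ⟨b p, by rw [(key p).2]; exact mul_ne_zero h2 hp⟩⟩
  · obtain ⟨σ, A, hA⟩ := hb g hg
    refine ⟨1, fun v => ?_⟩
    rw [Units.val_one, one_mul]
    refine (Fintype.sum_equiv (Equiv.prodCongr (Equiv.refl _) σ) _ _ fun p => ?_).symm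
    have hp : p.1 = 0 := Subsingleton.elim _ _
    rw [show (Equiv.prodCongr (Equiv.refl _) σ) p = (p.1, σ p.2) from rfl, repr_adapted b hA, Fin.sum_univ_one, mul_pow]
    have h := adapted_det_ne_zero b hA p.2
    rw [Matrix.det_unique] at h
    have hpow := FiniteField.pow_card_sub_one_eq_one _ h
    rw [hq] at hpow
    have e : A p.2 0 0 ^ 2 = 1 := hpow
    rw [hp, e, one_mul, ← hp]

lemma monomial_four {n : ℕ} {D : Fin n → Submodule F (ι → F)} (hD : IsMDecomposition 1 D)
    (hq : Fintype.card F = 4) : InForms (decompositionStabilizer D) := by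
  classical
  obtain ⟨b, -, hb⟩ := exists_decomp_basis hD
  have hc : CharP F 2 := ringChar.of_eq (FiniteField.even_card_iff_char_two.2 (by rw [hq]))
  have hFr : ∀ x : F, (x ^ 2) ^ 2 = x := fun x => by
    rw [← pow_mul, show 2 * 2 = Fintype.card F by rw [hq], FiniteField.pow_card]
  let σ₀ : F →+* F :=
    { toFun := fun x => x ^ 2, map_one' := one_pow 2, map_mul' := fun x y => mul_pow x y 2,
      map_zero' := zero_pow two_ne_zero, map_add' := fun x y => add_pow_char x y 2 }
  let σe : F ≃+* F := RingEquiv.ofBijective σ₀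
    (Function.bijective_iff_has_inverse.2 ⟨σ₀, hFr, hFr⟩)
  have hσ : ∀ x, σe x = x ^ 2 := fun x => rfl
  refine Or.inr (Or.inl ⟨σe, fun u v => ∑ p, b.repr u p * σe (b.repr v p),
    ⟨?_, hFr, ?_, ?_, ?_, ?_⟩, fun g hg => ?_⟩)
  · intro e
    have h : ∀ x : F, x ^ 2 = x := fun x => RingEquiv.congr_fun e x
    have hs : Function.Injective (fun x : F => (x = 1 : Bool)) := by
      intro x y hxy
      have h0 : ∀ z : F, z = 0 ∨ z = 1 := fun z =>
        (mul_eq_zero.1 (show z * (z - 1) = 0 by linear_combination h z)).imp id sub_eq_zero.1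
      rcases h0 x with hx | hx <;> rcases h0 y with hy | hy <;> simp_all
    have := Fintype.card_le_of_injective _ hs
    rw [hq, Fintype.card_bool] at this
    omega
  · intro x y v; simp [add_mul, Finset.sum_add_distrib]
  · intro c x v; simp [Finset.mul_sum, mul_assoc]
  · intro v w
    simp only [map_sum, map_mul]
    refine Finset.sum_congr rfl fun p _ => ?_
    rw [hσ (σe _), hσ (b.repr v p), hFr, mul_comm]
  · intro v hv
    obtain ⟨p, hp⟩ : ∃ p, b.repr v p ≠ 0 := by
      by_contra h
      push Not at h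
      exact hv (b.repr.map_eq_zero_iff.1 (Finsupp.ext h))
    refine ⟨⟨b p, ?_⟩, ⟨b p, ?_⟩⟩
    · simp only [Module.Basis.repr_self]
      rw [Finset.sum_eq_single p (fun q _ h => by simp [Finsupp.single_apply, h.symm]) (by simp)]
      simp [hp]
    · simp only [Module.Basis.repr_self]
      rw [Finset.sum_eq_single p (fun q _ h => by simp [Finsupp.single_apply, h.symm]) (by simp)]
      simp [hp]
  · obtain ⟨σ, A, hA⟩ := hb g hg
    refine ⟨1, fun u v => ?_⟩
    rw [Units.val_one, one_mul]
    refine (Fintype.sum_equiv (Equiv.prodCongr (Equiv.refl _) σ) _ _ fun p => ?_).symm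
    have hp : p.1 = 0 := Subsingleton.elim _ _
    rw [show (Equiv.prodCongr (Equiv.refl _) σ) p = (p.1, σ p.2) from rfl, repr_adapted b hA, repr_adapted b hA,
      Fin.sum_univ_one, Fin.sum_univ_one, map_mul]
    have h := adapted_det_ne_zero b hA p.2
    rw [Matrix.det_unique] at h
    have hpow := FiniteField.pow_card_sub_one_eq_one _ h
    rw [hq] at hpow
    have e : A p.2 0 0 * σe (A p.2 0 0) = 1 := by
      rw [hσ, ← pow_succ']
      exact hpow
    rw [hp, mul_mul_mul_comm, e, one_mul, ← hp]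

/-- The form attached to a decomposition into planes. -/
noncomputable def planeForm {t : ℕ} (b : Module.Basis (Fin 2 × Fin t) F (ι → F)) (u v : ι → F) : F :=
  ∑ i, (b.repr u (0, i) * b.repr v (1, i) - b.repr u (1, i) * b.repr v (0, i))

omit [Fintype F] in
lemma planeForm_symplectic {t : ℕ} (b : Module.Basis (Fin 2 × Fin t) F (ι → F)) : IsSymplecticForm (planeForm b) := by
  classical
  refine ⟨⟨?_, ?_, ?_, ?_⟩, ?_, ?_, ?_⟩
  · intro x y v; simp only [planeForm, ← Finset.sum_add_distrib, map_add, Finsupp.add_apply]; congr! 1; ring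
  · intro c x v; simp only [planeForm, Finset.mul_sum, map_smul, Finsupp.smul_apply, smul_eq_mul]; congr! 1; ring
  · intro x y v; simp only [planeForm, ← Finset.sum_add_distrib, map_add, Finsupp.add_apply]; congr! 1; ring
  · intro c x v; simp only [planeForm, Finset.mul_sum, map_smul, Finsupp.smul_apply, smul_eq_mul]; congr! 1; ring
  · intro v w; simp only [planeForm, ← Finset.sum_neg_distrib]; congr! 1; ring
  · intro v; exact Finset.sum_eq_zero fun i _ => by ring
  · intro v hv
    obtain ⟨⟨k, i⟩, hp⟩ : ∃ p, b.repr v p ≠ 0 := by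
      by_contra h
      push Not at h
      exact hv (b.repr.map_eq_zero_iff.1 (Finsupp.ext h))
    have hk : k = 0 ∨ k = 1 := by omega
    rcases hk with rfl | rfl
    · refine ⟨⟨b (1, i), ?_⟩, ⟨b (1, i), ?_⟩⟩ <;>
      · rw [planeForm, Finset.sum_eq_single i (fun j _ hj => by simp [Finsupp.single_apply, hj.symm]) (by simp)]
        simp [Finsupp.single_apply, hp]
    · refine ⟨⟨b (0, i), ?_⟩, ⟨b (0, i), ?_⟩⟩ <;>
      · rw [planeForm, Finset.sum_eq_single i (fun j _ hj => by simp [Finsupp.single_apply, hj.symm]) (by simp)]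
        simp [Finsupp.single_apply, hp]

omit [Fintype F] in
lemma planeForm_similarity {t : ℕ} (b : Module.Basis (Fin 2 × Fin t) F (ι → F)) {g : GL ι F}
    {σ : Equiv.Perm (Fin t)} {A : Fin t → Matrix (Fin 2) (Fin 2) F}
    (hA : ∀ p, (g : Matrix ι ι F) *ᵥ b p = ∑ l, A p.2 l p.1 • b (l, σ p.2))
    {d : F} (hd : d ≠ 0) (hdet : ∀ i, (A i).det = d) : g ∈ similarityGroup (planeForm b) := by
  refine ⟨Units.mk0 d hd, fun u v => ?_⟩
  rw [Units.val_mk0, planeForm, planeForm, Finset.mul_sum]
  refine (Fintype.sum_equiv σ _ _ fun i => ?_).symm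
  simp only [repr_adapted b hA, Fin.sum_univ_two]
  rw [← hdet i, Matrix.det_fin_two]
  ring

lemma planes_two {t : ℕ} {D : Fin t → Submodule F (ι → F)} (hD : IsMDecomposition 2 D)
    (hq : Fintype.card F = 2) : InForms (decompositionStabilizer D) := by
  obtain ⟨b, -, hb⟩ := exists_decomp_basis hD
  refine Or.inl ⟨planeForm b, planeForm_symplectic b, fun g hg => ?_⟩
  obtain ⟨σ, A, hA⟩ := hb g hg
  refine planeForm_similarity b hA one_ne_zero fun i => ?_
  have := FiniteField.pow_card_sub_one_eq_one _ (adapted_det_ne_zero b hA i)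
  rw [hq] at this
  simpa using this

lemma planes_three {D : Fin 2 → Submodule F (ι → F)} (hD : IsMDecomposition 2 D)
    (hq : Fintype.card F = 3) : InForms (decompositionStabilizer D ⊓ specialLinear ι F) := by
  classical
  obtain ⟨b, -, hb⟩ := exists_decomp_basis hD
  refine Or.inl ⟨planeForm b, planeForm_symplectic b, fun g hg => ?_⟩
  obtain ⟨σ, A, hA⟩ := hb g hg.1
  have h0 := adapted_det_ne_zero b hA 0
  have h1 := adapted_det_ne_zero b hA 1
  refine planeForm_similarity b hA h0 (Fin.forall_fin_two.2 ⟨rfl, ?_⟩)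
  -- the determinant of g is the product of the two determinants
  let π : Equiv.Perm (Fin 2 × Fin 2) := Equiv.prodCongr (Equiv.refl _) σ
  have hM : LinearMap.toMatrix b b (Matrix.toLin' (g : Matrix ι ι F)) =
      (Matrix.blockDiagonal A).submatrix π.symm id := by
    ext ⟨l, j⟩ ⟨k, i⟩
    rw [LinearMap.toMatrix_apply, Matrix.toLin'_apply, hA]
    simp only [map_sum, map_smul, Module.Basis.repr_self, Finsupp.finsetSum_apply, Finsupp.smul_apply,
      Finsupp.single_apply, smul_eq_mul, Matrix.submatrix_apply, id, Matrix.blockDiagonal_apply, π,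
      Equiv.prodCongr_symm, Equiv.prodCongr_apply, Prod.map, Equiv.refl_symm, Equiv.refl_apply, Prod.mk.injEq]
    by_cases hj : σ i = j
    · subst hj
      simp
    · have : σ.symm j ≠ i := fun e => hj (by rw [← e, Equiv.apply_symm_apply])
      simp [hj, this]
  have hdetg : (A 0).det * (A 1).det = 1 := by
    have hsl : ((Matrix.GeneralLinearGroup.det g : Fˣ) : F) = 1 := by
      have := hg.2
      rw [specialLinear] at this
      rw [MonoidHom.mem_ker.1 this, Units.val_one]
    have hsign : ∀ τ : Equiv.Perm (Fin 2),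
        Equiv.Perm.sign (Equiv.prodCongr (Equiv.refl (Fin 2)) τ).symm = 1 := by decide +kernel
    have h := LinearMap.det_toMatrix b (Matrix.toLin' (g : Matrix ι ι F))
    rw [hM, Matrix.det_permute, hsign, Matrix.det_blockDiagonal, Fin.prod_univ_two, LinearMap.det_toLin'] at h
    simpa using h.trans hsl
  have hsq : (A 1).det ^ 2 = 1 := by
    have := FiniteField.pow_card_sub_one_eq_one _ h1
    rwa [hq] at this
  show (A 1).det = (A 0).det
  calc (A 1).det = (A 0).det * (A 1).det * (A 1).det := by rw [hdetg, one_mul]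
    _ = (A 0).det := by rw [mul_assoc, ← sq, hsq, mul_one]

/-- Over the field of two elements a tensor product with a two-dimensional factor normalises a field of order four. -/
lemma tensor_two {k : ℕ} (hk : 2 ≤ k) (e : ι ≃ Fin 2 × Fin k) (P : GL ι F) (hq : Fintype.card F = 2) :
    ∃ K : Subalgebra F (Matrix ι ι F), IsFieldSubalgebra 2 K ∧
      tensorProductSubgroup 2 k e P ≤ subalgebraNormalizer K := by
  classical
  have : NeZero k := ⟨by omega⟩
  have hc : CharP F 2 := ringChar.of_eq (FiniteField.even_card_iff_char_two.2 (by rw [hq]))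
  have h2 : ∀ x : F, x + x = 0 := CharTwo.add_self_eq_zero
  have h01 : ∀ x : F, x = 0 ∨ x = 1 := fun x => by
    have := FiniteField.pow_card x
    rw [hq] at this
    exact (mul_eq_zero.1 (show x * (x - 1) = 0 by linear_combination this)).imp id sub_eq_zero.1
  let w : Matrix (Fin 2) (Fin 2) F := !![0, 1; 1, 1]
  let L : Matrix (Fin 2) (Fin 2) F →ₐ[F] Matrix ι ι F := (conjHom P).comp (tensL e)
  have hL : Function.Injective L := fun a b hab => tensL_injective e (conj_inj P (by
    simpa only [L, AlgHom.comp_apply, conjHom_apply] using hab))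
  let C : Subalgebra F (Matrix (Fin 2) (Fin 2) F) := Subalgebra.centralizer F {w}
  have hC : ∀ a, a ∈ C ↔ a = a 0 0 • 1 + a 0 1 • w := by
    intro a
    rw [Subalgebra.mem_centralizer_iff]
    simp only [Set.mem_singleton_iff, forall_eq]
    rw [← Matrix.ext_iff, ← Matrix.ext_iff]
    simp [w, Fin.forall_fin_two, Matrix.mul_apply, Fin.sum_univ_two]
    intro h1 h4
    simp [h1, h4]
  have hdim : Module.finrank F C = 2 := by
    let φ : C →ₗ[F] F × F :=
      { toFun := fun a => ((a : Matrix (Fin 2) (Fin 2) F) 0 0, (a : Matrix (Fin 2) (Fin 2) F) 0 1)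
        map_add' := fun a b => rfl, map_smul' := fun c a => rfl }
    have hb : Function.Bijective φ := by
      refine ⟨fun a b hab => Subtype.ext ?_, fun p => ⟨⟨p.1 • 1 + p.2 • w, ?_⟩, ?_⟩⟩
      · have hab1 : (a : Matrix (Fin 2) (Fin 2) F) 0 0 = (b : Matrix (Fin 2) (Fin 2) F) 0 0 := congrArg Prod.fst hab
        have hab2 : (a : Matrix (Fin 2) (Fin 2) F) 0 1 = (b : Matrix (Fin 2) (Fin 2) F) 0 1 := congrArg Prod.snd hab
        rw [(hC _).1 a.2, (hC _).1 b.2, hab1, hab2]
      · rw [hC]; simp [w]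
      · show ((p.1 • 1 + p.2 • w : Matrix (Fin 2) (Fin 2) F) 0 0, (p.1 • 1 + p.2 • w : Matrix (Fin 2) (Fin 2) F) 0 1) = p
        simp [w]
    rw [(LinearEquiv.ofBijective φ hb).finrank_eq, Module.finrank_prod, Module.finrank_self]
  have hconj : ∀ a : GL (Fin 2) F, ∀ x ∈ C,
      (a : Matrix (Fin 2) (Fin 2) F) * x * ((a⁻¹ : GL (Fin 2) F) : Matrix (Fin 2) (Fin 2) F) ∈ C := by
    intro a x hx
    rw [(hC x).1 hx, mul_add, add_mul, mul_smul_comm, smul_mul_assoc, mul_one, Units.mul_inv, mul_smul_comm,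
      smul_mul_assoc]
    refine C.add_mem (C.smul_mem C.one_mem _) (C.smul_mem ?_ _)
    obtain ⟨c, d, hcd⟩ : ∃ c d : F, (a : Matrix (Fin 2) (Fin 2) F) * w = (c • 1 + d • w) * a := by
      have hdet : IsUnit (a : Matrix (Fin 2) (Fin 2) F).det := (Matrix.isUnit_iff_isUnit_det _).1 (Units.isUnit a)
      have hne := hdet.ne_zero
      rw [Matrix.det_fin_two] at hne
      rcases h01 ((a : Matrix (Fin 2) (Fin 2) F) 0 0) with h00 | h00 <;>
        rcases h01 ((a : Matrix (Fin 2) (Fin 2) F) 0 1) with h01' | h01' <;>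
        rcases h01 ((a : Matrix (Fin 2) (Fin 2) F) 1 0) with h10 | h10 <;>
        rcases h01 ((a : Matrix (Fin 2) (Fin 2) F) 1 1) with h11 | h11 <;>
        simp [h00, h01', h10, h11, h2] at hne <;>
        first
        | (refine ⟨0, 1, ?_⟩
           ext i j
           fin_cases i <;> fin_cases j <;> simp [w, Matrix.mul_apply, Fin.sum_univ_two, h00, h01', h10, h11, h2])
          <;> done
        | (refine ⟨1, 1, ?_⟩
           ext i j
           fin_cases i <;> fin_cases j <;> simp [w, Matrix.mul_apply, Fin.sum_univ_two, h00, h01', h10, h11, h2])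
    rw [hcd, mul_assoc, Units.mul_inv, mul_one]
    exact C.add_mem (C.smul_mem C.one_mem _) (C.smul_mem (by rw [hC]; simp [w]) _)
  refine ⟨C.map L, ⟨?_, ?_, ?_⟩, ?_⟩
  · rintro _ ⟨x, hx, rfl⟩ _ ⟨y, hy, rfl⟩
    show L x * L y = L y * L x
    rw [← map_mul, ← map_mul, (hC x).1 hx, (hC y).1 hy]
    simp only [mul_add, add_mul, mul_smul_comm, smul_mul_assoc, mul_one, one_mul, smul_smul]
    congr 1
    module
  · rintro _ ⟨x, hx, rfl⟩ h0
    have hdet : x.det ≠ 0 := by
      intro hd
      apply h0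
      rw [show x = 0 from ?_]
      · exact map_zero L
      have hxe := (hC x).1 hx
      have e10 : x 1 0 = x 0 1 := by have := congrFun (congrFun hxe 1) 0; simpa [w] using this
      have e11 : x 1 1 = x 0 0 + x 0 1 := by have := congrFun (congrFun hxe 1) 1; simpa [w] using this
      rw [Matrix.det_fin_two, e10, e11] at hd
      rcases h01 (x 0 0) with a0 | a0 <;> rcases h01 (x 0 1) with a1 | a1 <;> rw [a0, a1] at hd <;>
        simp [h2] at hd
      ext i j
      fin_cases i <;> fin_cases j <;> simp [a0, a1, e10, e11]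
    have hu : IsUnit x.det := isUnit_iff_ne_zero.2 hdet
    refine ⟨L x⁻¹, ⟨x⁻¹, ?_, rfl⟩, ?_⟩
    · show x⁻¹ ∈ C
      rw [Subalgebra.mem_centralizer_iff]
      rintro _ rfl
      have hxw := (Subalgebra.mem_centralizer_iff F).1 hx w rfl
      calc w * x⁻¹ = x⁻¹ * (x * w) * x⁻¹ := by rw [← mul_assoc, Matrix.nonsing_inv_mul _ hu, one_mul]
        _ = x⁻¹ * w := by rw [← hxw, mul_assoc, mul_assoc, Matrix.mul_nonsing_inv _ hu, mul_one]
    · show L x * L x⁻¹ = 1
      rw [← map_mul, Matrix.mul_nonsing_inv _ hu, map_one]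
  · exact ((Subalgebra.equivMapOfInjective C L hL).toLinearEquiv.finrank_eq).symm.trans hdim
  · refine le_subalgebraNormalizer fun g hg => ?_
    obtain ⟨a, c, hgac⟩ := mem_tensorProductSubgroup_iff.1 hg
    rintro _ ⟨x, hx, rfl⟩
    refine ⟨_, hconj a x hx, ?_⟩
    symm
    rw [Units.mul_inv_eq_iff_eq_mul]
    show _ = _ * (g : Matrix ι ι F)
    simp only [L, AlgHom.coe_toRingHom, AlgHom.comp_apply, tensL_apply, conjHom_apply, hgac]
    simp only [mul_assoc]
    simp only [← mul_assoc ((P⁻¹ : GL ι F) : Matrix ι ι F) (P : Matrix ι ι F), Units.inv_mul, one_mul]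
    simp only [← mul_assoc (tens e _ _) (tens e _ _), tens_mul, one_mul, mul_one]
    rw [mul_assoc, mul_assoc, Units.inv_mul, mul_one]

end

end Cfsg.Agent.H99.Asch
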