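import Cfsg.Agent.H99.Aschbacher.SymplecticDefs
import Cfsg.Agent.H99.Aschbacher.Unitary
import Cfsg.Agent.H2.Form

/-!
The standard symplectic form as form data, and the invariant quadratic forms of characteristic two used to recognise
subgroups of orthogonal similarity groups.
-/

set_option autoImplicit false

open scoped MatrixGroups Matrix Kronecker

namespace Cfsg.Agent.H99.Asch

open Cfsg.Geo

variable {F : Type*} [Field F] [Fintype F]

/-- The matrix of the standard alternating form as a unit. -/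
noncomputable def sympUnit (m : ℕ) (F : Type*) [Field F] : GL (Fin m ⊕ Fin m) F :=
  ((Matrix.isUnit_iff_isUnit_det _).2 (Matrix.isUnit_det_J (Fin m) F)).unit

/-- The standard symplectic form as form data. -/
noncomputable def sympData (m : ℕ) (F : Type*) [Field F] : FormData (Fin m ⊕ Fin m) F where
  σ := RingHom.id F
  invol := fun _ => rfl
  U := sympUnit m F
  ε := -1
  eps_ne := neg_ne_zero.2 one_ne_zero
  herm := by
    show ((Matrix.J (Fin m) F).map (RingHom.id F))ᵀ = (-1 : F) • Matrix.J (Fin m) F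
    rw [RingHom.coe_id, Matrix.map_id, Matrix.J_transpose, neg_smul, one_smul]

lemma sympData_form (m : ℕ) : (sympData m F).form = sympForm m F := rfl

lemma sympData_isom (m : ℕ) : (sympData m F).isom = spGL m F := rfl

lemma map_ringHom_id {κ μ : Type*} (M : Matrix κ μ F) : M.map (RingHom.id F) = M := rfl

lemma sympData_gramAt (m : ℕ) (P : GL (Fin m ⊕ Fin m) F) :
    (sympData m F).gramAt P = (P : Matrix _ _ F)ᵀ * Matrix.J (Fin m) F * (P : Matrix _ _ F) := rfl

lemma sympData_self (m : ℕ) (v : Fin m ⊕ Fin m → F) : (sympData m F).form v v = 0 :=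
  H2.sympForm_self v

lemma sympData_skew (m : ℕ) (u v : Fin m ⊕ Fin m → F) :
    (sympData m F).form u v = -(sympData m F).form v u :=
  H2.sympForm_swap v u

/-- The Gram matrix in any frame has zero diagonal. -/
lemma sympData_gramAt_diag (m : ℕ) (P : GL (Fin m ⊕ Fin m) F) (i : Fin m ⊕ Fin m) :
    (sympData m F).gramAt P i i = 0 := by
  have h := (sympData m F).form_gramAt P (Pi.single i 1) (Pi.single i 1)
  rw [sympData_self] at h
  rw [h, gramForm]
  simp [show (sympData m F).σ = RingHom.id F from rfl]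

lemma card_parity : Odd (Fintype.card F) ∨ (2 : F) = 0 := by
  by_cases h : ringChar F = 2
  · have : CharP F 2 := ringChar.eq_iff.1 h
    exact Or.inr (CharP.cast_eq_zero F 2)
  · exact Or.inl (Nat.odd_iff.2 (FiniteField.odd_card_of_char_ne_two h))

lemma two_ne_zero_of_card_odd (h : Odd (Fintype.card F)) : (2 : F) ≠ 0 := by
  intro h2
  have hr : ringChar F = 2 := by
    have h3 : ringChar F ∣ 2 := ringChar.dvd (by exact_mod_cast h2)
    exact ((Nat.dvd_prime Nat.prime_two).1 h3).resolve_left (CharP.ringChar_ne_one (R := F))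
  have := FiniteField.even_card_of_char_two hr
  rw [Nat.odd_iff] at h
  omega

lemma sign_sq {κ : Type*} {G : Matrix κ κ F} {a : F} (h0 : G ≠ 0) (h : Gᵀ = a • G) : a * a = 1 := by
  have h1 : (1 : F) • G = (a * a) • G := by
    rw [one_smul, mul_smul, ← h, ← Matrix.transpose_smul, ← h, Matrix.transpose_transpose]
  exact (smul_left_injective F h0 h1).symm

lemma transpose_dot {κ : Type*} [Fintype κ] (M : Matrix κ κ F) (u v : κ → F) :
    u ⬝ᵥ (Mᵀ *ᵥ v) = v ⬝ᵥ (M *ᵥ u) := by
  rw [Matrix.dotProduct_mulVec, Matrix.vecMul_transpose, dotProduct_comm]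

lemma quad_mulVec {κ : Type*} [Fintype κ] (M k : Matrix κ κ F) (v : κ → F) :
    (k *ᵥ v) ⬝ᵥ (M *ᵥ (k *ᵥ v)) = v ⬝ᵥ ((kᵀ * M * k) *ᵥ v) := by
  rw [← Matrix.mulVec_mulVec, ← Matrix.mulVec_mulVec, Matrix.dotProduct_mulVec v kᵀ,
    Matrix.vecMul_transpose]

variable {m : ℕ} {H : Subgroup (GL (Fin m ⊕ Fin m) F)}

/-- An invariant quadratic form whose polar form is the alternating form. -/
theorem orth_of_matrix (h2 : (2 : F) = 0) (M : Matrix (Fin m ⊕ Fin m) (Fin m ⊕ Fin m) F)
    (hM : M + Mᵀ = Matrix.J (Fin m) F)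
    (hinv : ∀ h ∈ H, ∀ v, ((h : Matrix _ _ F) *ᵥ v) ⬝ᵥ (M *ᵥ ((h : Matrix _ _ F) *ᵥ v)) = v ⬝ᵥ (M *ᵥ v)) :
    SymplecticCase m H := by
  have hpol : ∀ u v, QuadraticMap.polar (fun v => v ⬝ᵥ (M *ᵥ v)) u v = sympForm m F u v := by
    intro u v
    show _ = u ⬝ᵥ (Matrix.J (Fin m) F *ᵥ v)
    rw [← hM, Matrix.add_mulVec, dotProduct_add, transpose_dot]
    simp only [QuadraticMap.polar, Matrix.mulVec_add, dotProduct_add, add_dotProduct]
    abel
  have hpol' : QuadraticMap.polar (fun v => v ⬝ᵥ (M *ᵥ v)) = (sympData m F).form :=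
    funext fun u => funext fun v => hpol u v
  have hnodd : ¬ Odd (Fintype.card F) := fun h => two_ne_zero_of_card_odd h h2
  refine .orthogonal _ hnodd ⟨fun c v => ?_, ?_, ?_⟩ hpol fun h hh => ⟨1, fun v => ?_⟩
  · simp only [Matrix.mulVec_smul, dotProduct_smul, smul_dotProduct, smul_eq_mul]
    ring
  · rw [hpol']
    exact ⟨(sympData m F).form_add_left, (sympData m F).form_smul_left, (sympData m F).form_add_right,
      (sympData m F).form_smul_right⟩
  · rw [hpol']
    exact (sympData m F).nondegenerate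
  · rw [Units.val_one, one_mul]
    exact hinv h hh v

/-- An invariant quadratic form given in a frame. -/
theorem orth_of_frame (hH : H ≤ spGL m F) (h2 : (2 : F) = 0) (P : GL (Fin m ⊕ Fin m) F)
    (M : Matrix (Fin m ⊕ Fin m) (Fin m ⊕ Fin m) F) (hM : M + Mᵀ = (sympData m F).gramAt P)
    (hd : ∀ i, M i i = 0)
    (hcol : ∀ h ∈ H, ∀ i : Fin m ⊕ Fin m,
      (((P⁻¹ * h * P : GL (Fin m ⊕ Fin m) F) : Matrix (Fin m ⊕ Fin m) (Fin m ⊕ Fin m) F)ᵀ * M *
        ((P⁻¹ * h * P : GL (Fin m ⊕ Fin m) F) : Matrix (Fin m ⊕ Fin m) (Fin m ⊕ Fin m) F)) i i = 0) :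
    SymplecticCase m H := by
  let Pi' : Matrix (Fin m ⊕ Fin m) (Fin m ⊕ Fin m) F := ((P⁻¹ : GL _ F) : Matrix _ _ F)
  have hPP : (P : Matrix _ _ F) * Pi' = 1 := by rw [← Units.val_mul, mul_inv_cancel, Units.val_one]
  refine orth_of_matrix h2 (Pi'ᵀ * M * Pi') ?_ fun h hh v => ?_
  · rw [show (Pi'ᵀ * M * Pi')ᵀ = Pi'ᵀ * Mᵀ * Pi' by simp [mul_assoc], ← add_mul, ← mul_add, hM, sympData_gramAt]
    calc Pi'ᵀ * ((P : Matrix _ _ F)ᵀ * Matrix.J (Fin m) F * (P : Matrix _ _ F)) * Pi'
        = ((P : Matrix _ _ F) * Pi')ᵀ * Matrix.J (Fin m) F * ((P : Matrix _ _ F) * Pi') := by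
          simp only [Matrix.transpose_mul, mul_assoc]
      _ = _ := by rw [hPP, Matrix.transpose_one, one_mul, mul_one]
  · set k : GL (Fin m ⊕ Fin m) F := P⁻¹ * h * P with hk
    let km : Matrix (Fin m ⊕ Fin m) (Fin m ⊕ Fin m) F := (k : Matrix _ _ F)
    have e : Pi' *ᵥ ((h : Matrix _ _ F) *ᵥ v) = km *ᵥ (Pi' *ᵥ v) := by
      rw [Matrix.mulVec_mulVec, Matrix.mulVec_mulVec, ← Units.val_mul, ← Units.val_mul, hk]
      simp [mul_assoc]
    have hgram : kmᵀ * (sympData m F).gramAt P * km = (sympData m F).gramAt P := by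
      have h3 := FormData.gramAt_mul (sympData m F) P k
      rw [show P * k = h * P by rw [hk]; simp [mul_assoc]] at h3
      refine h3.symm.trans (eq_of_gramForm_eq (sympData m F).σ fun u v => ?_)
      rw [← FormData.form_gramAt, ← FormData.form_gramAt, Units.val_mul, ← Matrix.mulVec_mulVec,
        ← Matrix.mulVec_mulVec]
      exact hH hh _ _
    rw [← quad_mulVec, ← quad_mulVec, e, quad_mulVec]
    rw [← sub_eq_zero, ← dotProduct_sub, ← Matrix.sub_mulVec]
    refine quad_eq_zero h2 ?_ (fun i => ?_) _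
    · have h1 : (kmᵀ * M * km - M) + (kmᵀ * M * km - M)ᵀ = 0 := by
        have e1 : (kmᵀ * M * km)ᵀ = kmᵀ * Mᵀ * km := by simp [mul_assoc]
        rw [Matrix.transpose_sub, e1, sub_add_sub_comm, ← add_mul, ← mul_add, hM, hgram, sub_self]
      refine Matrix.ext fun i j => ?_
      have h4 := congrFun (congrFun h1 i) j
      rw [Matrix.add_apply, Matrix.zero_apply] at h4
      linear_combination h4 - (kmᵀ * M * km - M) i j * h2
    · rw [Matrix.sub_apply, hcol h hh i, hd, sub_zero]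

end Cfsg.Agent.H99.Asch
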