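import Cfsg.Agent.H99.Aschbacher.FormTools
import Cfsg.Agent.H99.Aschbacher.Maximal

/-!
The alternatives for a subgroup of the symplectic group, with the data of the classes.
-/

set_option autoImplicit false

open scoped MatrixGroups Matrix

namespace Cfsg.Agent.H99.Asch

open Cfsg.Geo

variable {F : Type*} [Field F] [Fintype F]

/-- The alternatives for a subgroup H of spGL m F. -/
inductive SymplecticCase (m : ℕ) (H : Subgroup (GL (Fin m ⊕ Fin m) F)) : Prop
  | singular (W : Submodule F (Fin m ⊕ Fin m → F)) (hW : W ≠ ⊥) (hts : IsTotallySingularFor (sympForm m F) W)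
      (hle : H ≤ subspaceStabilizer W)
  | nondeg (W : Submodule F (Fin m ⊕ Fin m → F)) (hW : W ≠ ⊥) (hnd : IsNondegenerateOn (sympForm m F) W)
      (hdim : Module.finrank F W < m) (hle : H ≤ subspaceStabilizer W)
  | decomp (t k : ℕ) (V : Fin t → Submodule F (Fin m ⊕ Fin m → F))
      (hV : IsNondegenerateMDecomposition (sympForm m F) k V) (htk : t * k = m + m)
      (hle : H ≤ decompositionStabilizer V)
  | halves (V : Fin 2 → Submodule F (Fin m ⊕ Fin m → F)) (hq : Odd (Fintype.card F)) (hV : IsMDecomposition m V)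
      (hts : ∀ i, IsTotallySingularFor (sympForm m F) (V i)) (hirr : ActsIrreducibly (matrixSet H))
      (hle : H ≤ decompositionStabilizer V)
  | fieldSelf (r : ℕ) (K : Subalgebra F (Matrix (Fin m ⊕ Fin m) (Fin m ⊕ Fin m) F)) (hr : r.Prime) (hrm : r ∣ m)
      (hK : IsFieldSubalgebra r K) (hself : IsSelfAdjointFor (sympForm m F) K)
      (halt : ∀ k ∈ K, ∀ v, sympForm m F (k *ᵥ v) v = 0)
      (hirr : ActsIrreducibly (matrixSet H)) (hle : H ≤ subalgebraNormalizer K)
  | fieldUnitary (K : Subalgebra F (Matrix (Fin m ⊕ Fin m) (Fin m ⊕ Fin m) F)) (hq : Odd (Fintype.card F))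
      (hK : IsFieldSubalgebra 2 K) (hadj : IsAdjointClosedFor (sympForm m F) K)
      (hnself : ¬ IsSelfAdjointFor (sympForm m F) K)
      (hirr : ActsIrreducibly (matrixSet H)) (hle : H ≤ subalgebraNormalizer K)
  | tensor (n₁ n₂ : ℕ) (e : (Fin m ⊕ Fin m) ≃ Fin n₁ × Fin n₂) (P : GL (Fin m ⊕ Fin m) F)
      (f₁ : (Fin n₁ → F) → (Fin n₁ → F) → F) (f₂ : (Fin n₂ → F) → (Fin n₂ → F) → F)
      (hq : Odd (Fintype.card F)) (h1 : 2 ≤ n₁) (h2 : 3 ≤ n₂) (hev : Even n₁) (hf₁ : IsSymplecticForm f₁)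
      (hf₂ : IsSymmetricForm f₂) (hform : IsTensorFormStructure id (sympForm m F) f₁ f₂ e P)
      (hirr : ActsIrreducibly (matrixSet H)) (hle : H ≤ tensorProductSubgroup n₁ n₂ e P)
  | subfield (F₀ : Subfield F) (r : ℕ) (P : GL (Fin m ⊕ Fin m) F) (ζ : F) (hr : r.Prime)
      (hc : Fintype.card F = Nat.card F₀ ^ r) (hζ : ζ ≠ 0) (hf : IsFormRationalStructure (sympForm m F) F₀ ζ P)
      (hirr : ActsIrreducibly (matrixSet H)) (hle : H ≤ subfieldSubgroup F₀ P)
  | typeTwo (R : Subgroup (GL (Fin m ⊕ Fin m) F)) (p k : ℕ) (hR : IsSymplecticTypeGroup 2 R)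
      (habs : ActsAbsolutelyIrreducibly (matrixSet R)) (hsim : R ≤ similarityGroup (sympForm m F)) (hp : p.Prime)
      (hodd : Odd p) (hc : Fintype.card F = p) (hn : m + m = 2 ^ k) (hcard : Nat.card R = 2 ^ (1 + 2 * k))
      (hz : Nat.card (Subgroup.center R) = 2) (hminus : IsOfMinusType k R)
      (hirr : ActsIrreducibly (matrixSet H)) (hle : H ≤ subgroupNormalizer R)
  | orthogonal (Q : (Fin m ⊕ Fin m → F) → F) (hq : ¬ Odd (Fintype.card F)) (hQ : IsNondegenerateQuadraticForm Q)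
      (hpol : ∀ u v, QuadraticMap.polar Q u v = sympForm m F u v) (hle : H ≤ quadSimilarityGroup Q)
  | tensorPower (k t : ℕ) (e : (Fin m ⊕ Fin m) ≃ (Fin t → Fin k)) (P : GL (Fin m ⊕ Fin m) F)
      (f₁ : (Fin k → F) → (Fin k → F) → F) (hq : Odd (Fintype.card F)) (ht : Odd t) (ht3 : 3 ≤ t)
      (hk : 2 ≤ k) (hex : ¬ (Fintype.card F = 3 ∧ k = 2)) (hf₁ : IsSymplecticForm f₁)
      (hform : IsTensorPowerFormStructure id (sympForm m F) f₁ e P)
      (hirr : ActsIrreducibly (matrixSet H)) (hle : H ≤ tensorWreathSubgroup k t e P)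
  | residual (hres : InSymplecticResidualClass H) (hirr : ActsIrreducibly (matrixSet H))

end Cfsg.Agent.H99.Asch
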