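import Cfsg.Agent.H99.Aschbacher.SymplecticBase
import Cfsg.Agent.H99.Aschbacher.MinusType

/-!
The symplectic meaning of the alternatives given by idempotents, fields, subfields, groups of symplectic type, and
of the residual alternative.
-/

set_option autoImplicit false

open scoped MatrixGroups Matrix Kronecker

namespace Cfsg.Agent.H99.Asch

open Cfsg.Geo

variable {F : Type*} [Field F] [Fintype F] {m : ℕ} {H : Subgroup (GL (Fin m ⊕ Fin m) F)}

/-- An element p with adj p = 1 - p whose conjugates give the same quadratic form (char 2). -/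
theorem orth_of_half (h2 : (2 : F) = 0) (hH : H ≤ spGL m F) {p : Matrix (Fin m ⊕ Fin m) (Fin m ⊕ Fin m) F}
    (hadj : (sympData m F).adj p = 1 - p)
    (hinv : ∀ h ∈ H, ∀ v, (sympData m F).form (conjHom h p *ᵥ v) v = (sympData m F).form (p *ᵥ v) v) :
    SymplecticCase m H := by
  let D := sympData m F
  have hpJ : pᵀ * Matrix.J (Fin m) F = Matrix.J (Fin m) F * (1 - p) := by
    rw [← hadj]; exact D.transpose_mul_U p
  refine orth_of_matrix h2 (pᵀ * Matrix.J (Fin m) F) ?_ fun h hh v => ?_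
  · rw [Matrix.transpose_mul, Matrix.transpose_transpose, Matrix.J_transpose, hpJ, neg_mul, mul_sub, mul_one,
      ← sub_eq_add_neg, sub_sub, ← two_smul F, h2, zero_smul, sub_zero]
  · have hq : ∀ w, w ⬝ᵥ ((pᵀ * Matrix.J (Fin m) F) *ᵥ w) = D.form (p *ᵥ w) w := fun w => by
      rw [← Matrix.mulVec_mulVec, Matrix.dotProduct_mulVec w pᵀ, Matrix.vecMul_transpose]
      rfl
    have e : conjHom h⁻¹ p *ᵥ v =
        ((h⁻¹ : GL (Fin m ⊕ Fin m) F) : Matrix (Fin m ⊕ Fin m) (Fin m ⊕ Fin m) F) *ᵥ (p *ᵥ ((h : Matrix (Fin m ⊕ Fin m) (Fin m ⊕ Fin m) F) *ᵥ v)) := by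
      rw [conjHom_apply, inv_inv]
      simp only [Matrix.mulVec_mulVec, mul_assoc]
    have e2 : ((h⁻¹ : GL (Fin m ⊕ Fin m) F) : Matrix (Fin m ⊕ Fin m) (Fin m ⊕ Fin m) F) *ᵥ ((h : Matrix (Fin m ⊕ Fin m) (Fin m ⊕ Fin m) F) *ᵥ v) = v := by
      rw [Matrix.mulVec_mulVec, ← Units.val_mul, inv_mul_cancel, Units.val_one, Matrix.one_mulVec]
    rw [hq, hq, ← hinv h⁻¹ (inv_mem hh) v, e]
    refine (hH (inv_mem hh) (p *ᵥ ((h : Matrix (Fin m ⊕ Fin m) (Fin m ⊕ Fin m) F) *ᵥ v)) ((h : Matrix (Fin m ⊕ Fin m) (Fin m ⊕ Fin m) F) *ᵥ v)).symm.trans ?_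
    show D.form (((h⁻¹ : GL (Fin m ⊕ Fin m) F) : Matrix (Fin m ⊕ Fin m) (Fin m ⊕ Fin m) F) *ᵥ (p *ᵥ ((h : Matrix (Fin m ⊕ Fin m) (Fin m ⊕ Fin m) F) *ᵥ v))) (((h⁻¹ : GL (Fin m ⊕ Fin m) F) : Matrix (Fin m ⊕ Fin m) (Fin m ⊕ Fin m) F) *ᵥ ((h : Matrix (Fin m ⊕ Fin m) (Fin m ⊕ Fin m) F) *ᵥ v)) = _
    rw [e2]

/-- Two halves swapped by H. -/
theorem symplectic_halves (hm : 0 < m) (hH : H ≤ spGL m F) (hirr : ActsIrreducibly (matrixSet H))
    (h : InFormHalves (sympData m F) H) : SymplecticCase m H := by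
  rcases card_parity (F := F) with hq | h2
  · have : Nonempty (Fin m ⊕ Fin m) := ⟨Sum.inl ⟨0, hm⟩⟩
    obtain ⟨k, V, hk, hV, hts, hle⟩ := halves_decomposition (sympData m F) hirr h
    obtain rfl : k = m := by simp at hk; omega
    exact .halves V hq hV hts hirr hle
  · obtain ⟨p, -, hadj, hp⟩ := h
    refine orth_of_half h2 hH hadj fun x hx v => ?_
    rcases hp x hx with e | e <;> rw [e]
    rw [Matrix.sub_mulVec, Matrix.one_mulVec, sub_eq_add_neg, FormData.form_add_left, sympData_self, zero_add,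
      ← neg_one_smul F (p *ᵥ v), FormData.form_smul_left]
    linear_combination -(sympData m F).form (p *ᵥ v) v * h2

/-- A self-adjoint field of degree two, all of whose elements have f(kv, v) = 0, forces m to be even. -/
lemma two_dvd_of_selfAdjoint {L : Subalgebra F (Matrix (Fin m ⊕ Fin m) (Fin m ⊕ Fin m) F)}
    (hL : IsFieldSubalgebra 2 L) (hself : ∀ k ∈ L, (sympData m F).adj k = k)
    (halt : ∀ k ∈ L, ∀ v, sympForm m F (k *ᵥ v) v = 0) : 2 ∣ m := by
  classical
  let D := sympData m F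
  let P : Submodule F (Fin m ⊕ Fin m → F) → Prop := fun W =>
    IsTotallySingularFor D.form W ∧ ∀ k ∈ L, ∀ w ∈ W, k *ᵥ w ∈ W
  have hbot : P ⊥ := ⟨fun u hu v _ => by rw [Submodule.mem_bot] at hu; rw [hu, D.form_zero_left],
    fun k _ w hw => by rw [Submodule.mem_bot] at hw ⊢; rw [hw, Matrix.mulVec_zero]⟩
  have : Finite (Submodule F (Fin m ⊕ Fin m → F)) := Finite.of_injective _ SetLike.coe_injective
  have : Nonempty {W // P W} := ⟨⟨⊥, hbot⟩⟩
  obtain ⟨⟨W, hts, hinv⟩, hmax⟩ := Finite.exists_max fun W : {W // P W} => Module.finrank F W.1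
  have hperp : D.perp W ≤ W := by
    intro v hv
    let E : Matrix (Fin m ⊕ Fin m) (Fin m ⊕ Fin m) F →ₗ[F] (Fin m ⊕ Fin m → F) :=
      { toFun := fun M => M *ᵥ v
        map_add' := fun M N => Matrix.add_mulVec _ _ _
        map_smul' := fun c M => Matrix.smul_mulVec _ _ _ }
    let X := Submodule.map E L.toSubmodule
    have hX : ∀ x ∈ X, ∃ k ∈ L, k *ᵥ v = x := fun x hx => hx
    have hwx : ∀ w ∈ W, ∀ x ∈ X, D.form w x = 0 := fun w hw x hx => by
      obtain ⟨k, hk, rfl⟩ := hX x hx
      rw [← hself k hk, ← D.form_adj, D.form_eq_zero_comm]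
      exact hv _ (hinv k hk w hw)
    have hxx : ∀ x ∈ X, ∀ y ∈ X, D.form x y = 0 := fun x hx y hy => by
      obtain ⟨k, hk, rfl⟩ := hX x hx
      obtain ⟨l, hl, rfl⟩ := hX y hy
      rw [← hself l hl, ← D.form_adj, Matrix.mulVec_mulVec]
      exact halt _ (L.mul_mem hl hk) v
    have hP : P (W ⊔ X) := by
      constructor
      · intro a ha b hb
        obtain ⟨a1, ha1, a2, ha2, rfl⟩ := Submodule.mem_sup.1 ha
        obtain ⟨b1, hb1, b2, hb2, rfl⟩ := Submodule.mem_sup.1 hb
        rw [D.form_add_left, D.form_add_right, D.form_add_right, hts a1 ha1 b1 hb1, hwx a1 ha1 b2 hb2,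
          D.form_eq_zero_comm.1 (hwx b1 hb1 a2 ha2), hxx a2 ha2 b2 hb2]
        simp
      · intro k hk a ha
        obtain ⟨a1, ha1, a2, ha2, rfl⟩ := Submodule.mem_sup.1 ha
        obtain ⟨l, hl, rfl⟩ := hX a2 ha2
        rw [Matrix.mulVec_add, Matrix.mulVec_mulVec]
        exact Submodule.add_mem_sup (hinv k hk a1 ha1) ⟨k * l, L.mul_mem hk hl, rfl⟩
    have he : W = W ⊔ X := Submodule.eq_of_le_of_finrank_le le_sup_left (hmax ⟨W ⊔ X, hP⟩)
    rw [he]
    exact Submodule.mem_sup_right ⟨1, L.one_mem, Matrix.one_mulVec v⟩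
  have h1 := D.card_le_finrank_add_perp W
  have h3 := Submodule.finrank_mono hperp
  simp only [Fintype.card_sum, Fintype.card_fin] at h1
  have h4 : Module.finrank F W ≤ m := by
    have e := LinearMap.BilinForm.finrank_orthogonal (H2.sympBilin_nondegenerate m F)
      W
    have hle : W ≤ (H2.sympBilin m F).orthogonal W := fun w hw u hu => by
      show H2.sympBilin m F u w = 0
      rw [H2.sympBilin_apply]
      exact hts u hu w hw
    have := Submodule.finrank_mono hle
    rw [e] at this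
    simp only [Module.finrank_fintype_fun_eq_card, Fintype.card_sum, Fintype.card_fin] at this
    omega
  rcases Nat.eq_zero_or_pos m with hm0 | hm0
  · rw [hm0]; exact dvd_zero 2
  have : Nonempty (Fin m ⊕ Fin m) := ⟨Sum.inl ⟨0, hm0⟩⟩
  have : Nontrivial L := ⟨⟨0, 1, fun e => zero_ne_one (congrArg Subtype.val e)⟩⟩
  have hF : IsField L :=
    { exists_pair_ne := exists_pair_ne _
      mul_comm := fun a b => Subtype.ext (hL.comm a a.2 b b.2)
      mul_inv_cancel := fun {a} ha => by
        obtain ⟨y, hy, hxy⟩ := hL.inv a a.2 (fun e => ha (Subtype.ext e))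
        exact ⟨⟨y, hy⟩, Subtype.ext hxy⟩ }
  let _ : Field L := hF.toField
  let _ : Module L (Fin m ⊕ Fin m → F) :=
    Module.compHom _ ((Matrix.toLinAlgEquiv' :
      Matrix (Fin m ⊕ Fin m) (Fin m ⊕ Fin m) F ≃ₐ[F] _).toAlgHom.comp L.val).toRingHom
  have hST : IsScalarTower F L (Fin m ⊕ Fin m → F) := ⟨fun c k v => by
    show Matrix.toLin' ((c • k : L) : Matrix (Fin m ⊕ Fin m) (Fin m ⊕ Fin m) F) v = c • Matrix.toLin' (k : Matrix (Fin m ⊕ Fin m) (Fin m ⊕ Fin m) F) v
    rw [Subalgebra.coe_smul, map_smul, LinearMap.smul_apply]⟩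
  let W' : Submodule L (Fin m ⊕ Fin m → F) :=
    { W.toAddSubmonoid with smul_mem' := fun k w hw => hinv k.1 k.2 w hw }
  have e' : Module.finrank F W' = Module.finrank F W := LinearEquiv.finrank_eq
    { toFun := fun x => ⟨x.1, x.2⟩
      invFun := fun x => ⟨x.1, x.2⟩
      map_add' := fun _ _ => rfl
      map_smul' := fun _ _ => rfl
      left_inv := fun _ => rfl
      right_inv := fun _ => rfl }
  have : IsScalarTower F L W' := ⟨fun c k w => Subtype.ext (smul_assoc c k (w : Fin m ⊕ Fin m → F))⟩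
  have h5 := Module.finrank_mul_finrank F L W'
  rw [hL.finrank_eq, e'] at h5
  exact ⟨Module.finrank L W', by omega⟩

/-- A normalised adjoint-closed field. -/
theorem symplectic_field {N : Subgroup (GL (Fin m ⊕ Fin m) F)} (hm : 0 < m) (hH : H ≤ spGL m F)
    (hirr : ActsIrreducibly (matrixSet H)) (h : InFormField (sympData m F) H N) : SymplecticCase m H := by
  classical
  let D := sympData m F
  have : Nonempty (Fin m ⊕ Fin m) := ⟨Sum.inl ⟨0, hm⟩⟩
  obtain ⟨d, hd, hK, hKa, hKn⟩ := h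
  obtain ⟨r, L, hr, -, hrn, hL, hLa, hLn⟩ := exists_prime_field_adj D hK hd hKa hKn
  by_cases hself : ∀ k ∈ L, D.adj k = k
  · have hsk : ∀ k ∈ L, ∀ u v, D.form (k *ᵥ u) v = D.form u (k *ᵥ v) := fun k hk u v => by
      rw [D.form_adj, hself k hk]
    have halt : ∀ k ∈ L, ∀ v, sympForm m F (k *ᵥ v) v = 0 := by
      intro k hk v
      show D.form (k *ᵥ v) v = 0
      rcases card_parity (F := F) with hq | h2
      · have h1 := sympData_skew m (k *ᵥ v) v
        rw [← hsk k hk v v] at h1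
        exact (mul_eq_zero.1 (show (2 : F) * D.form (k *ᵥ v) v = 0 by linear_combination h1)).resolve_left
          (two_ne_zero_of_card_odd hq)
      · have : Nontrivial L := ⟨⟨0, 1, fun e => zero_ne_one (congrArg Subtype.val e)⟩⟩
        have hF : IsField L :=
          { exists_pair_ne := exists_pair_ne _
            mul_comm := fun a b => Subtype.ext (hL.comm a a.2 b b.2)
            mul_inv_cancel := fun {a} ha => by
              obtain ⟨y, hy, hxy⟩ := hL.inv a a.2 (fun e => ha (Subtype.ext e))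
              exact ⟨⟨y, hy⟩, Subtype.ext hxy⟩ }
        let _ : Field L := hF.toField
        have : CharP L 2 := CharTwo.of_one_ne_zero_of_two_eq_zero one_ne_zero (Subtype.ext (by
          show (2 : Matrix (Fin m ⊕ Fin m) (Fin m ⊕ Fin m) F) = 0
          rw [← map_ofNat (algebraMap F _) 2, h2, map_zero]))
        obtain ⟨s, hs⟩ := FiniteField.isSquare_of_char_two (ringChar.eq_iff.2 this) (⟨k, hk⟩ : L)
        rw [show k = (s : Matrix (Fin m ⊕ Fin m) (Fin m ⊕ Fin m) F) * (s : Matrix (Fin m ⊕ Fin m) (Fin m ⊕ Fin m) F) from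
          congrArg Subtype.val hs, ← Matrix.mulVec_mulVec, hsk _ s.2]
        exact sympData_self m _
    refine .fieldSelf r L hr ?_ hL hsk halt hirr (le_subalgebraNormalizer hLn)
    rcases hr.eq_two_or_odd' with rfl | hodd
    · exact two_dvd_of_selfAdjoint hL hself halt
    · simp only [Fintype.card_sum, Fintype.card_fin, ← two_mul] at hrn
      exact (Nat.Coprime.dvd_of_dvd_mul_left (Nat.coprime_two_right.2 hodd) hrn)
  push Not at hself
  obtain ⟨a, haL, ha⟩ := hself
  -- the fixed elements of the adjoint on L are the scalars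
  have hfix : r = 2 ∧ ∀ k ∈ L, D.adj k = k → ∃ c : F, k = c • 1 := by
    have : Nontrivial L := ⟨⟨0, 1, fun e => zero_ne_one (congrArg Subtype.val e)⟩⟩
    have hF : IsField L :=
      { exists_pair_ne := exists_pair_ne _
        mul_comm := fun a b => Subtype.ext (hL.comm a a.2 b b.2)
        mul_inv_cancel := fun {a} ha => by
          obtain ⟨y, hy, hxy⟩ := hL.inv a a.2 (fun e => ha (Subtype.ext e))
          exact ⟨⟨y, hy⟩, Subtype.ext hxy⟩ }
    let _ : Field L := hF.toField
    let _ : Fintype L := Fintype.ofFinite L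
    let τ : L →+* L :=
      { toFun := fun x => ⟨D.adj x, hLa _ x.2⟩
        map_one' := Subtype.ext D.adj_one
        map_mul' := fun x y => Subtype.ext (by
          show D.adj ((x : Matrix (Fin m ⊕ Fin m) (Fin m ⊕ Fin m) F) * y) = D.adj x * D.adj y
          rw [hL.comm x x.2 y y.2, D.adj_mul])
        map_zero' := Subtype.ext D.adj_zero
        map_add' := fun x y => Subtype.ext (D.adj_add _ _) }
    have hne : τ ≠ RingHom.id L := fun e => ha (congrArg Subtype.val (RingHom.congr_fun e ⟨a, haL⟩))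
    obtain ⟨K', hK', hcard⟩ := card_eq_sq_fixed τ (fun x => Subtype.ext (D.adj_adj _)) hne
    let S : Submodule F L :=
      { carrier := {x | τ x = x}
        add_mem' := fun {x y} hx hy => by
          show τ (x + y) = x + y
          rw [map_add, hx, hy]
        zero_mem' := map_zero τ
        smul_mem' := fun c x hx => Subtype.ext (by
          show D.adj (c • (x : Matrix (Fin m ⊕ Fin m) (Fin m ⊕ Fin m) F)) = c • (x : Matrix (Fin m ⊕ Fin m) (Fin m ⊕ Fin m) F)
          rw [D.adj_smul, show D.adj x = x from congrArg Subtype.val hx]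
          rfl) }
    have hKS : Nat.card K' = Nat.card S :=
      Nat.card_congr
        { toFun := fun x => ⟨x.1, (hK' x.1).1 x.2⟩
          invFun := fun x => ⟨x.1, (hK' x.1).2 x.2⟩
          left_inv := fun _ => rfl
          right_inv := fun _ => rfl }
    rw [← Nat.card_eq_fintype_card, Module.natCard_eq_pow_finrank (K := F), hKS,
      Module.natCard_eq_pow_finrank (K := F) (V := S), hL.finrank_eq, ← pow_mul] at hcard
    have hj := Nat.pow_right_injective (Finite.one_lt_card (α := F)) hcard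
    have hr2 : r = 2 := ((Nat.prime_dvd_prime_iff_eq Nat.prime_two hr).1 ⟨_, by rw [hj]; ring⟩).symm
    refine ⟨hr2, fun k hk hkk => ?_⟩
    have hS1 : Module.finrank F S = 1 := by omega
    have h1S : (1 : L) ∈ S := map_one τ
    obtain ⟨c, hc⟩ := exists_smul_eq_of_finrank_eq_one hS1 (x := ⟨1, h1S⟩)
      (fun e => one_ne_zero (congrArg Subtype.val e)) ⟨⟨k, hk⟩, Subtype.ext hkk⟩
    exact ⟨c, (congrArg (fun x : S => ((x.1 : L) : Matrix (Fin m ⊕ Fin m) (Fin m ⊕ Fin m) F)) hc).symm⟩
  obtain ⟨rfl, hfix⟩ := hfix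
  rcases card_parity (F := F) with hq | h2
  · refine .fieldUnitary L hq hL (D.isAdjointClosedFor hLa) (fun hs => ha ?_) hirr (le_subalgebraNormalizer hLn)
    refine Matrix.toLin'.injective (LinearMap.ext fun v => ?_)
    rw [Matrix.toLin'_apply, Matrix.toLin'_apply]
    by_contra hne
    obtain ⟨⟨u, hu⟩, -⟩ := D.nondegenerate _ (sub_ne_zero.2 hne)
    apply hu
    rw [sub_eq_add_neg, D.form_add_right, ← D.form_adj, ← neg_one_smul F (a *ᵥ v), D.form_smul_right]
    rw [show D.form (a *ᵥ u) v = D.form u (a *ᵥ v) from hs a haL u v]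
    show _ + (-1 : F) * _ = 0
    ring
  · have hneg : ∀ M : Matrix (Fin m ⊕ Fin m) (Fin m ⊕ Fin m) F, -M = M := fun M => by
      rw [neg_eq_iff_add_eq_zero, ← two_smul F, h2, zero_smul]
    have hb : a + D.adj a ≠ 0 := fun e => ha (by rw [eq_neg_of_add_eq_zero_right e, hneg])
    have hbL : a + D.adj a ∈ L := L.add_mem haL (hLa a haL)
    obtain ⟨c, hc⟩ := hfix _ hbL (by rw [D.adj_add, D.adj_adj, add_comm])
    have hc0 : c ≠ 0 := fun e => hb (by rw [hc, e, zero_smul])
    let p := c⁻¹ • a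
    have hp : D.adj p = 1 - p := by
      rw [eq_sub_iff_add_eq, add_comm, D.adj_smul]
      show c⁻¹ • a + c⁻¹ • D.adj a = 1
      rw [← smul_add, hc, smul_smul, inv_mul_cancel₀ hc0, one_smul]
    refine orth_of_half h2 hH hp fun x hx v => ?_
    have hpL : p ∈ L := L.smul_mem haL _
    have hμL : conjHom x p ∈ L := hLn x hx p hpL
    have hμ : D.adj (conjHom x p) = 1 - conjHom x p := by
      rw [D.adj_conj (hH hx), hp, map_sub, map_one]
    obtain ⟨e, he⟩ := hfix _ (L.sub_mem hμL hpL) (by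
      rw [D.adj_sub, hμ, hp, sub_sub_sub_cancel_left, ← neg_sub, hneg])
    rw [show conjHom x p = e • 1 + p from sub_eq_iff_eq_add.1 he, Matrix.add_mulVec, Matrix.smul_mulVec,
      Matrix.one_mulVec, D.form_add_left, D.form_smul_left, sympData_self, mul_zero, zero_add]

/-- An element X with X² = d, adj X = -X, sent to ± itself by H, in odd characteristic. -/
theorem quadratic_structure (hm : 0 < m) (hH : H ≤ spGL m F) (hirr : ActsIrreducibly (matrixSet H))
    (hq : Odd (Fintype.card F)) {X : Matrix (Fin m ⊕ Fin m) (Fin m ⊕ Fin m) F} {d : F} (hd : d ≠ 0)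
    (hX : X * X = d • 1) (hadj : (sympData m F).adj X = -X)
    (hconj : ∀ h ∈ H, conjHom h X = X ∨ conjHom h X = -X) : SymplecticCase m H := by
  classical
  let D := sympData m F
  have h2 := two_ne_zero_of_card_odd hq
  have : Nonempty (Fin m ⊕ Fin m) := ⟨Sum.inl ⟨0, hm⟩⟩
  by_cases hsq : ∃ s : F, s * s = d
  · obtain ⟨s, hs⟩ := hsq
    have hs0 : s ≠ 0 := fun e => hd (by rw [← hs, e, zero_mul])
    let p := (2 : F)⁻¹ • (1 + s⁻¹ • X)
    refine symplectic_halves hm hH hirr ⟨p, ?_, ?_, fun x hx => ?_⟩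
    · simp only [p, smul_mul_assoc, mul_smul_comm, add_mul, mul_add, one_mul, mul_one, hX, smul_smul,
        smul_add]
      rw [← hs]
      match_scalars <;> field_simp <;> ring
    · show D.adj ((2 : F)⁻¹ • (1 + s⁻¹ • X)) = 1 - (2 : F)⁻¹ • (1 + s⁻¹ • X)
      rw [D.adj_smul, D.adj_add, D.adj_smul, D.adj_one, hadj]
      show (2 : F)⁻¹ • (1 + s⁻¹ • -X) = _
      match_scalars <;> field_simp <;> ring
    · rcases hconj x hx with e | e
      · exact Or.inl (by simp only [p, map_smul, map_add, map_one, e])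
      · refine Or.inr ?_
        simp only [p, map_smul, map_add, map_one, e]
        match_scalars <;> field_simp <;> ring
  push Not at hsq
  have hind : LinearIndependent F ![(1 : Matrix (Fin m ⊕ Fin m) (Fin m ⊕ Fin m) F), X] := by
    rw [linearIndependent_fin2]
    refine ⟨fun e => ?_, fun c e => ?_⟩
    · have e' : X = 0 := e
      rw [e', zero_mul] at hX
      exact one_ne_zero ((smul_eq_zero.1 hX.symm).resolve_left hd)
    · have e' : c • X = 1 := e
      have h1 := congrArg (fun M => M * M) e'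
      simp only [smul_mul_assoc, mul_smul_comm, hX, smul_smul, mul_one] at h1
      have h2' : c * c * d = 1 := smul_left_injective F one_ne_zero
        (show (c * c * d) • (1 : Matrix (Fin m ⊕ Fin m) (Fin m ⊕ Fin m) F) = (1 : F) • 1 by
          rw [one_smul, mul_assoc]; exact h1)
      have hc0 : c ≠ 0 := fun e0 => by rw [e0] at h2'; simp at h2'
      exact hsq c⁻¹ (by field_simp; linear_combination -h2')
  let S := Submodule.span F ({1, X} : Set (Matrix (Fin m ⊕ Fin m) (Fin m ⊕ Fin m) F))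
  have hmem : ∀ {M}, M ∈ S ↔ ∃ a b : F, a • (1 : Matrix (Fin m ⊕ Fin m) (Fin m ⊕ Fin m) F) + b • X = M :=
    Submodule.mem_span_pair
  let K : Subalgebra F (Matrix (Fin m ⊕ Fin m) (Fin m ⊕ Fin m) F) := S.toSubalgebra
    (hmem.2 ⟨1, 0, by simp⟩) fun x y hx hy => by
      obtain ⟨a, b, rfl⟩ := hmem.1 hx
      obtain ⟨a', b', rfl⟩ := hmem.1 hy
      refine hmem.2 ⟨a * a' + b * b' * d, a * b' + b * a', ?_⟩
      simp only [add_mul, mul_add, smul_mul_assoc, mul_smul_comm, one_mul, mul_one, hX, smul_smul]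
      match_scalars <;> ring
  have hKm : ∀ {M}, M ∈ K ↔ ∃ a b : F, a • (1 : Matrix (Fin m ⊕ Fin m) (Fin m ⊕ Fin m) F) + b • X = M := hmem
  have hK : IsFieldSubalgebra 2 K := by
    refine ⟨fun x hx y hy => ?_, fun x hx hx0 => ?_, ?_⟩
    · obtain ⟨a, b, rfl⟩ := hKm.1 hx
      obtain ⟨a', b', rfl⟩ := hKm.1 hy
      simp only [add_mul, mul_add, smul_mul_assoc, mul_smul_comm, one_mul, mul_one, hX, smul_smul]
      match_scalars <;> ring
    · obtain ⟨a, b, rfl⟩ := hKm.1 hx
      have hn : a * a - d * b * b ≠ 0 := by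
        intro e
        by_cases hb : b = 0
        · rw [hb, mul_zero, sub_zero, mul_self_eq_zero] at e
          rw [hb, e, zero_smul, zero_smul, add_zero] at hx0
          exact hx0 rfl
        · exact hsq (a / b) (by field_simp; linear_combination e)
      refine ⟨(a * a - d * b * b)⁻¹ • (a • 1 + (-b) • X),
        K.smul_mem (hKm.2 ⟨_, _, rfl⟩) _, ?_⟩
      rw [mul_smul_comm, show (a • 1 + b • X) * (a • 1 + (-b) • X) = (a * a - d * b * b) • 1 by
        simp only [add_mul, mul_add, smul_mul_assoc, mul_smul_comm, one_mul, mul_one, hX, smul_smul]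
        match_scalars <;> ring, smul_smul, inv_mul_cancel₀ hn, one_smul]
    · show Module.finrank F S = 2
      have : S = Submodule.span F (Set.range ![(1 : Matrix (Fin m ⊕ Fin m) (Fin m ⊕ Fin m) F), X]) := by
        rw [Matrix.range_cons_cons_empty]
      rw [this, finrank_span_eq_card hind, Fintype.card_fin]
  have hKa : ∀ k ∈ K, D.adj k ∈ K := fun k hk => by
    obtain ⟨a, b, rfl⟩ := hKm.1 hk
    refine hKm.2 ⟨a, -b, ?_⟩
    rw [D.adj_add, D.adj_smul, D.adj_smul, D.adj_one, hadj, smul_neg, ← neg_smul]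
    rfl
  refine .fieldUnitary K hq hK (D.isAdjointClosedFor hKa) (fun hs => ?_) hirr
    (le_subalgebraNormalizer fun x hx k hk => ?_)
  · have hXK : X ∈ K := hKm.2 ⟨0, 1, by simp⟩
    have hX0 : X ≠ 0 := hind.ne_zero 1
    apply hX0
    refine Matrix.toLin'.injective (LinearMap.ext fun v => ?_)
    rw [Matrix.toLin'_apply, map_zero, LinearMap.zero_apply]
    by_contra hne
    obtain ⟨⟨u, hu⟩, -⟩ := D.nondegenerate _ hne
    apply hu
    have h1 : D.form (X *ᵥ u) v = D.form u (X *ᵥ v) := hs X hXK u v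
    rw [D.form_adj, hadj, Matrix.neg_mulVec, ← neg_one_smul F (X *ᵥ v), D.form_smul_right] at h1
    have h3 : (2 : F) * D.form u (X *ᵥ v) = 0 := by
      have h4 : (-1 : F) * D.form u (X *ᵥ v) = D.form u (X *ᵥ v) := h1
      linear_combination -h4
    exact (mul_eq_zero.1 h3).resolve_left h2
  · obtain ⟨a, b, rfl⟩ := hKm.1 hk
    rcases hconj x hx with e | e
    · exact hKm.2 ⟨a, b, by rw [← conjHom_apply, map_add, map_smul, map_smul, map_one, e]⟩
    · exact hKm.2 ⟨a, -b, by rw [← conjHom_apply, map_add, map_smul, map_smul, map_one, e, smul_neg, neg_smul]⟩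

/-- Realisation over a subfield. -/
theorem symplectic_subfield (hirr : ActsIrreducibly (matrixSet H))
    (h : InFormSubfield (sympData m F) H) : SymplecticCase m H := by
  obtain ⟨F₁, r, P, ζ, hr, hc, hζ, hent, hle⟩ := h
  exact .subfield F₁ r P ζ hr hc hζ (isFormRationalStructure_of (sympData m F) hent) hirr hle

/-- A normaliser of a group of symplectic type. -/
theorem symplectic_typeTwo (hirr : ActsIrreducibly (matrixSet H))
    (h : InFormTypeTwo (sympData m F) H) : SymplecticCase m H := by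
  obtain ⟨r, R, p, e, k, hR, habs, hsim, hrp, hmin, hn, -, hcard, hle, hcase⟩ := h
  rcases hcase with ⟨hσ, -⟩ | ⟨hσ, -⟩ | ⟨-, rfl, hz, hc, hRI⟩
  · exact absurd rfl hσ
  · exact absurd rfl hσ
  have hp := hmin.1
  have hodd : Odd p := hp.eq_two_or_odd'.resolve_left (Ne.symm hrp)
  have hcard' : Nat.card R = 2 ^ (1 + 2 * k) := by rw [hcard, hz, pow_add, pow_one]
  have hn' : m + m = 2 ^ k := by simpa using hn
  exact .typeTwo R p k hR habs hsim hp hodd hc hn' hcard' hz
    (minus_type (sympData m F) rfl rfl (two_ne_zero_of_card_odd (hc ▸ hodd)) hRI habs hn hcard' hz) hirr hle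

/-- The residual alternative. -/
theorem symplectic_residual (hm : 0 < m) (hH : H ≤ spGL m F) (hirr : ActsIrreducibly (matrixSet H))
    (h : InFormResidual (sympData m F) H) : SymplecticCase m H := by
  classical
  have : Nonempty (Fin m ⊕ Fin m) := ⟨Sum.inl ⟨0, hm⟩⟩
  obtain ⟨N, hcore, hNI, huniq⟩ := h
  let D := sympData m F
  by_cases hQ : ∃ Q, IsNondegenerateQuadraticForm Q ∧ FixesQuadForm (matrixSet N) Q
  swap
  · refine .residual ⟨N, hcore, hQ, ?_⟩ hirr
    rintro ⟨σ, f, hf, hfix⟩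
    have hs : σ.toRingHom = RingHom.id F := by
      refine huniq σ.toRingHom (gramMatrix f)
        (fixesGram_of_fixesForm σ.toRingHom hf.add_left hf.smul_left ?_ ?_ hfix)
        (gram_ne_zero σ.toRingHom (eq_gramForm σ.toRingHom hf.add_left hf.smul_left ?_ ?_) hf.nondegenerate)
      all_goals first
        | exact fun v x y => by rw [hf.herm v (x + y), hf.add_left, map_add, ← hf.herm, ← hf.herm]
        | exact fun c v x => by rw [hf.herm v (c • x), hf.smul_left, map_mul, ← hf.herm]; rfl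
    exact hf.ne_refl (RingEquiv.ext fun x => RingHom.congr_fun hs x)
  obtain ⟨Q, hQn, hfix⟩ := hQ
  let G := gramMatrix (QuadraticMap.polar Q)
  have hG : FixesGram (RingHom.id F) G N :=
    fixesGram_of_fixesForm (RingHom.id F) hQn.polar_bilinear.add_left hQn.polar_bilinear.smul_left
      hQn.polar_bilinear.add_right hQn.polar_bilinear.smul_right fun s hs u v => by
        simp only [QuadraticMap.polar, ← Matrix.mulVec_add, hfix s hs]
  have hpol : ∀ u v, QuadraticMap.polar Q u v = gramForm (RingHom.id F) G u v := fun u v => by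
    rw [← eq_gramForm (RingHom.id F) hQn.polar_bilinear.add_left hQn.polar_bilinear.smul_left
      hQn.polar_bilinear.add_right hQn.polar_bilinear.smul_right]
  have hG0 : G ≠ 0 := gram_ne_zero (RingHom.id F)
    (eq_gramForm (RingHom.id F) hQn.polar_bilinear.add_left hQn.polar_bilinear.smul_left
      hQn.polar_bilinear.add_right hQn.polar_bilinear.smul_right) hQn.nondegenerate
  have hU : FixesGram (RingHom.id F) (D.U : Matrix (Fin m ⊕ Fin m) (Fin m ⊕ Fin m) F) N := fun s hs =>
    eq_of_gramForm_eq (RingHom.id F) fun u v => by rw [← gramForm_mulVec]; exact hNI hs u v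
  obtain ⟨c, hc⟩ := gram_unique (RingHom.id F) hcore.absIrred hG hU hG0
  have hc0 : c ≠ 0 := fun e => (Units.ne_zero D.U) (by rw [hc, e, zero_smul])
  let Q' : (Fin m ⊕ Fin m → F) → F := fun v => c * Q v
  have hpol' : ∀ u v, QuadraticMap.polar Q' u v = sympForm m F u v := by
    intro u v
    have e1 : QuadraticMap.polar Q' u v = c * QuadraticMap.polar Q u v := by
      simp only [Q', QuadraticMap.polar]; ring
    rw [e1, hpol, ← gramForm_smul_gram, ← hc]
    rfl
  rcases card_parity (F := F) with hq | h2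
  · exfalso
    have h2 := two_ne_zero_of_card_odd hq
    obtain ⟨u, hu⟩ : ∃ u : Fin m ⊕ Fin m → F, u ≠ 0 := exists_ne 0
    obtain ⟨-, v, hv⟩ := D.nondegenerate u hu
    apply hv
    have h1 : sympForm m F u v = sympForm m F v u := by
      rw [← hpol', ← hpol', QuadraticMap.polar_comm]
    have h3 : sympForm m F v u = -sympForm m F u v := H2.sympForm_swap u v
    exact (mul_eq_zero.1 (show (2 : F) * D.form u v = 0 by
      show (2 : F) * sympForm m F u v = 0
      linear_combination h1 + h3)).resolve_left h2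
  have hsm : ∀ (a : F) v, Q' (a • v) = a ^ 2 * Q' v := fun a v => by
    simp only [Q', hQn.smul]; ring
  have hinv : ∀ x ∈ H, ∀ v, Q' ((x : Matrix (Fin m ⊕ Fin m) (Fin m ⊕ Fin m) F) *ᵥ v) = Q' v := by
    intro x hx
    let d : (Fin m ⊕ Fin m → F) →+ F := AddMonoidHom.mk' (fun v => Q' ((x : Matrix (Fin m ⊕ Fin m) (Fin m ⊕ Fin m) F) *ᵥ v) - Q' v) fun u v => by
      have h1 : ∀ a b, Q' (a + b) = Q' a + Q' b + sympForm m F a b := fun a b => by
        rw [← hpol', QuadraticMap.polar]; ring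
      rw [Matrix.mulVec_add, h1, h1]
      have h3 : sympForm m F ((x : Matrix (Fin m ⊕ Fin m) (Fin m ⊕ Fin m) F) *ᵥ u) ((x : Matrix (Fin m ⊕ Fin m) (Fin m ⊕ Fin m) F) *ᵥ v) = sympForm m F u v := hH hx u v
      rw [h3]
      ring
    have hd : ∀ (a : F) v, d (a • v) = a ^ 2 * d v := fun a v => by
      show Q' _ - Q' _ = _ * (Q' _ - Q' _)
      rw [Matrix.mulVec_smul, hsm, hsm]; ring
    let W : Submodule F (Fin m ⊕ Fin m → F) :=
      { carrier := {v | d v = 0}
        add_mem' := fun {a b} ha hb => by show d (a + b) = 0; rw [map_add, ha, hb, add_zero]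
        zero_mem' := map_zero d
        smul_mem' := fun a v hv => by show d (a • v) = 0; rw [hd, hv, mul_zero] }
    have hW : IsInv (matrixSet N) W := by
      rintro _ ⟨y, hy, rfl⟩ v hv
      show Q' ((x : Matrix (Fin m ⊕ Fin m) (Fin m ⊕ Fin m) F) *ᵥ ((y : Matrix (Fin m ⊕ Fin m) (Fin m ⊕ Fin m) F) *ᵥ v)) - Q' ((y : Matrix (Fin m ⊕ Fin m) (Fin m ⊕ Fin m) F) *ᵥ v) = 0
      have e1 : (x : Matrix (Fin m ⊕ Fin m) (Fin m ⊕ Fin m) F) *ᵥ ((y : Matrix (Fin m ⊕ Fin m) (Fin m ⊕ Fin m) F) *ᵥ v) =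
          ((x * y * x⁻¹ : GL (Fin m ⊕ Fin m) F) : Matrix (Fin m ⊕ Fin m) (Fin m ⊕ Fin m) F) *ᵥ ((x : Matrix (Fin m ⊕ Fin m) (Fin m ⊕ Fin m) F) *ᵥ v) := by
        rw [Matrix.mulVec_mulVec, Matrix.mulVec_mulVec, ← Units.val_mul, ← Units.val_mul]
        simp
      have hN' : ∀ z ∈ N, ∀ w, Q' ((z : Matrix (Fin m ⊕ Fin m) (Fin m ⊕ Fin m) F) *ᵥ w) = Q' w := fun z hz w => by
        simp only [Q', hfix _ (mem_matrixSet hz)]
      rw [e1, hN' _ (hcore.normal x hx y hy), hN' y hy]
      exact hv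
    rcases actsIrreducibly_iff.1 hcore.absIrred.1 W hW with h0 | h0
    · exfalso
      have hinj : Function.Injective d := (injective_iff_map_eq_zero d).2 fun v hv => by
        have : v ∈ W := hv
        rwa [h0, Submodule.mem_bot] at this
      have h3 := Nat.card_le_card_of_injective d hinj
      rw [Module.natCard_eq_pow_finrank (K := F) (V := Fin m ⊕ Fin m → F), Module.finrank_fintype_fun_eq_card,
        Fintype.card_sum, Fintype.card_fin] at h3
      have h4 : Nat.card F ^ 1 < Nat.card F ^ (m + m) :=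
        Nat.pow_lt_pow_right Finite.one_lt_card (by omega)
      rw [pow_one] at h4
      omega
    · intro v
      have : v ∈ W := h0 ▸ Submodule.mem_top
      exact sub_eq_zero.1 this
  have hpf : QuadraticMap.polar Q' = D.form := funext fun u => funext fun v => hpol' u v
  refine .orthogonal Q' (fun hq => two_ne_zero_of_card_odd hq h2) ⟨hsm, ?_, ?_⟩ hpol'
    fun x hx => ⟨1, fun v => by rw [Units.val_one, one_mul]; exact hinv x hx v⟩
  · rw [hpf]
    exact ⟨D.form_add_left, D.form_smul_left, D.form_add_right, D.form_smul_right⟩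
  · rw [hpf]
    exact D.nondegenerate

end Cfsg.Agent.H99.Asch
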