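import Cfsg.Agent.H99.Aschbacher.SymplecticField

/-!
The symplectic meaning of a tensor decomposition of the form.
-/

set_option autoImplicit false

open scoped MatrixGroups Matrix Kronecker

namespace Cfsg.Agent.H99.Asch

open Cfsg.Geo

variable {F : Type*} [Field F] [Fintype F]

lemma tens_add_left {ι κ μ : Type} [Fintype ι] [DecidableEq ι] [Fintype κ] [DecidableEq κ] [Fintype μ]
    [DecidableEq μ] (e : ι ≃ κ × μ) (a b : Matrix κ κ F) (c : Matrix μ μ F) :
    tens e (a + b) c = tens e a c + tens e b c := by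
  ext u v; simp [tens_apply]; ring

/-- A converse of adj_conjHom. -/
lemma adj_frame {ι : Type} [Fintype ι] [DecidableEq ι] (D : FormData ι F) (P : GL ι F) {X Y : Matrix ι ι F}
    (h : Xᵀ * D.gramAt P = D.gramAt P * Y.map D.σ) : D.adj (conjHom P X) = conjHom P Y := by
  have h1 : D.adj (conjHom P X) = conjHom P (conjHom P⁻¹ (D.adj (conjHom P X))) := by
    generalize D.adj (conjHom P X) = Z
    rw [conjHom_apply, conjHom_apply, inv_inv]
    simp only [mul_assoc, Units.mul_inv_cancel_left, Units.mul_inv, mul_one]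
  have h2 := D.adj_conjHom P h1
  rw [h] at h2
  obtain ⟨G, hG⟩ := D.isUnit_gramAt P
  rw [← hG] at h2
  rw [h1, ← Matrix.map_injective D.σ.injective ((Units.mul_right_inj G).1 h2)]

/-- Every 2 x 2 matrix multiplies the standard alternating form by its determinant. -/
lemma alt_two (M : Matrix (Fin 2) (Fin 2) F) :
    Mᵀ * !![0, 1; -1, 0] * M = M.det • !![0, 1; -1, 0] := by
  ext i j
  fin_cases i <;> fin_cases j <;> simp [Matrix.mul_apply, Matrix.det_fin_two, Fin.sum_univ_two] <;> ring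

lemma gramForm_symplectic {s : ℕ} (h2 : (2 : F) ≠ 0) {G : Matrix (Fin s) (Fin s) F} (hu : IsUnit G)
    (h : Gᵀ = -G) : IsSymplecticForm (gramForm (RingHom.id F) G) := by
  have hswap : ∀ v w, gramForm (RingHom.id F) G v w = -gramForm (RingHom.id F) G w v := fun v w => by
    show v ⬝ᵥ (G *ᵥ w) = -(w ⬝ᵥ (G *ᵥ v))
    rw [← transpose_dot G v w, h, Matrix.neg_mulVec, dotProduct_neg, neg_neg]
  refine ⟨⟨gramForm_add_left _ G, gramForm_smul_left _ G, gramForm_add_right _ G, gramForm_smul_right _ G⟩,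
    hswap, fun v => ?_, gramForm_nondegenerate _ hu⟩
  exact (mul_eq_zero.1 (show (2 : F) * gramForm (RingHom.id F) G v v = 0 by
    linear_combination hswap v v)).resolve_left h2

lemma gramForm_symmetric {s : ℕ} {G : Matrix (Fin s) (Fin s) F} (hu : IsUnit G) (h : Gᵀ = G) :
    IsSymmetricForm (gramForm (RingHom.id F) G) :=
  ⟨⟨gramForm_add_left _ G, gramForm_smul_left _ G, gramForm_add_right _ G, gramForm_smul_right _ G⟩,
    fun u v => by show u ⬝ᵥ (G *ᵥ v) = v ⬝ᵥ (G *ᵥ u); rw [← transpose_dot G u v, h],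
    gramForm_nondegenerate _ hu⟩

variable {m : ℕ} {H : Subgroup (GL (Fin m ⊕ Fin m) F)}

/-- Every element in a tensor frame gives the equations for the factors. -/
lemma tensor_factor {s t : ℕ} [Nonempty (Fin s)] [Nonempty (Fin t)] (hH : H ≤ spGL m F) {e : (Fin m ⊕ Fin m) ≃ Fin s × Fin t}
    {P : GL (Fin m ⊕ Fin m) F} (G₁ : GL (Fin s) F) (G₂ : GL (Fin t) F)
    (hgram : (sympData m F).gramAt P = tens e (G₁ : Matrix (Fin s) (Fin s) F) (G₂ : Matrix (Fin t) (Fin t) F))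
    (hle : H ≤ tensorProductSubgroup s t e P) {h : GL (Fin m ⊕ Fin m) F} (hh : h ∈ H) :
    ∃ (a : GL (Fin s) F) (b : GL (Fin t) F) (x : F), x ≠ 0 ∧
      ((P⁻¹ * h * P : GL (Fin m ⊕ Fin m) F) : Matrix (Fin m ⊕ Fin m) (Fin m ⊕ Fin m) F) =
        tens e (a : Matrix (Fin s) (Fin s) F) (b : Matrix (Fin t) (Fin t) F) ∧
      (a : Matrix (Fin s) (Fin s) F)ᵀ * (G₁ : Matrix (Fin s) (Fin s) F) * (a : Matrix (Fin s) (Fin s) F) =
        x • (G₁ : Matrix (Fin s) (Fin s) F) ∧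
      (b : Matrix (Fin t) (Fin t) F)ᵀ * (G₂ : Matrix (Fin t) (Fin t) F) * (b : Matrix (Fin t) (Fin t) F) =
        x⁻¹ • (G₂ : Matrix (Fin t) (Fin t) F) := by
  let D := sympData m F
  obtain ⟨a, b, hab⟩ := mem_tensorProductSubgroup_iff.1 (hle hh)
  have e3 : ((P⁻¹ * h * P : GL (Fin m ⊕ Fin m) F) : Matrix (Fin m ⊕ Fin m) (Fin m ⊕ Fin m) F) =
      tens e (a : Matrix (Fin s) (Fin s) F) (b : Matrix (Fin t) (Fin t) F) := by
    rw [Units.val_mul, Units.val_mul, hab]
    simp only [← mul_assoc]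
    rw [← Units.val_mul, inv_mul_cancel, Units.val_one, one_mul, mul_assoc, ← Units.val_mul, inv_mul_cancel,
      Units.val_one, mul_one]
  have h1 : (tens e (a : Matrix (Fin s) (Fin s) F) (b : Matrix (Fin t) (Fin t) F))ᵀ * D.gramAt P *
      (tens e (a : Matrix (Fin s) (Fin s) F) (b : Matrix (Fin t) (Fin t) F)).map D.σ = D.gramAt P := by
    rw [← e3, ← FormData.gramAt_mul]
    rw [show P * (P⁻¹ * h * P) = h * P by simp [mul_assoc]]
    refine eq_of_gramForm_eq D.σ fun u v => ?_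
    rw [← FormData.form_gramAt, ← FormData.form_gramAt, Units.val_mul, ← Matrix.mulVec_mulVec,
      ← Matrix.mulVec_mulVec]
    exact hH hh _ _
  rw [hgram, tens_transpose, tens_map, tens_mul, tens_mul] at h1
  obtain ⟨x, hx, hax, hbx⟩ := tens_eq_tens e (Units.ne_zero G₁) (Units.ne_zero G₂) h1
  exact ⟨a, b, x, hx, e3, hax, hbx⟩

/-- A skew factor and a symmetric one, in odd characteristic. -/
theorem symplectic_tensor_odd (hm : 0 < m) (hH : H ≤ spGL m F) (hirr : ActsIrreducibly (matrixSet H))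
    (hq : Odd (Fintype.card F)) {s t : ℕ} (hs : 2 ≤ s) (ht : 2 ≤ t) (e : (Fin m ⊕ Fin m) ≃ Fin s × Fin t)
    (P : GL (Fin m ⊕ Fin m) F) (G₁ : GL (Fin s) F) (G₂ : GL (Fin t) F)
    (hgram : (sympData m F).gramAt P = tens e (G₁ : Matrix (Fin s) (Fin s) F) (G₂ : Matrix (Fin t) (Fin t) F))
    (hG₁ : (G₁ : Matrix (Fin s) (Fin s) F)ᵀ = -(G₁ : Matrix (Fin s) (Fin s) F))
    (hG₂ : (G₂ : Matrix (Fin t) (Fin t) F)ᵀ = (G₂ : Matrix (Fin t) (Fin t) F))
    (hle : H ≤ tensorProductSubgroup s t e P) : SymplecticCase m H := by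
  classical
  have h2 := two_ne_zero_of_card_odd hq
  have hs' := gramForm_symplectic h2 (Units.isUnit G₁) hG₁
  have : Nonempty (Fin s) := ⟨⟨0, by omega⟩⟩
  have : Nonempty (Fin t) := ⟨⟨0, by omega⟩⟩
  let D := sympData m F
  rcases lt_or_eq_of_le ht with ht3 | rfl
  · have hev : Even s := by simpa using symplectic_even hs'
    exact .tensor s t e P _ _ hq hs ht3 hev hs' (gramForm_symmetric (Units.isUnit G₂) hG₂)
      (isTensorFormStructure_of D (σ' := id) (fun a => rfl) e P one_ne_zero (by rw [one_smul]; exact hgram))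
      hirr hle
  let J : Matrix (Fin 2) (Fin 2) F := !![0, 1; -1, 0]
  let G : Matrix (Fin 2) (Fin 2) F := (G₂ : Matrix (Fin 2) (Fin 2) F)
  let Gi : Matrix (Fin 2) (Fin 2) F := ((G₂⁻¹ : GL (Fin 2) F) : Matrix (Fin 2) (Fin 2) F)
  have hGi : Gi * G = 1 := G₂.inv_mul
  have hGi' : G * Gi = 1 := G₂.mul_inv
  have hGiT : Giᵀ = Gi := by
    have h1 : G * Giᵀ = 1 := by
      rw [show G = Gᵀ from hG₂.symm, ← Matrix.transpose_mul, hGi, Matrix.transpose_one]
    calc Giᵀ = Gi * G * Giᵀ := by rw [hGi, one_mul]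
      _ = Gi := by rw [mul_assoc, h1, mul_one]
  have hJT : Jᵀ = -J := by ext i j; fin_cases i <;> fin_cases j <;> simp [J]
  have hJJ : J * J = -1 := by ext i j; fin_cases i <;> fin_cases j <;> simp [J, Matrix.mul_apply, Fin.sum_univ_two]
  have hdet : Gi.det ≠ 0 := Matrix.GeneralLinearGroup.det_ne_zero G₂⁻¹
  let T := Gi * J
  have hTT : T * T = (-Gi.det) • 1 := by
    have h1 : Gi * J * Gi = Gi.det • J := by
      have := alt_two Gi
      rwa [hGiT] at this
    show Gi * J * (Gi * J) = _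
    rw [← mul_assoc, h1, smul_mul_assoc, hJJ, smul_neg, neg_smul]
  let X := conjHom P (tens e (1 : Matrix (Fin s) (Fin s) F) T)
  refine quadratic_structure hm hH hirr hq (X := X) (neg_ne_zero.2 hdet) ?_ ?_ fun h hh => ?_
  · rw [← map_mul, tens_mul, one_mul, hTT, tens_smul_right, tens_one, map_smul, map_one]
  · rw [← map_neg]
    refine adj_frame D P ?_
    rw [hgram, tens_transpose, Matrix.transpose_one, tens_mul, one_mul]
    show _ = tens e _ _ * -(tens e 1 T)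
    rw [mul_neg, tens_mul, mul_one, show Tᵀ * G = -(G * T) by
      simp only [T, Matrix.transpose_mul, hGiT, hJT, ← mul_assoc, hGi', one_mul]
      rw [mul_assoc, hGi, mul_one]]
    rw [show -(G * T) = (-1 : F) • (G * T) from (neg_one_smul F _).symm, tens_smul_right, neg_one_smul]
  obtain ⟨a, b, x, hx, hab, -, hb⟩ := tensor_factor hH G₁ G₂ hgram hle hh
  let bi : Matrix (Fin 2) (Fin 2) F := ((b⁻¹ : GL (Fin 2) F) : Matrix (Fin 2) (Fin 2) F)
  let bm : Matrix (Fin 2) (Fin 2) F := (b : Matrix (Fin 2) (Fin 2) F)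
  have hdb : bm.det ≠ 0 := Matrix.GeneralLinearGroup.det_ne_zero b
  have hbb : bm * bi = 1 := b.mul_inv
  have h3 : bm * Gi * bmᵀ = x⁻¹ • Gi := by
    have e1 : bmᵀ * G * (bm * Gi * bmᵀ) = bmᵀ * G * (x⁻¹ • Gi) := by
      rw [mul_smul_comm, mul_assoc bmᵀ G Gi, hGi', mul_one, ← mul_assoc, ← mul_assoc,
        show bmᵀ * G * bm = x⁻¹ • G from hb, smul_mul_assoc, hGi', smul_mul_assoc, one_mul]
    exact (((Matrix.isUnit_transpose _).2 (Units.isUnit b)).mul (Units.isUnit G₂)).mul_left_cancel e1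
  have h4 : J * bi = bm.det⁻¹ • (bmᵀ * J) := by
    have := congrArg (fun M => bm.det⁻¹ • (M * bi)) (alt_two bm)
    simp only [mul_assoc] at this
    rw [hbb, mul_one, smul_mul_assoc, smul_smul, inv_mul_cancel₀ hdb, one_smul] at this
    exact this.symm
  have h5 : bm * T * bi = (x⁻¹ * bm.det⁻¹) • T := by
    show bm * (Gi * J) * bi = _ • (Gi * J)
    rw [mul_assoc, mul_assoc, h4, mul_smul_comm, mul_smul_comm, ← mul_assoc, ← mul_assoc, h3, smul_mul_assoc,
      smul_smul, mul_comm bm.det⁻¹]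
  set μ := x⁻¹ * bm.det⁻¹ with hμ
  have hX : conjHom h X = μ • X := by
    have e4 : h * P = P * tensUnit e a b := by
      refine Units.ext ?_
      show _ = (P : Matrix (Fin m ⊕ Fin m) (Fin m ⊕ Fin m) F) * tens e (a : Matrix (Fin s) (Fin s) F) bm
      rw [← hab, ← Units.val_mul]
      simp [mul_assoc]
    show conjHom h (conjHom P (tens e 1 T)) = μ • conjHom P (tens e 1 T)
    rw [conjHom_apply, conjHom_apply]
    have e5 : ∀ M : Matrix (Fin m ⊕ Fin m) (Fin m ⊕ Fin m) F,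
        (h : Matrix (Fin m ⊕ Fin m) (Fin m ⊕ Fin m) F) * ((P : Matrix (Fin m ⊕ Fin m) (Fin m ⊕ Fin m) F) * M *
          ((P⁻¹ : GL (Fin m ⊕ Fin m) F) : Matrix (Fin m ⊕ Fin m) (Fin m ⊕ Fin m) F)) *
          ((h⁻¹ : GL (Fin m ⊕ Fin m) F) : Matrix (Fin m ⊕ Fin m) (Fin m ⊕ Fin m) F) =
        ((h * P : GL (Fin m ⊕ Fin m) F) : Matrix (Fin m ⊕ Fin m) (Fin m ⊕ Fin m) F) * M *
          (((h * P)⁻¹ : GL (Fin m ⊕ Fin m) F) : Matrix (Fin m ⊕ Fin m) (Fin m ⊕ Fin m) F) := fun M => by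
      rw [mul_inv_rev, Units.val_mul, Units.val_mul]; simp only [mul_assoc]
    rw [e5, e4, mul_inv_rev, Units.val_mul, Units.val_mul]
    show _ * (tens e (a : Matrix (Fin s) (Fin s) F) bm) * _ *
      (tens e ((a⁻¹ : GL (Fin s) F) : Matrix (Fin s) (Fin s) F) bi * _) = _
    rw [show ∀ A B C E E' : Matrix (Fin m ⊕ Fin m) (Fin m ⊕ Fin m) F, A * B * C * (E * E') = A * (B * C * E) * E'
      from fun A B C E E' => by simp only [mul_assoc], tens_mul, tens_mul, mul_one,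
      show (a : Matrix (Fin s) (Fin s) F) * ((a⁻¹ : GL (Fin s) F) : Matrix (Fin s) (Fin s) F) = 1 from a.mul_inv,
      h5, tens_smul_right, mul_smul_comm, smul_mul_assoc]
  have hXX : X * X = (-Gi.det) • 1 := by
    rw [← map_mul, tens_mul, one_mul, hTT, tens_smul_right, tens_one, map_smul, map_one]
  have h6 : conjHom h (X * X) = conjHom h ((-Gi.det) • 1) := congrArg _ hXX
  rw [map_mul, hX, map_smul, map_one, smul_mul_assoc, mul_smul_comm, hXX, smul_smul, smul_smul] at h6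
  have : Nonempty (Fin m ⊕ Fin m) := ⟨Sum.inl ⟨0, hm⟩⟩
  have h7 := smul_left_injective F one_ne_zero h6
  rcases mul_self_eq_one_iff.1 (mul_right_cancel₀ (neg_ne_zero.2 hdet) (h7.trans (one_mul _).symm)) with h8 | h8
  · exact Or.inl (by rw [hX, h8, one_smul])
  · exact Or.inr (by rw [hX, h8, neg_one_smul])

/-- A tensor decomposition in characteristic two, the first factor alternating. -/
theorem symplectic_tensor_two (hm : 0 < m) (hH : H ≤ spGL m F) (hirr : ActsIrreducibly (matrixSet H))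
    (h2 : (2 : F) = 0) {s t : ℕ} (hs : 2 ≤ s) (ht : 2 ≤ t) (e : (Fin m ⊕ Fin m) ≃ Fin s × Fin t)
    (P : GL (Fin m ⊕ Fin m) F) (G₁ : GL (Fin s) F) (G₂ : GL (Fin t) F)
    (hgram : (sympData m F).gramAt P = tens e (G₁ : Matrix (Fin s) (Fin s) F) (G₂ : Matrix (Fin t) (Fin t) F))
    (hG₁ : (G₁ : Matrix (Fin s) (Fin s) F)ᵀ = (G₁ : Matrix (Fin s) (Fin s) F))
    (hd₁ : ∀ i, (G₁ : Matrix (Fin s) (Fin s) F) i i = 0)
    (hG₂ : (G₂ : Matrix (Fin t) (Fin t) F)ᵀ = (G₂ : Matrix (Fin t) (Fin t) F))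
    (hle : H ≤ tensorProductSubgroup s t e P) : SymplecticCase m H := by
  classical
  have : Nonempty (Fin s) := ⟨⟨0, by omega⟩⟩
  have : Nonempty (Fin t) := ⟨⟨0, by omega⟩⟩
  set g₁ : Matrix (Fin s) (Fin s) F := (G₁ : Matrix (Fin s) (Fin s) F)
  set g₂ : Matrix (Fin t) (Fin t) F := (G₂ : Matrix (Fin t) (Fin t) F)
  by_cases hd₂ : ∀ i, g₂ i i = 0
  · let A : Matrix (Fin s) (Fin s) F := Matrix.of fun i j => if i < j then g₁ i j else 0
    have hA : A + Aᵀ = g₁ := by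
      ext i j
      have e1 : g₁ j i = g₁ i j := congrFun (congrFun hG₁ i) j
      rcases lt_trichotomy i j with hij | rfl | hij
      · simp [A, hij, hij.not_gt]
      · simp [A, hd₁]
      · simp [A, hij, hij.not_gt, e1]
    refine orth_of_frame hH h2 P (tens e A g₂) ?_ (fun i => ?_) fun h hh i => ?_
    · rw [tens_transpose, hG₂, ← tens_add_left, hA, hgram]
    · rw [tens_apply, hd₂, mul_zero]
    · obtain ⟨a, b, x, -, hab, -, hb⟩ := tensor_factor hH G₁ G₂ hgram hle hh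
      rw [hab, tens_transpose, tens_mul, tens_mul, tens_apply, hb, Matrix.smul_apply,
        show (G₂ : Matrix (Fin t) (Fin t) F) (e i).2 (e i).2 = 0 from hd₂ _, smul_zero, mul_zero]
  exfalso
  have hQadd : ∀ x y : Fin t → F, (x + y) ⬝ᵥ (g₂ *ᵥ (x + y)) = x ⬝ᵥ (g₂ *ᵥ x) + y ⬝ᵥ (g₂ *ᵥ y) := by
    intro x y
    have e1 : y ⬝ᵥ (g₂ *ᵥ x) = x ⬝ᵥ (g₂ *ᵥ y) := by rw [← transpose_dot g₂ x y, hG₂]
    simp only [Matrix.mulVec_add, dotProduct_add, add_dotProduct, e1]
    linear_combination (x ⬝ᵥ (g₂ *ᵥ y)) * h2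
  have hQsmul : ∀ (c : F) (x : Fin t → F), (c • x) ⬝ᵥ (g₂ *ᵥ (c • x)) = c ^ 2 * (x ⬝ᵥ (g₂ *ᵥ x)) := by
    intro c x
    simp only [Matrix.mulVec_smul, dotProduct_smul, smul_dotProduct, smul_eq_mul]
    ring
  let S : Submodule F (Fin t → F) :=
    { carrier := {x | x ⬝ᵥ (g₂ *ᵥ x) = 0}
      add_mem' := fun {x y} hx hy => by
        show (x + y) ⬝ᵥ _ = 0
        rw [hQadd, hx, hy, add_zero]
      zero_mem' := by show (0 : Fin t → F) ⬝ᵥ _ = 0; simp
      smul_mem' := fun c x hx => by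
        show (c • x) ⬝ᵥ _ = 0
        rw [hQsmul, hx, mul_zero] }
  have hQs : ∀ (k : Fin t) (c : F), (Pi.single k c : Fin t → F) ⬝ᵥ (g₂ *ᵥ Pi.single k c) = c ^ 2 * g₂ k k := by
    intro k c
    simp [Matrix.mulVec_single]
    ring
  obtain ⟨x, hxS, hx0⟩ : ∃ x ∈ S, x ≠ 0 := by
    obtain ⟨k, l, hkl⟩ : ∃ k l : Fin t, k ≠ l := ⟨⟨0, by omega⟩, ⟨1, by omega⟩, by simp [Fin.ext_iff]⟩
    by_cases hk : g₂ k k = 0
    · exact ⟨Pi.single k 1, by show _ = (0 : F); rw [hQs, hk, mul_zero], by simp⟩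
    have hr : ringChar F = 2 :=
      ((Nat.dvd_prime Nat.prime_two).1 (ringChar.dvd (by exact_mod_cast h2))).resolve_left CharP.ringChar_ne_one
    obtain ⟨c, hc⟩ := FiniteField.isSquare_of_char_two hr (g₂ l l / g₂ k k)
    refine ⟨Pi.single k c + Pi.single l 1, ?_, fun e0 => ?_⟩
    · show _ = (0 : F)
      rw [hQadd, hQs, hQs, sq, ← hc, div_mul_cancel₀ _ hk, one_pow, one_mul, ← two_mul, h2, zero_mul]
    · have := congrFun e0 l
      simp [hkl.symm] at this
  let W : Submodule F (Fin m ⊕ Fin m → F) :=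
    { carrier := {v | ∀ i, (fun k => (((P⁻¹ : GL (Fin m ⊕ Fin m) F) : Matrix (Fin m ⊕ Fin m) (Fin m ⊕ Fin m) F) *ᵥ v)
        (e.symm (i, k))) ∈ S}
      add_mem' := fun {a b} ha hb i => by
        rw [Matrix.mulVec_add]; exact S.add_mem (ha i) (hb i)
      zero_mem' := fun i => by rw [Matrix.mulVec_zero]; exact S.zero_mem
      smul_mem' := fun c a ha i => by rw [Matrix.mulVec_smul]; exact S.smul_mem c (ha i) }
  have hinv : IsInv (matrixSet H) W := by
    rintro _ ⟨h, hh, rfl⟩ v hv i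
    obtain ⟨a, b, y, -, hab, -, hb⟩ := tensor_factor hH G₁ G₂ hgram hle hh
    set w := ((P⁻¹ : GL (Fin m ⊕ Fin m) F) : Matrix (Fin m ⊕ Fin m) (Fin m ⊕ Fin m) F) *ᵥ v with hw
    have e1 : ((P⁻¹ : GL (Fin m ⊕ Fin m) F) : Matrix (Fin m ⊕ Fin m) (Fin m ⊕ Fin m) F) *ᵥ
        ((h : Matrix (Fin m ⊕ Fin m) (Fin m ⊕ Fin m) F) *ᵥ v) = tens e (a : Matrix (Fin s) (Fin s) F)
          (b : Matrix (Fin t) (Fin t) F) *ᵥ w := by
      rw [hw, ← hab, Matrix.mulVec_mulVec, Matrix.mulVec_mulVec, ← Units.val_mul, ← Units.val_mul]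
      simp [mul_assoc]
    have e2 : (fun k => (tens e (a : Matrix (Fin s) (Fin s) F) (b : Matrix (Fin t) (Fin t) F) *ᵥ w) (e.symm (i, k))) =
        ∑ j, (a : Matrix (Fin s) (Fin s) F) i j • ((b : Matrix (Fin t) (Fin t) F) *ᵥ fun l => w (e.symm (j, l))) := by
      funext k
      simp only [Matrix.mulVec, dotProduct, Finset.sum_apply, Pi.smul_apply, smul_eq_mul, Finset.mul_sum]
      rw [← e.symm.sum_comp, Fintype.sum_prod_type]
      refine Finset.sum_congr rfl fun j _ => Finset.sum_congr rfl fun l _ => ?_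
      rw [tens_apply, e.apply_symm_apply, e.apply_symm_apply]
      ring
    rw [e1, e2]
    refine Submodule.sum_mem _ fun j _ => S.smul_mem _ ?_
    show _ = (0 : F)
    rw [quad_mulVec, show (b : Matrix (Fin t) (Fin t) F)ᵀ * g₂ * (b : Matrix (Fin t) (Fin t) F) = y⁻¹ • g₂ from hb,
      Matrix.smul_mulVec, dotProduct_smul, show _ ⬝ᵥ (g₂ *ᵥ _) = (0 : F) from hv j, smul_zero]
  have hmemW : ∀ (i : Fin s) (z : Fin t → F),
      ((P : Matrix (Fin m ⊕ Fin m) (Fin m ⊕ Fin m) F) *ᵥ fun u => if (e u).1 = i then z (e u).2 else 0) ∈ W ↔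
        z ∈ S := by
    intro i z
    have e1 : ∀ j, (fun k => (((P⁻¹ : GL (Fin m ⊕ Fin m) F) : Matrix (Fin m ⊕ Fin m) (Fin m ⊕ Fin m) F) *ᵥ
        ((P : Matrix (Fin m ⊕ Fin m) (Fin m ⊕ Fin m) F) *ᵥ fun u => if (e u).1 = i then z (e u).2 else 0))
          (e.symm (j, k))) = if j = i then z else 0 := by
      intro j
      rw [Matrix.mulVec_mulVec, ← Units.val_mul, inv_mul_cancel, Units.val_one, Matrix.one_mulVec]
      funext k
      by_cases hj : j = i <;> simp [hj]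
    constructor
    · intro hz
      have := hz i
      rwa [e1, if_pos rfl] at this
    · intro hz j
      rw [e1]
      split_ifs
      · exact hz
      · exact S.zero_mem
  let i₀ : Fin s := ⟨0, by omega⟩
  rcases actsIrreducibly_iff.1 hirr W hinv with h0 | h0
  · have := (hmemW i₀ x).2 hxS
    rw [h0, Submodule.mem_bot] at this
    have h3 := congrArg (fun v => ((P⁻¹ : GL (Fin m ⊕ Fin m) F) : Matrix (Fin m ⊕ Fin m) (Fin m ⊕ Fin m) F) *ᵥ v) this
    simp only [Matrix.mulVec_mulVec, ← Units.val_mul, inv_mul_cancel, Units.val_one, Matrix.one_mulVec,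
      Matrix.mulVec_zero] at h3
    apply hx0
    funext k
    simpa using congrFun h3 (e.symm (i₀, k))
  · push Not at hd₂
    obtain ⟨k, hk⟩ := hd₂
    have h3 : (Pi.single k 1 : Fin t → F) ∈ S := (hmemW i₀ _).1 (h0 ▸ Submodule.mem_top)
    have h4 : _ = (0 : F) := h3
    rw [hQs, one_pow, one_mul] at h4
    exact hk h4

/-- A tensor decomposition of the alternating form. -/
theorem symplectic_tensor (hm : 0 < m) (hH : H ≤ spGL m F) (hirr : ActsIrreducibly (matrixSet H))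
    (h : InFormTensor (sympData m F) H) : SymplecticCase m H := by
  classical
  obtain ⟨s, t, e, P, G₁, G₂, a₁, a₂, hs, ht, hgram, hG₁, hG₂, haa, hle⟩ := h
  have : Nonempty (Fin s) := ⟨⟨0, by omega⟩⟩
  have : Nonempty (Fin t) := ⟨⟨0, by omega⟩⟩
  change a₁ * a₂ = -1 at haa
  replace hG₁ : (G₁ : Matrix (Fin s) (Fin s) F)ᵀ = a₁ • (G₁ : Matrix (Fin s) (Fin s) F) := hG₁
  replace hG₂ : (G₂ : Matrix (Fin t) (Fin t) F)ᵀ = a₂ • (G₂ : Matrix (Fin t) (Fin t) F) := hG₂
  let e' := e.trans (Equiv.prodComm (Fin s) (Fin t))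
  have hgram' : (sympData m F).gramAt P = tens e' (G₂ : Matrix (Fin t) (Fin t) F) (G₁ : Matrix (Fin s) (Fin s) F) := by
    rw [hgram]; ext u v; rw [tens_apply, tens_apply, mul_comm]; rfl
  have hle' : H ≤ tensorProductSubgroup t s e' P := hle.trans (tensorProductSubgroup_swap e P)
  have ha := mul_self_eq_one_iff.1 (sign_sq (Units.ne_zero G₁) hG₁)
  rcases card_parity (F := F) with hq | h2
  · rcases ha with rfl | rfl
    · rw [one_mul] at haa
      subst haa
      rw [one_smul] at hG₁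
      rw [neg_one_smul] at hG₂
      exact symplectic_tensor_odd hm hH hirr hq ht hs e' P G₂ G₁ hgram' hG₂ hG₁ hle'
    · rw [neg_one_mul, neg_inj] at haa
      subst haa
      rw [neg_one_smul] at hG₁
      rw [one_smul] at hG₂
      exact symplectic_tensor_odd hm hH hirr hq hs ht e P G₁ G₂ hgram hG₁ hG₂ hle
  · have hneg : (-1 : F) = 1 := by linear_combination (-1 : F) * h2
    rw [hneg] at ha haa
    obtain rfl : a₁ = 1 := ha.elim id id
    rw [one_mul] at haa
    subst haa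
    rw [one_smul] at hG₁ hG₂
    by_cases hd : ∀ i, (G₁ : Matrix (Fin s) (Fin s) F) i i = 0
    · exact symplectic_tensor_two hm hH hirr h2 hs ht e P G₁ G₂ hgram hG₁ hd hG₂ hle
    push Not at hd
    obtain ⟨i, hi⟩ := hd
    refine symplectic_tensor_two hm hH hirr h2 ht hs e' P G₂ G₁ hgram' hG₂ (fun k => ?_) hG₁ hle'
    have := sympData_gramAt_diag (F := F) m P (e.symm (i, k))
    rw [hgram, tens_apply, e.apply_symm_apply] at this
    exact (mul_eq_zero.1 this).resolve_left hi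

end Cfsg.Agent.H99.Asch
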