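import Cfsg.Agent.H99.Aschbacher.UnitaryLists
import Cfsg.Agent.H99.Aschbacher.Dims

/-!
Arithmetic of the symplectic-type case for the unitary groups: the residue of the characteristic modulo the
order of the centre.
-/

set_option autoImplicit false

open scoped MatrixGroups Matrix

namespace Cfsg.Agent.H99.Asch

open Cfsg.Geo

variable {F : Type*} [Field F] [Fintype F] {q : ℕ}

lemma dvd_pow_sub_one_iff {z p d : ℕ} (hz : 2 ≤ z) (hp : 1 ≤ p) : z ∣ p ^ d - 1 ↔ (p % z) ^ d % z = 1 := by
  rw [← Nat.modEq_iff_dvd' (Nat.one_le_pow _ _ hp), Nat.ModEq, ← Nat.pow_mod, Nat.mod_eq_of_lt (show 1 < z by omega)]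
  exact eq_comm

/-- In the unitary case the minimal field has even degree, which is twice the degree of q. -/
lemma minimal_unitary (hF : Fintype.card F = q ^ 2) {z p e : ℕ} (hz : 2 ≤ z) (hmin : IsMinimalFieldFor z p e F) :
    ∃ h, e = 2 * h ∧ 0 < h ∧ q = p ^ h ∧ (p % z) ^ e % z = 1 ∧
      ∀ d, 0 < d → d < e → (p % z) ^ d % z ≠ 1 := by
  obtain ⟨hp, -, hc, hdvd, hmin'⟩ := hmin
  rw [hF] at hc
  obtain ⟨h, -, hq⟩ := (Nat.dvd_prime_pow hp).1 (show q ∣ p ^ e by rw [← hc]; exact dvd_pow_self _ two_ne_zero)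
  rw [hq, ← pow_mul] at hc
  have he := Nat.pow_right_injective hp.two_le hc
  have hh : 0 < h := by
    rcases Nat.eq_zero_or_pos h with h0 | h0
    · subst h0
      rw [pow_zero] at hq
      have := H3.two_le_q hF
      omega
    · exact h0
  exact ⟨h, by omega, hh, hq, (dvd_pow_sub_one_iff hz hp.one_le).1 hdvd,
    fun d hd hd' e => hmin' d hd hd' ((dvd_pow_sub_one_iff hz hp.one_le).2 e)⟩

lemma residue_three (hF : Fintype.card F = q ^ 2) {p e : ℕ} (hmin : IsMinimalFieldFor 3 p e F) :
    q = p ∧ p % 3 = 2 := by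
  obtain ⟨h, he, hh, hq, h1, hd⟩ := minimal_unitary hF (by norm_num) hmin
  have hm : p % 3 < 3 := Nat.mod_lt _ (by norm_num)
  generalize hm' : p % 3 = m at *
  have h2 : h = 1 ∧ m = 2 := by
    have hle : e ≤ 2 := by
      by_contra hlt
      have h3 := hd 2 (by norm_num) (by omega)
      interval_cases m <;> simp_all [zero_pow (show e ≠ 0 by omega)]
    obtain rfl : h = 1 := by omega
    refine ⟨rfl, ?_⟩
    have h3 := hd 1 one_pos (by omega)
    rw [he] at h1
    interval_cases m <;> simp_all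
  obtain ⟨rfl, h4⟩ := h2
  exact ⟨by rw [hq, pow_one], h4⟩

lemma residue_seven (hF : Fintype.card F = q ^ 2) {p e : ℕ} (hmin : IsMinimalFieldFor 7 p e F) :
    (q = p ∧ p % 7 = 6) ∨ (q = p ^ 3 ∧ (p % 7 = 3 ∨ p % 7 = 5)) := by
  obtain ⟨h, he, hh, hq, h1, hd⟩ := minimal_unitary hF (by norm_num) hmin
  have hm : p % 7 < 7 := Nat.mod_lt _ (by norm_num)
  generalize p % 7 = m at *
  have hle : e ≤ 6 := by
    by_contra hlt
    have h3 := hd 6 (by norm_num) (by omega)
    interval_cases m <;> simp_all [zero_pow (show e ≠ 0 by omega)]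
  subst he
  have hh3 : h ≤ 3 := by omega
  interval_cases h
  · left
    refine ⟨by rw [hq, pow_one], ?_⟩
    have := hd 1 one_pos (by norm_num)
    interval_cases m <;> simp_all
  · exfalso
    have := hd 2 (by norm_num) (by norm_num)
    interval_cases m <;> simp_all
  · right
    refine ⟨hq, ?_⟩
    have := hd 2 (by norm_num) (by norm_num)
    have := hd 3 (by norm_num) (by norm_num)
    interval_cases m <;> simp_all

lemma residue_eleven (hF : Fintype.card F = q ^ 2) {p e : ℕ} (hmin : IsMinimalFieldFor 11 p e F) :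
    (q = p ∧ p % 11 = 10) ∨ (q = p ^ 5 ∧ (p % 11 = 2 ∨ p % 11 = 6 ∨ p % 11 = 7 ∨ p % 11 = 8)) := by
  obtain ⟨h, he, hh, hq, h1, hd⟩ := minimal_unitary hF (by norm_num) hmin
  have hm : p % 11 < 11 := Nat.mod_lt _ (by norm_num)
  generalize p % 11 = m at *
  have hle : e ≤ 10 := by
    by_contra hlt
    have h3 := hd 10 (by norm_num) (by omega)
    interval_cases m <;> simp_all [zero_pow (show e ≠ 0 by omega)]
  subst he
  have hh5 : h ≤ 5 := by omega
  interval_cases h
  · left
    refine ⟨by rw [hq, pow_one], ?_⟩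
    have := hd 1 one_pos (by norm_num)
    interval_cases m <;> simp_all
  · exfalso
    have := hd 2 (by norm_num) (by norm_num)
    interval_cases m <;> simp_all
  · exfalso
    have := hd 1 (by norm_num) (by norm_num)
    have := hd 2 (by norm_num) (by norm_num)
    interval_cases m <;> simp_all
  · exfalso
    have := hd 2 (by norm_num) (by norm_num)
    interval_cases m <;> simp_all
  · right
    refine ⟨hq, ?_⟩
    have := hd 2 (by norm_num) (by norm_num)
    have := hd 5 (by norm_num) (by norm_num)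
    interval_cases m <;> simp_all

lemma residue_four (hF : Fintype.card F = q ^ 2) {p : ℕ} (hmin : IsMinimalFieldFor 4 p 2 F) :
    q = p ∧ p % 4 = 3 := by
  obtain ⟨h, he, hh, hq, h1, hd⟩ := minimal_unitary hF (by norm_num) hmin
  obtain rfl : h = 1 := by omega
  refine ⟨by rw [hq, pow_one], ?_⟩
  have := hd 1 one_pos (by norm_num)
  have hm : p % 4 < 4 := Nat.mod_lt _ (by norm_num)
  generalize p % 4 = m at *
  interval_cases m <;> first | omega | simp_all

/-- A prime power which is not a prime-power of another prime. -/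
lemma eq_of_prime_pow {n r k s m : ℕ} (hr : r.Prime) (hs : s.Prime) (hk : n = r ^ k) (hn : n = s ^ m)
    (hm : 1 ≤ m) : r = s ∧ k = m := by
  subst hk
  have hrs : r = s := (prime_of_pow_eq hs hr hn hm).symm
  subst hrs
  exact ⟨rfl, Nat.pow_right_injective hr.two_le hn⟩

end Cfsg.Agent.H99.Asch
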